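import Cfsg.Agent.H53.C6Spec

/-! Tower C6P: jobs SW and EV. -/

set_option autoImplicit false
set_option linter.unusedSectionVars false
set_option synthInstance.maxSize 4096
set_option maxRecDepth 100000

namespace H95.C6

open Matrix Cfsg.Geo H25 Equiv H53.C6

universe u

def vc5 (a b c d e : ZMod 5) : ZMod 5 → ZMod 5 := ![a, b, c, d, e]
def vc7 (a b c d e f g : ZMod 7) : ZMod 7 → ZMod 7 := ![a, b, c, d, e, f, g]

theorem q5 : ∀ a b : ZMod 5, 0 + a + b + b + a = 0 → ∀ i : ZMod 5, vc5 0 a b b a i =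
    a * i ^ 2 + 0 * i ^ 4 := by decide +kernel

theorem q7 : ∀ a b c : ZMod 7, 0 + a + b + c + c + b + a = 0 → ∀ i : ZMod 7, vc7 0 a b c c b a i =
    (4 * b - a) * i ^ 2 + (2 * a - 4 * b) * i ^ 4 := by decide +kernel

/-- the possible sign patterns -/
def Sh {r : ℕ} (σ : ZMod r → ZMod r) : Prop :=
  (∀ i, σ i = i) ∨ (∀ i, σ i = -i) ∨ ∃ a b : ZMod r, a * b = 1 ∧
    ((∀ i, a * σ (b * i) = swap 1 (-1) i) ∨ ∀ i, a * σ (-(b * i)) = swap 1 (-1) i)

theorem s5 : ∀ a b : ZMod 5, a = 1 ∨ a = -1 → b = 2 ∨ b = -2 → Sh (vc5 0 a b (-b) (-a)) := by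
  unfold Sh; decide +kernel

theorem s7 : ∀ a b c : ZMod 7, a = 1 ∨ a = -1 → b = 2 ∨ b = -2 → c = 3 ∨ c = -3 →
    Sh (vc7 0 a b c (-c) (-b) (-a)) := by
  unfold Sh; decide +kernel

def u5 : (ZMod 5)ˣ := ⟨2, 3, rfl, rfl⟩
def u7 : (ZMod 7)ˣ := ⟨2, 4, rfl, rfl⟩

variable {F : Type u} [Field F] {r : ℕ} [NeZero r] {ω : Fˣ} {G : Subgroup (GL (ZMod r) F)}
  {v v' : ZMod r → Fˣ} {σ τ : Perm (ZMod r)}

theorem w_sum (h : orderOf ω = r) (φ : ZMod r → ZMod r) (s : Finset (ZMod r)) :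
    w ω (∑ i ∈ s, φ i) = ∏ i ∈ s, w ω (φ i) := by
  classical
  induction s using Finset.induction_on with
  | empty => simp
  | insert a s ha ih => rw [Finset.sum_insert ha, Finset.prod_insert ha, w_add h, ih]

theorem quad (hr : r = 5 ∨ r = 7) (φ : ZMod r → ZMod r) (h0 : φ 0 = 0) (he : ∀ i, φ (-i) = φ i)
    (hs : ∑ i, φ i = 0) : ∃ α β, (β = 0 ∨ r = 7) ∧ ∀ i, φ i = α * i ^ 2 + β * i ^ 4 := by
  rcases hr with rfl | rfl
  · have h4 : φ 4 = φ 1 := he 1
    have h3 : φ 3 = φ 2 := he 2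
    replace hs : φ 0 + φ 1 + φ 2 + φ 3 + φ 4 = 0 := (Fin.sum_univ_five φ).symm.trans hs
    refine ⟨φ 1, 0, .inl rfl, fun i => Eq.trans ?_ (q5 _ (φ 2) (by rwa [h0, h3, h4] at hs) i)⟩
    fin_cases i
    exacts [h0, rfl, rfl, h3, h4]
  · have h6 : φ 6 = φ 1 := he 1
    have h5 : φ 5 = φ 2 := he 2
    have h4 : φ 4 = φ 3 := he 3
    replace hs : φ 0 + φ 1 + φ 2 + φ 3 + φ 4 + φ 5 + φ 6 = 0 := (Fin.sum_univ_seven φ).symm.trans hs
    refine ⟨_, _, .inr rfl, fun i => Eq.trans ?_ (q7 (φ 1) (φ 2) (φ 3) (by rwa [h0, h4, h5, h6] at hs) i)⟩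
    fin_cases i
    exacts [h0, rfl, rfl, rfl, h4, h5, h6]

theorem jobEV : JobEV.{u} := by
  intro F _ _ r _ ω G hf hb nd yd
  refine or_iff_not_imp_right.2 fun hn y hy c1 c2 => ?_
  have := Fact.mk hf.prime
  have h := hf.ord
  have key : ∀ v, dg v ∈ G → Commute (dg v) (tt F r) → ∃ (c : Fˣ) (n : ℕ),
      dg v = sc _ c * dp r ω 2 ^ n := fun v hv c => by
    choose φ hφ using fun i => exists_w h (c := v i / v 0) (by rw [div_pow, nd v hv, nd v hv, div_self'])
    obtain ⟨α, β, h1, h2⟩ := quad hf.hr φ ((w_eq_one_iff h).1 (by rw [← hφ, div_self']))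
      (fun i => (w_inj h).1 (by
        rw [← hφ, ← hφ, show v (-i) = v i from Units.ext (by
          simpa [dg_val] using comm_tt_iff.1 c i i)]))
      ((w_eq_one_iff h).1 (by
        simp only [w_sum h, ← hφ, Finset.prod_div_distrib, Finset.prod_const, Finset.card_univ,
          ZMod.card, nd v hv 0, div_self']))
    have e : dg v = sc _ (v 0) * dp r ω 2 ^ α.val * dp r ω 4 ^ β.val := by
      rw [dp_pow h, dp_pow h, ← dg_const, ← map_mul, ← map_mul]
      congr 1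
      ext1 i
      simp only [Pi.mul_apply, ZMod.natCast_val, ZMod.cast_id', id_eq, mul_assoc, ← w_add h, ← h2, ← hφ,
        mul_div_cancel]
    by_cases hβ : β = 0
    · exact ⟨_, _, by rw [e, hβ, ZMod.val_zero, pow_zero, mul_one]⟩
    refine (hn ⟨h1.resolve_left hβ, ?_⟩).elim
    have := G.pow_mem ((G.mul_mem_cancel_left (G.mul_mem (hb.sc _) (G.pow_mem hb.p _))).1 (e ▸ hv)) β⁻¹.val
    rwa [← pow_mul, dp_pow h, Nat.cast_mul, ZMod.natCast_zmod_val, ZMod.natCast_zmod_val,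
      mul_inv_cancel₀ hβ, funext fun i => congrArg (w ω) (one_mul _)] at this
  obtain ⟨v, rfl | rfl⟩ := yd y hy c1 c2
  · exact (key v hy c2).imp fun _ => Exists.imp fun _ => .inl
  · obtain ⟨c, n, e⟩ := key v ((G.mul_mem_cancel_right hb.tt).1 hy) (by
      simpa using c2.mul_left (Commute.refl (tt F r)).inv_left)
    exact ⟨c, n, .inr (by rw [e])⟩

/-- a monomial element of `G` -/
def In (G : Subgroup (GL (ZMod r) F)) (v : ZMod r → Fˣ) (σ : Perm (ZMod r)) : Prop := dg v * pm σ ∈ G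

theorem In.mul (h : In G v σ) (h' : In G v' τ) : In G (fun i => v i * v' (σ⁻¹ i)) (σ * τ) := by
  have := G.mul_mem h h'
  rwa [mul_assoc, ← mul_assoc (pm σ), pm_mul_dg, mul_assoc, ← map_mul, ← mul_assoc, ← map_mul] at this

theorem In.cj (hb : Base ω G) (h : In G v σ) (a : (ZMod r)ˣ) (b : ZMod r) :
    In G (fun i => v ((af a b)⁻¹ i)) (af a b * σ * (af a b)⁻¹) := by
  have := hb.conj a b h
  rwa [← conj_mul, pm_conj_dg, ← map_inv, ← map_mul, ← map_mul] at this

theorem In.neg (hb : Base ω G) (h : In G v σ) : In G v (σ * af (-1) 0) := by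
  have := G.mul_mem h (hb.af (-1) 0)
  rwa [mul_assoc, ← map_mul] at this

theorem In.sign (hr : Odd r) (nd : ND G) (h : In G v σ) (e : σ = 1) {i j : ZMod r}
    (h1 : v i * v i = 1) (h2 : v j * v j = 1) : v i = v j := by
  obtain ⟨m, hm⟩ := hr
  have := (nd v (by simpa [In, e] using h) i).trans (nd v (by simpa [In, e] using h) j).symm
  rwa [hm, pow_succ, pow_succ, pow_mul, pow_mul, pow_two, pow_two, h1, h2, one_pow, one_mul,
    one_mul] at this

theorem signs (hr : r = 5 ∨ r = 7) (hb : Base ω G) (nd : ND G) (h : In G v (swap 1 (-1)))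
    (h0 : v 0 = 1) (he : ∀ i, v (-i) = v i) (h2 : ∀ i, v i * v i = 1) : v = 1 := by
  have q2 : ∀ a b, v a * v b * (v a * v b) = 1 := fun a b => by rw [mul_mul_mul_comm, h2, h2, one_mul]
  have q3 : ∀ a b c, v a * v b * v c * (v a * v b * v c) = 1 := fun a b c => by
    rw [mul_mul_mul_comm, q2, h2, one_mul]
  have q : ∀ a b c d, v a * v b * (v c * v d) * (v a * v b * (v c * v d)) = 1 := fun a b c d => by
    rw [mul_mul_mul_comm, q2, q2, one_mul]
  have k := fun b => (h.mul (h.cj hb 1 b)).mul (h.mul (h.cj hb 1 b))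
  rcases hr with rfl | rfl
  · have h4 : v 4 = v 1 := he 1
    have h3 : v 3 = v 2 := he 2
    have a : v 0 * v 4 * (v 2 * v 1) = v 3 * v 2 * (v 3 * v 2) :=
      (k 1).sign (by decide) nd (by decide) (i := 0) (j := 3) (q ..) (q ..)
    have b : v 0 * v 0 = v 1 * v 2 := ((h.mul (h.cj hb u5 0)).neg hb).sign
      (by decide) nd (by decide) (i := 0) (j := 1) (q2 ..) (q2 ..)
    rw [h0, h4, h3, h2, one_mul, one_mul, mul_left_comm, h2, mul_one] at a
    rw [h0, a, mul_one, mul_one] at b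
    ext1 i
    fin_cases i
    exacts [h0, b.symm, a, h3.trans a, h4.trans b.symm]
  · have h6 : v 6 = v 1 := he 1
    have h5 : v 5 = v 2 := he 2
    have h4 : v 4 = v 3 := he 3
    have a : v 0 * v 6 * (v 2 * v 1) = v 3 * v 2 * (v 3 * v 2) :=
      (k 1).sign (by decide) nd (by decide) (i := 0) (j := 3) (q ..) (q ..)
    have c : v 2 * v 6 * (v 4 * v 1) = v 0 * v 4 * (v 0 * v 4) :=
      (k 3).sign (by decide) nd (by decide) (i := 2) (j := 0) (q ..) (q ..)
    have b : v 0 * v 0 * v 0 = v 1 * v 3 * v 5 := (((h.mul (h.cj hb u7 0)).mul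
      (h.cj hb u7⁻¹ 0)).neg hb).sign (by decide) nd (by decide) (i := 0) (j := 1) (q3 ..) (q3 ..)
    rw [h0, h6, mul_mul_mul_comm (v 3), h2, h2, one_mul, one_mul, mul_left_comm, h2, mul_one] at a
    rw [h0, h6, h4, a, one_mul, one_mul, h2, mul_left_comm, h2, mul_one] at c
    rw [h0, h5, a, c, mul_one, mul_one, mul_one, mul_one] at b
    ext1 i
    fin_cases i
    exacts [h0, b.symm, a, c, h4.trans c, h5.trans a, h6.trans b.symm]

theorem key (hr : r = 5 ∨ r = 7) (hb : Base ω G) (nd : ND G) (h : In G v (swap 1 (-1)))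
    (he : ∀ i, v (-i) = v i) : pm (swap 1 (-1)) ∈ G := by
  have hs : ∀ i, v ((swap 1 (-1))⁻¹ i) = v i := fun i => by
    rw [swap_inv, swap_apply_def]
    split_ifs with h1 h2
    exacts [by rw [h1, he], by rw [h2, he], rfl]
  have h2 : dg (v * v) ∈ G := by
    have := h.mul h
    simp only [hs, Equiv.swap_mul_self, In, map_one, mul_one] at this
    exact this
  obtain ⟨m, hm⟩ : Odd r := by rcases hr with rfl | rfl <;> decide
  have h3 : In G (fun i => (v i / v 0) ^ r) (swap 1 (-1)) := by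
    have := G.mul_mem (hb.sc (v 0 ^ r)⁻¹) (G.mul_mem (G.pow_mem h2 m) h)
    rw [← dg_const, ← map_pow, ← mul_assoc, ← mul_assoc, ← map_mul, ← map_mul] at this
    unfold In
    convert this using 3
    ext1 i
    simp only [Pi.mul_apply, Pi.pow_apply, div_pow, ← pow_two, ← pow_mul]
    rw [mul_assoc, ← pow_succ, ← hm, div_eq_inv_mul]
  have := signs hr hb nd h3 (by simp) (fun i => by rw [he]) fun i => by
    rw [← mul_pow, div_mul_div_comm, div_pow]
    exact div_eq_one.2 ((nd _ h2 i).trans (nd _ h2 0).symm)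
  simpa [In, this] using h3

theorem shape (hr : r = 5 ∨ r = 7) (σ : ZMod r → ZMod r) (h : ∀ i, σ i = i ∨ σ i = -i)
    (he : ∀ i, σ (-i) = -σ i) : Sh σ := by
  rcases hr with rfl | rfl
  · have e : σ = vc5 0 (σ 1) (σ 2) (-σ 2) (-σ 1) := funext fun i => by
      fin_cases i
      exacts [(h 0).elim id id, rfl, rfl, he 2, he 1]
    rw [e]
    exact s5 _ _ (h 1) (h 2)
  · have e : σ = vc7 0 (σ 1) (σ 2) (σ 3) (-σ 3) (-σ 2) (-σ 1) := funext fun i => by
      fin_cases i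
      exacts [(h 0).elim id id, rfl, rfl, rfl, he 3, he 2, he 1]
    rw [e]
    exact s7 _ _ _ (h 1) (h 2) (h 3)

theorem jobSW : JobSW.{u} := by
  intro F _ _ r _ ω G hf hb _ nd v σ h hy c
  have e := mul_inv_eq_iff_eq_mul.2 c.symm.eq
  rw [tt, hh, ← conj_mul, pm_conj_dg, ← map_inv, ← map_mul, ← map_mul] at e
  obtain ⟨e1, e2⟩ := dg_pm_inj e
  have he : ∀ i, v (-i) = v i := fun i => by simpa using congrFun e1 i
  rcases shape hf.hr σ h (fun i => by
    simpa using (DFunLike.congr_fun (mul_inv_eq_iff_eq_mul.1 e2) i).symm) with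
    k | k | ⟨a, b, ab, k⟩
  · exact .inl (Equiv.ext k)
  · exact .inr (.inl (Equiv.ext fun i => by simpa using k i))
  have ev : ∀ i, v ((af (.mkOfMulEqOne a b ab) 0)⁻¹ (-i)) = v ((af (.mkOfMulEqOne a b ab) 0)⁻¹ i) :=
    fun i => by simp [he]
  refine .inr (.inr (key (v := fun i => v ((af (.mkOfMulEqOne a b ab) 0)⁻¹ i)) hf.hr hb nd ?_ ev))
  rcases k with k | k
  · convert In.cj hb hy (.mkOfMulEqOne a b ab) 0 using 1
    exact Equiv.ext fun i => by simpa [-Perm.coe_inv] using! (k i).symm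
  · convert (In.neg hb hy).cj hb (.mkOfMulEqOne a b ab) 0 using 1
    exact Equiv.ext fun i => by simpa [-Perm.coe_inv] using! (k i).symm

end H95.C6
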