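import Cfsg.Agent.H13.T3D
import Cfsg.Agent.H98.Sylow

/-! Tower C6R3, job T: the centralisers of the involutions `tt` normalise `R`. -/

set_option autoImplicit false
set_option linter.unusedSectionVars false

namespace H95.T3

open Matrix hiding mul_inv_rev
open Cfsg Cfsg.Geo H25 H60.L3 H13.T3 H98 Subgroup
open scoped MatrixGroups commutatorElement

universe u

section grp
variable {Γ : Type*} [Group Γ] [Finite Γ] {p : ℕ} [Fact p.Prime] {T H : Subgroup Γ} {y g d : Γ}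

/-- Burnside's normal complement theorem inside a subgroup. -/
theorem burn (hT : IsSyl p T H) (h : ∀ g ∈ H, g ∈ normalizer (T : Set Γ) → g ∈ centralizer (T : Set Γ)) :
    ∃ K ≤ H, ¬ p ∣ Nat.card K ∧ H ≤ K ⊔ T ∧ normalizer (H : Set Γ) ≤ normalizer (K : Set Γ) := by
  obtain ⟨P, hP⟩ := hT.exists_sylow
  have h' : normalizer ((P : Subgroup H) : Set H) ≤ centralizer ((P : Subgroup H) : Set H) := by
    rw [hP, ← subgroupOf_normalizer_eq hT.le, centralizer_subgroupOf hT.le]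
    exact fun x hx => h x x.2 hx
  have c := MonoidHom.not_dvd_card_ker_transferSylow P h'
  refine ⟨(MonoidHom.transferSylow P h').ker.map H.subtype, map_subtype_le _,
    by rwa [card_map_of_injective (subtype_injective _)], fun x hx => ?_, fun g hg =>
      mem_normalizer_of_cj_le ?_⟩
  · have := mem_map_of_mem H.subtype
      ((MonoidHom.ker_transferSylow_isComplement' P h').sup_eq_top.ge (mem_top ⟨x, hx⟩))
    rwa [Subgroup.map_sup, show (P : Subgroup H).map H.subtype = T by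
      rw [hP, map_subgroupOf_eq_of_le hT.le]] at this
  · rintro _ ⟨_, ⟨x, hx, rfl⟩, rfl⟩
    refine ⟨⟨_, conj_mem_of_mem_normalizer hg x.2⟩, ?_, rfl⟩
    obtain ⟨k, hk⟩ := P.2 (MonoidHom.transferSylow P h' ⟨_, conj_mem_of_mem_normalizer hg x.2⟩)
    refine orderOf_eq_one_iff.1 (Nat.eq_one_of_dvd_coprimes
      (((Nat.Prime.coprime_iff_not_dvd Fact.out).2 c).pow_left k) (orderOf_dvd_of_pow_eq_one hk)
      ((orderOf_map_dvd _ _).trans ?_))
    rw [← orderOf_coe]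
    exact (((MulAut.conj g).orderOf_eq (x : Γ)).trans (orderOf_coe x)).dvd.trans (orderOf_dvd_natCard _ hx)

/-- A `p`-element normalizing `H` centralizes an element of order `p`. -/
theorem fixp (hy : y ^ p = 1) (hn : y ∈ normalizer (H : Set Γ)) (h : p ∣ Nat.card H) :
    ∃ g ∈ H, orderOf g = p ∧ g * y = y * g := by
  let φ : zpowers y →* MulAut H := H.normalizerMonoidHom.comp (inclusion (zpowers_le_of_mem hn))
  let _ : MulAction (zpowers y) H := MulAction.compHom H φ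
  have m := (isPGroup_zpowers (p := p) (k := 1) (by rwa [pow_one])).card_modEq_card_fixedPoints H
  have e : Nat.card (MulAction.fixedPoints (zpowers y) H) = Nat.card ↥(H ⊓ centralizer {y}) := by
    refine Nat.card_congr ⟨fun a => ⟨a.1, a.1.2, mem_centralizer_singleton_iff.2 ?_⟩,
      fun a => ⟨⟨a, a.2.1⟩, fun s => Subtype.ext ?_⟩, fun _ => rfl, fun _ => rfl⟩
    · exact (mul_inv_eq_iff_eq_mul.1 (congrArg Subtype.val (a.2 ⟨y, mem_zpowers y⟩))).symm
    · obtain ⟨_, k, rfl⟩ := s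
      exact mul_inv_eq_iff_eq_mul.2
        (Commute.zpow_right (mem_centralizer_singleton_iff.1 a.2.2) k).eq.symm
  obtain ⟨g, hg⟩ := exists_prime_orderOf_dvd_card' (G := ↥(H ⊓ centralizer {y})) p
    (e ▸ (m.dvd_iff dvd_rfl).1 h)
  exact ⟨g, g.2.1, (orderOf_coe g).trans hg, mem_centralizer_singleton_iff.1 g.2.2⟩

omit [Finite Γ] in
theorem fix_of_three {k : ℕ} (hg : g ^ 3 ^ k = 1) (h : g * d * g⁻¹ = d⁻¹) : d * d = 1 := by
  obtain ⟨m, hm⟩ : Odd (3 ^ k) := Odd.pow (by decide)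
  have c : Commute (g * g) d := by
    rw [commute_iff_eq, ← mul_inv_eq_iff_eq_mul]
    calc _ = g * (g * d * g⁻¹) * g⁻¹ := by group
      _ = g * d⁻¹ * g⁻¹ := by rw [h]
      _ = (g * d * g⁻¹)⁻¹ := by group
      _ = d := by rw [h, inv_inv]
  have e : (g * g) ^ (m + 1) = g := by
    rw [← pow_two, ← pow_mul, show 2 * (m + 1) = 2 * m + 1 + 1 by ring, ← hm, pow_succ, hg, one_mul]
  have := (c.pow_left (m + 1)).eq
  rw [e, ← mul_inv_eq_iff_eq_mul, h] at this
  exact mul_eq_one_iff_inv_eq.2 this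

omit [Finite Γ] in
theorem mem_zp (h : g ^ 3 = 1) (hd : d ∈ zpowers g) : d = 1 ∨ d = g ∨ d = g⁻¹ := by
  obtain ⟨k, rfl⟩ := (isOfFinOrder_iff_pow_eq_one.2 ⟨3, by decide, h⟩).mem_powers_iff_mem_zpowers.2 hd
  exact pow_mod3 h k

end grp

variable {F : Type u} [Field F] {ι : Type} [Fintype ι] [DecidableEq ι]
variable {ω c : Fˣ} {R G : Subgroup (GL ι F)} {d x y y' e g r t v : GL ι F} {p : Matrix ι ι F}

theorem cm_iff : g ∈ Cm (t.val - 1) ↔ g * t = t * g := by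
  rw [mem_Cm, mul_sub, sub_mul, mul_one, one_mul, sub_left_inj, ← Units.val_mul, ← Units.val_mul,
    Units.val_inj]

theorem smul_fix (hp : p ≠ 0) (h : (c : F) • p = p) : c = 1 :=
  Units.ext (smul_left_injective F hp (h.trans (one_smul F p).symm))

theorem fx_Z (hp : p ≠ 0) (hg : g ∈ Fx p) (hz : g ∈ scalars ι F) : g = 1 := by
  obtain ⟨c, rfl⟩ := mem_Z.1 hz
  rw [smul_fix hp (c := c) (by rwa [mem_Fx, smul_val, Units.val_one, smul_mul_assoc, one_mul] at hg), one_smul]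

theorem fx_smul (hp : p ≠ 0) (hg : g ∈ Fx p) (he : e ∈ Cm p) (h : g * e = c • (e * g)) :
    g * e = e * g := by
  have a : (g * e).val * p = e.val * p := by
    rw [Units.val_mul, mul_assoc, mem_Cm.1 he, ← mul_assoc, mem_Fx.1 hg]
  rw [h, smul_val, Units.val_mul, smul_mul_assoc, mul_assoc, mem_Fx.1 hg] at a
  rw [h, smul_fix (fun z => hp (by rw [← Units.inv_mul_cancel_left e p, z, mul_zero])) a, one_smul]

theorem one_of_sq (h2 : c * c = 1) (h3 : c ^ 3 = 1) : c = 1 := by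
  rwa [pow_succ, pow_two, h2, one_mul] at h3

theorem flip_rel (h : x * d⁻¹ = c • (d⁻¹ * x)) : d * x = c • (x * d) := by
  calc _ = d * (x * d⁻¹) * d := by group
    _ = _ := by rw [h, mul_smul_comm, smul_mul_assoc]; group

theorem flip_rel' (h : d * x = c • (x * d)) : x⁻¹ * d = c • (d * x⁻¹) := by
  calc _ = x⁻¹ * (d * x) * x⁻¹ := by group
    _ = _ := by rw [h, mul_smul_comm, smul_mul_assoc]; group

theorem both [Nonempty ι] (h3 : c ^ 3 = 1) (h : x * d = c • (d * x)) (h' : d * x = c • (x * d)) :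
    x * d = d * x := by
  rw [h, smul_smul] at h'
  rw [h, one_of_sq (smul_inj ((one_smul _ _).trans h')).symm h3, one_smul]

theorem uniq [Nonempty ι] (h1 : v ^ 3 = 1) (h2 : (c • v) ^ 3 = 1) (h3 : t * v * t⁻¹ = v⁻¹)
    (h4 : t * (c • v) * t⁻¹ = (c • v)⁻¹) : c • v = v := by
  rw [smul_pow, h1] at h2
  rw [mul_smul_comm, smul_mul_assoc, h3, smul_inv] at h4
  rw [one_of_sq (mul_eq_one_iff_eq_inv.2 (smul_inj h4)) (smul_inj (h2.trans (one_smul _ _).symm)),
    one_smul]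

/-- the elements centralizing `t` and fixing the image of `t - 1` -/
def KK (G : Subgroup (GL ι F)) (t : GL ι F) : Subgroup (GL ι F) := G ⊓ Cm (t.val - 1) ⊓ Fx (t.val - 1)

theorem cj_K (hg : g ∈ G) (h : g * t = t * g) (hr : r ∈ KK G t) : g * r * g⁻¹ ∈ KK G t :=
  ⟨⟨G.mul_mem (G.mul_mem hg hr.1.1) (G.inv_mem hg), (Cm _).mul_mem ((Cm _).mul_mem (cm_iff.2 h) hr.1.2)
    ((Cm _).inv_mem (cm_iff.2 h))⟩, conj_mem_Fx (cm_iff.2 h) hr.2⟩

variable [Finite F] (h : Ov ω R G) (hS : Sb ω R d x y y')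
include h hS

theorem nor_K (hg : g ∈ G) (h1 : g * t = t * g) : g ∈ normalizer (KK G t : Set (GL ι F)) :=
  mem_normalizer_of_cj_le (by rintro _ ⟨r, hr, rfl⟩; exact cj_K hg h1 hr)

theorem t_ne : (tt ω d x).val - 1 ≠ 0 := fun e =>
  h.toEx.tt_not_Z hS.md hS.mx hS.rel (by
    rw [show tt ω d x = 1 from Units.ext (by rw [sub_eq_zero.1 e, Units.val_one])]; exact one_mem _)

theorem td : tt ω d x * d * (tt ω d x)⁻¹ = d⁻¹ := tt_conj_d h.om (h.cube d hS.md) (h.cube x hS.mx) hS.rel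

theorem tx : tt ω d x * x * (tt ω d x)⁻¹ = x⁻¹ := tt_conj_x h.om (h.cube d hS.md) (h.cube x hS.mx) hS.rel

theorem tc (h1 : g * d = d * g) (h2 : g * x = x * g) : g * tt ω d x = tt ω d x * g :=
  tt_comm h.om (h.cube d hS.md) (h.cube x hS.mx) h1 h2

theorem ty : y * tt ω d x = tt ω d x * y := tc h hS hS.dy.symm hS.xy.symm

theorem ty' : y' * tt ω d x = tt ω d x * y' := tc h hS hS.dy'.symm hS.xy'.symm

theorem KR (hr : r ∈ R) (hk : r ∈ KK G (tt ω d x)) : r = 1 := by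
  have := h.ne
  have a : ∀ v ∈ R, tt ω d x * v * (tt ω d x)⁻¹ = v⁻¹ → r * v = v * r := fun v hv e => by
    obtain ⟨k, hk', -⟩ := h.toEx.ex_pow hr hv
    refine both (by rw [← pow_mul, mul_comm, pow_mul, h.om.cube, one_pow]) hk' (flip_rel ?_)
    have := congrArg (fun z => tt ω d x * z * (tt ω d x)⁻¹) hk'
    simp only [mul_smul_comm, smul_mul_assoc, ← conj_mul, e] at this
    rwa [← cm_iff.1 hk.1.2, mul_inv_cancel_right] at this
  have b : ∀ v ∈ R, v * tt ω d x = tt ω d x * v → r * v = v * r := fun v hv e => by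
    obtain ⟨k, hk', -⟩ := h.toEx.ex_pow hr hv
    exact fx_smul (t_ne h hS) hk.2 (cm_iff.2 e) hk'
  exact fx_Z (t_ne h hS) hk.2 (hS.Z_of_comm h (a d hS.md (td h hS)) (a x hS.mx (tx h hS))
    (b y hS.my (ty h hS)) (b y' hS.my' (ty' h hS)))

theorem KN (hg : g ∈ KK G (tt ω d x)) (hn : g ∈ subgroupNormalizer R) (he : e ∈ R)
    (h1 : e * tt ω d x = tt ω d x * e) : g * e = e * g := by
  have := KR h hS (mul_mem (mem_N hn he) (inv_mem he)) (by
    simpa only [mul_assoc] using mul_mem hg (cj_K (h.le he) h1 (inv_mem hg)))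
  rwa [mul_inv_eq_one, mul_inv_eq_iff_eq_mul] at this

omit hS in
theorem hm_K (hv : v ∈ R) (hz : v ∉ scalars ι F) (h1 : t * v * t⁻¹ = v⁻¹) (h2 : pj v * t.val = pj v) :
    hm ω v ∈ KK G t := by
  refine ⟨⟨h.hmem v hv hz, cm_iff.2 (mul_inv_eq_iff_eq_mul.1 ?_).symm⟩, mem_Fx.2 ?_⟩
  · rw [hm_conj h.om (h.cube v hv), h1, hm_inv (h.cube v hv)]
  · rw [hm_val h.om (h.cube v hv), add_mul, smul_mul_assoc, mul_sub (pj v), h2]
    simp

theorem hd_K : hm ω d ∈ KK G (tt ω d x) := hm_K h hS.md (hS.dZ h.toEx) (td h hS)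
  (pj_mul_tt h.om (h.cube d hS.md) (h.cube x hS.mx) hS.rel)

theorem hx_K : hm ω x ∈ KK G (tt ω d x) := hm_K h hS.mx (hS.xZ h.toEx) (tx h hS)
  (pj_mul_tt' h.om (h.cube d hS.md) (h.cube x hS.mx) hS.rel)

/-- the inverted partners of `d` -/
theorem conj_hd (hv : v ∈ R) (h1 : tt ω d x * v * (tt ω d x)⁻¹ = v⁻¹) (h2 : v * y = y * v)
    (h3 : v * y' = y' * v) (h4 : v * d = ω • (d * v)) :
    ∃ k ∈ zpowers (hm ω d), k * x * k⁻¹ = v := by
  have := h.ne
  have hd := h.cube d hS.md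
  have hu := mul_mem hv (inv_mem hS.mx)
  obtain ⟨k, hk, -⟩ := h.toEx.ex_pow hu hS.mx
  have ud : Commute (v * x⁻¹) d := by
    rw [commute_iff_eq, mul_assoc, ← inv_smul_eq_iff.2 (rel_inv hS.rel), mul_smul_comm, ← mul_assoc, h4,
      smul_mul_assoc, inv_smul_smul, mul_assoc]
  have z := hS.cen h (mul_mem hu (pow_mem hS.md k)) (ud.mul_left ((Commute.refl d).pow_left k)).eq
    (adj1 hS.rel hk)
    (((Commute.mul_left h2 (Commute.inv_left hS.xy)).mul_left (Commute.pow_left hS.dy k)).eq)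
    (((Commute.mul_left h3 (Commute.inv_left hS.xy')).mul_left (Commute.pow_left hS.dy' k)).eq)
  obtain ⟨c, hc⟩ := mem_Z.1 (zpowers_le_of_mem (show sc ι ω ∈ scalars ι F from ⟨ω, rfl⟩) z)
  have e : v = c • ((d ^ k)⁻¹ * x) := by
    calc v = (d ^ k)⁻¹ * (d ^ k * (v * x⁻¹)) * x := by group
      _ = _ := by rw [← (ud.pow_right k).eq, hc, mul_smul_comm, mul_one, smul_mul_assoc]
  have key : ∀ k ∈ zpowers (hm ω d), ∀ c : Fˣ, v = c • (k * x * k⁻¹) →
      ∃ k ∈ zpowers (hm ω d), k * x * k⁻¹ = v := fun k hk c e => ⟨k, hk, by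
    refine (e.trans (uniq (t := tt ω d x) ?_ (e ▸ h.cube v hv) ?_ (e ▸ h1))).symm
    · rw [conj_pow, h.cube x hS.mx]; simp
    · have := cm_iff.1 (zpowers_le_of_mem (hd_K h hS) hk).1.2
      calc _ = (tt ω d x * k) * x * (tt ω d x * k)⁻¹ := by group
        _ = k * (tt ω d x * x * (tt ω d x)⁻¹) * k⁻¹ := by rw [← this]; group
        _ = _ := by rw [tx h hS]; group⟩
  rcases pow_mod3 hd k with j | j | j <;> rw [j] at e
  · exact key 1 (one_mem _) c (by simpa using e)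
  · exact key _ (mem_zpowers _) (c * ω⁻¹) (by rw [hm_conj_rel h.om hd hS.rel, mul_smul, inv_smul_smul, e])
  · exact key _ (inv_mem (mem_zpowers _)) (c * ω⁻¹ * ω⁻¹) (by
      rw [inv_inv, hm_inv_conj h.om hd hS.rel, mul_smul, mul_smul, inv_smul_smul, inv_smul_smul, e,
        inv_inv])

omit hS in
theorem nor_hm (hv : v ∈ R) (hz : v ∉ scalars ι F) (he : e ∈ R) (hz' : e ∉ scalars ι F)
    (h1 : g * hm ω v * g⁻¹ ∈ zpowers (hm ω e)) : g * hm ω v * g⁻¹ = hm ω e := by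
  rcases mem_zp (hm_cube h.om (h.cube e he)) h1 with j | j | j
  · refine (h.hm_not_conj hv hz hv hz 1 ?_).elim
    rw [conj_eq_one_iff.1 j]; simp
  · exact j
  · exact (h.hm_not_conj hv hz he hz' g j).elim

theorem sgn (hn : g ∈ subgroupNormalizer R) (h1 : g * hm ω d = hm ω d * g)
    (h2 : g * hm ω x = hm ω x * g) : (g * d * g⁻¹ = d ∧ g * x * g⁻¹ = x) ∨
      (g * d * g⁻¹ = d⁻¹ ∧ g * x * g⁻¹ = x⁻¹) := by
  have := h.ne
  have k := (hS.conj hn).rel
  have n : d * x ≠ ω • (x * d) := fun e => ne_of_rel h.om hS.rel (both h.om.cube hS.rel e)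
  rcases h.toEx.cen_pj hS.md (hS.dZ h.toEx) hn (comm_pj_of_hm h.om (h.cube d hS.md) h1) with a | a <;>
  rcases h.toEx.cen_pj hS.mx (hS.xZ h.toEx) hn (comm_pj_of_hm h.om (h.cube x hS.mx) h2) with b | b <;>
  rw [a, b] at k
  · exact .inl ⟨a, b⟩
  · exact (n (by simpa using rel_inv (x := x⁻¹) k)).elim
  · exact (n (flip_rel k)).elim
  · exact .inr ⟨a, b⟩

variable (hT : TI R G)
include hT

theorem syl : IsSyl 3 (zpowers (hm ω d)) (KK G (tt ω d x)) := by
  have : Fact (Nat.Prime 3) := ⟨Nat.prime_three⟩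
  have := h.ne
  have hd := h.cube d hS.md
  have dZ := hS.dZ h.toEx
  have h3 : IsPGroup 3 (zpowers (hm ω d)) := isPGroup_zpowers (k := 1) (hm_cube h.om hd)
  let L := G ⊓ Cm ((tt ω d x).val - 1) ⊓ centralizer {hm ω d}
  have mL : ∀ e ∈ R, e * tt ω d x = tt ω d x * e → e * d = d * e → e ∈ R ⊓ L := fun e he a b =>
    ⟨he, ⟨h.le he, cm_iff.2 a⟩, mem_centralizer_singleton_iff.2 (hm_comm h.om hd b)⟩
  have hL : zpowers (hm ω d) ≤ L :=
    zpowers_le_of_mem ⟨(hd_K h hS).1, mem_centralizer_singleton_iff.2 rfl⟩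
  have cL : ∀ g ∈ L, ∀ k ∈ zpowers (hm ω d), Commute g k := by
    rintro g hg _ ⟨k, rfl⟩
    exact Commute.zpow_right (mem_centralizer_singleton_iff.1 hg.2) k
  have nq : zpowers (hm ω d) ≤ normalizer ((R ⊓ L : Subgroup _) : Set (GL ι F)) :=
    le_normalizer_of_le_centralizer fun k hk g hg => cL g hg.2 k hk
  have nK : L ≤ normalizer (KK G (tt ω d x) : Set (GL ι F)) := fun g hg =>
    nor_K h hS hg.1.1 (cm_iff.1 hg.1.2)
  have q3 : IsPGroup 3 ↥(R ⊓ L ⊔ zpowers (hm ω d)) := isPGroup_iff_forall.2 fun g hg => ⟨1, by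
    obtain ⟨a, ha, b, hb, rfl⟩ := (mem_sup_right_norm nq).1 hg
    rw [pow_one, (cL a ha.2 _ hb).mul_pow, h.cube a ha.1, one_mul]
    rcases mem_zp (hm_cube h.om hd) hb with rfl | rfl | rfl <;> simp [hm_cube h.om hd]⟩
  obtain ⟨T, sT, hQ⟩ := exists_isSyl_le q3 (sup_le inf_le_right hL)
  have key : T ⊓ KK G (tt ω d x) ≤ zpowers (hm ω d) := by
    by_contra hn
    have n1 : R ⊓ L ⊔ zpowers (hm ω d) ≤ normalizer ((T ⊓ KK G (tt ω d x) : Subgroup _) : Set (GL ι F)) :=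
      le_normalizer_inf (le_normalizer_of_le hQ) (hQ.trans (sT.le.trans nK))
    have dk : ∀ g ∈ R ⊓ L ⊔ zpowers (hm ω d), g ∈ KK G (tt ω d x) → g ∈ zpowers (hm ω d) := fun g hg k => by
      obtain ⟨a, ha, b, hb, rfl⟩ := (mem_sup_right_norm nq).1 hg
      rwa [KR h hS ha.1 ((mul_mem_cancel_right (zpowers_le_of_mem (hd_K h hS) hb)).1 k), one_mul]
    obtain ⟨g', ⟨h1, h2⟩, h4⟩ := SetLike.exists_of_lt (lt_inf_normalizer
      (sT.isPGroup.to_le (sup_le hQ inf_le_left)) (lt_of_le_of_ne (le_sup_left (b := T ⊓ KK G (tt ω d x)))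
        fun e => hn fun g hg => dk g (e.ge (mem_sup_right hg)) hg.2))
    obtain ⟨q, hq, g, hg, rfl⟩ := (mem_sup_left_norm n1).1 h1
    replace h2 := (mul_mem_cancel_left (le_normalizer hq)).1 h2
    refine h4 (mul_mem hq (mem_sup_right ?_))
    have cm : ∀ e ∈ R ⊓ L, g * e * g⁻¹ * e⁻¹ ∈ zpowers (hm ω d) := fun e he =>
      dk _ (mul_mem (conj_mem_of_mem_normalizer h2 (mem_sup_left he)) (inv_mem (mem_sup_left he))) (by
        simpa only [mul_assoc] using (KK G _).mul_mem hg.2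
          (conj_mem_of_mem_normalizer (nK he.2) ((KK G _).inv_mem hg.2)))
    have my := mL y hS.my (ty h hS) hS.dy.symm
    have my' := mL y' hS.my' (ty' h hS) hS.dy'.symm
    have gN : g ∈ subgroupNormalizer R := by
      have a : ∀ e ∈ R, e * y ≠ y * e → g * e * g⁻¹ * e⁻¹ = 1 → g ∈ subgroupNormalizer R :=
        fun e he n j => hT e he (not_Z_of_ne n.symm) g hg.2.1.1 ((mul_inv_eq_one.1 j).symm ▸ he)
      have n := ne_of_rel h.om hS.rel'
      by_cases j : g * y * g⁻¹ * y⁻¹ = 1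
      · exact hT y hS.my (not_Z_of_ne n) g hg.2.1.1 ((mul_inv_eq_one.1 j).symm ▸ hS.my)
      have b : ∀ s, Commute s y → s ∈ R ⊓ L → g * y' * g⁻¹ * y'⁻¹ * (g * s * g⁻¹ * s⁻¹) = 1 →
          g ∈ subgroupNormalizer R := fun s c hs k =>
        a (y' * s) (mul_mem hS.my' hs.1) (fun e => n (mul_right_cancel (b := s) (by
          rw [mul_assoc, ← c.eq, ← mul_assoc, e, mul_assoc]))) (by
          rw [← k, mul_assoc _ y'⁻¹, ← ((cL _ (inv_mem my'.2) _ (cm s hs)).symm).eq]; group)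
      have iv : g * y⁻¹ * g⁻¹ * y⁻¹⁻¹ = (g * y * g⁻¹ * y⁻¹)⁻¹ := by
        rw [← mul_inv_cancel_right (g * y * g⁻¹ * y⁻¹)⁻¹ y⁻¹,
          ← ((cL _ (inv_mem my.2) _ (inv_mem (cm y my)))).eq]; group
      rcases mem_zp (hm_cube h.om hd) (cm y' my') with k | k | k
      · exact a y' hS.my' n k
      all_goals rcases (mem_zp (hm_cube h.om hd) (cm y my)).resolve_left j with l | l
      · exact b y⁻¹ (Commute.refl y).inv_left (inv_mem my) (by rw [iv, k, l]; simp)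
      · exact b y rfl my (by rw [k, l]; simp)
      · exact b y rfl my (by rw [k, l]; simp)
      · exact b y⁻¹ (Commute.refl y).inv_left (inv_mem my) (by rw [iv, k, l]; simp)
    obtain ⟨n, hn⟩ := isPGroup_iff_forall.1 sT.isPGroup g hg.1
    have gd : g * d * g⁻¹ = d := (h.toEx.cen_pj hS.md dZ gN (comm_pj_of_hm h.om hd
      (mem_centralizer_singleton_iff.1 (sT.le hg.1).2))).resolve_right fun e =>
        dZ (h.toEx.eq_one_of_sq hS.md (fix_of_three hn e) ▸ one_mem _)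
    have gy := KN h hS hg.2 gN hS.my (ty h hS)
    have gy' := KN h hS hg.2 gN hS.my' (ty' h hS)
    have S' := hS.conj gN
    rw [gd, gy, gy', mul_inv_cancel_right, mul_inv_cancel_right] at S'
    obtain ⟨k, hk, e⟩ := conj_hd h hS S'.mx (by
      have := cm_iff.1 hg.2.1.2
      calc _ = (tt ω d x * g) * x * (tt ω d x * g)⁻¹ := by group
        _ = g * (tt ω d x * x * (tt ω d x)⁻¹) * g⁻¹ := by rw [← this]; group
        _ = _ := by rw [tx h hS]; group) S'.xy S'.xy' S'.rel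
    have kc : ∀ s, s * d = d * s → Commute k⁻¹ s := fun s hs => by
      obtain ⟨i, rfl⟩ := hk
      exact ((Commute.zpow_right (hm_comm h.om hd hs) i).symm).inv_left
    have := fx_Z (t_ne h hS) (mul_mem (inv_mem (zpowers_le_of_mem (hd_K h hS) hk)) hg.2).2
      (hS.Z_of_comm h ((kc d rfl).mul_left (mul_inv_eq_iff_eq_mul.1 gd)) (by
        rw [← mul_inv_eq_iff_eq_mul]
        calc _ = k⁻¹ * (g * x * g⁻¹) * k := by group
          _ = _ := by rw [← e]; group) ((kc y hS.dy.symm).mul_left gy) ((kc y' hS.dy'.symm).mul_left gy'))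
    exact inv_mul_eq_one.1 this ▸ hk
  have cN : KK G (tt ω d x) ⊓ normalizer (zpowers (hm ω d) : Set (GL ι F)) ≤ L := fun g hg =>
    ⟨hg.1.1, mem_centralizer_singleton_iff.2 (mul_inv_eq_iff_eq_mul.1 (nor_hm h hS.md dZ hS.md dZ
      (conj_mem_of_mem_normalizer hg.2 (mem_zpowers _))))⟩
  have s1 := sT.inf_of_le_normalizer cN (le_normalizer_inf (sT.le.trans nK) (le_normalizer_normalizer
    (le_normalizer_of_le_centralizer fun g hg k hk => (cL g (sT.le hg) k hk).eq.symm)))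
  rw [← s1.eq_of_le h3 (fun g hg => key ⟨hg.1, hg.2.1⟩)
    (le_inf (zpowers_le_of_mem (hd_K h hS)) le_normalizer)] at s1
  exact isSyl_of_isSyl_normalizer s1

theorem K_le : KK G (tt ω d x) ≤ subgroupNormalizer R := by
  have : Fact (Nat.Prime 3) := ⟨Nat.prime_three⟩
  have := h.ne
  have dZ := hS.dZ h.toEx
  obtain ⟨K, h1, h2, h3, h4⟩ := burn (syl h hS hT) fun g _ hg => by
    rintro _ ⟨k, rfl⟩
    exact (Commute.zpow_right (mul_inv_eq_iff_eq_mul.1 (nor_hm h hS.md dZ hS.md dZ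
      (conj_mem_of_mem_normalizer hg (mem_zpowers _)))) k).eq.symm
  exact h3.trans (sup_le (cg h.toEx hT hS.my hS.my' (ne_of_rel h.om hS.rel') (fun g hg => (h1 hg).1.1)
    (h4 (nor_K h hS (h.le hS.my) (ty h hS))) (h4 (nor_K h hS (h.le hS.my') (ty' h hS))) h2)
    (zpowers_le_of_mem (h.toEx.hm_mem_N hS.md)))

/-- the common centralizer of the two homologies -/
def LL (G : Subgroup (GL ι F)) (a b : GL ι F) : Subgroup (GL ι F) := G ⊓ centralizer {a} ⊓ centralizer {b}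

omit [Finite F] h hS hT in
theorem mem_L {a b : GL ι F} : g ∈ LL G a b ↔ g ∈ G ∧ g * a = a * g ∧ g * b = b * g := by
  simp only [LL, mem_inf, mem_centralizer_singleton_iff, and_assoc]

omit hT in
theorem L_cm (hg : g ∈ LL G (hm ω d) (hm ω x)) : g ∈ Cm (pj d) :=
  comm_pj_of_hm h.om (h.cube d hS.md) (mem_L.1 hg).2.1

omit hT in
theorem R_L (he : e ∈ G) (h1 : e * d = d * e) (h2 : e * x = x * e) : e ∈ LL G (hm ω d) (hm ω x) :=
  mem_L.2 ⟨he, hm_comm h.om (h.cube d hS.md) h1, hm_comm h.om (h.cube x hS.mx) h2⟩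

omit hT in
theorem LN (hg : g ∈ LL G (hm ω d) (hm ω x)) (hf : g ∈ Fx (pj d)) (hn : g ∈ subgroupNormalizer R) :
    g = 1 ∨ g = tt ω d x := by
  have := h.ne
  have hd := h.cube d hS.md
  have hx := h.cube x hS.mx
  have p0 := h.toEx.pj_ne_zero hS.md (hS.dZ h.toEx)
  have s := sgn h hS hn (mem_L.1 hg).2.1 (mem_L.1 hg).2.2
  have a : ∀ e ∈ R, d * e = e * d → x * e = e * x → g * e = e * g := fun e he h1 h2 => by
    have c : Commute x (g * e * g⁻¹ * e⁻¹) := by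
      refine Commute.mul_right ?_ (Commute.inv_right h2)
      have : Commute (g * x * g⁻¹) (g * e * g⁻¹) := Commute.map h2 (MulAut.conj g)
      rcases s with s | s <;> rw [s.2] at this
      exacts [this, Commute.inv_left_iff.1 this]
    have n := ne_of_rel h.om hS.rel
    rcases h.toEx.eq_of_mul_pj hS.md (hS.dZ h.toEx) (mul_mem (mem_N hn he) (inv_mem he)) (mem_Fx.1 (by
      simpa only [mul_assoc] using mul_mem hf (conj_mem_Fx (pj_comm' h1.symm) (inv_mem hf)))) with j | j | j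
    · exact mul_inv_eq_iff_eq_mul.1 (mul_inv_eq_one.1 j)
    · exact (n (j ▸ c)).elim
    · exact (n (Commute.inv_right_iff.1 (j ▸ c))).elim
  have a1 := a y hS.my hS.dy hS.xy
  have a2 := a y' hS.my' hS.dy' hS.xy'
  refine s.imp (fun s => fx_Z p0 hf (hS.Z_of_comm h (mul_inv_eq_iff_eq_mul.1 s.1)
    (mul_inv_eq_iff_eq_mul.1 s.2) a1 a2)) fun s => ?_
  have b : ∀ v, tt ω d x * v * (tt ω d x)⁻¹ = v⁻¹ → g * v * g⁻¹ = v⁻¹ →
      (tt ω d x)⁻¹ * g * v = v * ((tt ω d x)⁻¹ * g) := fun v h1 h2 => by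
    calc _ = (tt ω d x)⁻¹ * (g * v * g⁻¹) * g := by group
      _ = _ := by rw [h2, ← h1]; group
  exact (inv_mul_eq_one.1 (fx_Z p0 (mul_mem (inv_mem (tt_mul_pj h.om hd hx hS.rel)) hf)
    (hS.Z_of_comm h (b d (td h hS) s.1) (b x (tx h hS) s.2)
      ((Commute.inv_left (ty h hS).symm).mul_left a1) ((Commute.inv_left (ty' h hS).symm).mul_left a2)))).symm

omit hT in
theorem t_cube (he : e ^ 3 = 1) (c : e * tt ω d x = tt ω d x * e) : (e * tt ω d x) ^ 3 ≠ 1 := fun j => by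
  rw [Commute.mul_pow c, he, one_mul, pow_succ, pow_two,
    tt_mul_tt h.om (h.cube d hS.md) (h.cube x hS.mx) hS.rel, one_mul] at j
  exact t_ne h hS (by rw [j]; simp)

theorem K'_le : LL G (hm ω d) (hm ω x) ⊓ Fx (pj d) ≤ subgroupNormalizer R := by
  have : Fact (Nat.Prime 3) := ⟨Nat.prime_three⟩
  have := h.ne
  have n := ne_of_rel h.om hS.rel'
  have a : ∀ e ∈ LL G (hm ω d) (hm ω x), e ∈ subgroupNormalizer (LL G (hm ω d) (hm ω x) ⊓ Fx (pj d)) :=
    fun e he => mem_normalizer_of_cj_le (by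
      rintro _ ⟨k, hk, rfl⟩
      exact mem_inf.2 ⟨mul_mem (mul_mem he hk.1) (inv_mem he), conj_mem_Fx (L_cm h hS he) hk.2⟩)
  have a1 := a y (R_L h hS (h.le hS.my) hS.dy.symm hS.xy.symm)
  refine cg h.toEx hT hS.my hS.my' n (fun g hg => (mem_L.1 hg.1).1) a1
    (a y' (R_L h hS (h.le hS.my') hS.dy'.symm hS.xy'.symm)) fun h3 => ?_
  obtain ⟨g, hg, o, c⟩ := fixp (h.cube y hS.my) a1 h3
  rcases LN h hS hg.1 hg.2 (hT y hS.my (not_Z_of_ne n) g (mem_L.1 hg.1).1 (by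
    rw [c, mul_inv_cancel_right]; exact hS.my)) with rfl | rfl
  · simp at o
  · exact t_cube h hS (one_pow 3) (by simp) (by rw [one_mul, ← o, pow_orderOf_eq_one])

theorem L_of (hg : g ∈ LL G (hm ω d) (hm ω x)) (he : e ∈ R) (h1 : e * d = d * e) (h2 : e * x = x * e)
    (j : (g * y * g⁻¹).val * pj d = e.val * pj d) : g ∈ subgroupNormalizer R := by
  have := h.ne
  have k : e⁻¹ * (g * y * g⁻¹) ∈ LL G (hm ω d) (hm ω x) ⊓ Fx (pj d) :=
    mem_inf.2 ⟨mul_mem (inv_mem (R_L h hS (h.le he) h1 h2)) (mul_mem (mul_mem hg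
      (R_L h hS (h.le hS.my) hS.dy.symm hS.xy.symm)) (inv_mem hg)), inv_mul_mem_Fx j⟩
  rcases LN h hS k.1 k.2 (K'_le h hS hT k) with l | l
  · exact hT y hS.my (not_Z_of_ne (ne_of_rel h.om hS.rel')) g (mem_L.1 hg).1 (inv_mul_eq_one.1 l ▸ he)
  · refine (t_cube h hS (h.cube e he) (tc h hS h1 h2) ?_).elim
    rw [← l, mul_inv_cancel_left, conj_pow, h.cube y hS.my]; simp

theorem L_le {S U₀ : Subgroup (G3 F)} (hB : BD ω S U₀) (hR : Res ω R G U₀) :
    LL G (hm ω d) (hm ω x) ≤ subgroupNormalizer R := fun g hg => by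
  obtain ⟨U, W, hF⟩ := hS.exists_fr h
  rcases hF.bl (M := LL G (hm ω d) (hm ω x)) h hB hR hS (fun g hg => (mem_L.1 hg).1)
    (fun g hg => L_cm h hS hg) (fun e he h1 h2 => ⟨R_L h hS (h.le he) h1 h2, fun z =>
      R_L h hS (h.hmem e he z) (hm_comm h.om (h.cube e he) h1.symm).symm
        (hm_comm h.om (h.cube e he) h2.symm).symm⟩) with a | ⟨⟨g', hg', a, b⟩, -⟩
  · obtain ⟨e, he, h1, h2, j⟩ := hF.alt1 h hS (L_cm h hS hg) (a g hg) hS.my hS.dy.symm
    exact L_of h hS hT hg he h1 h2 j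
  · have n := L_of h hS hT hg' hS.my hS.dy.symm hS.xy.symm a
    refine (b _ (mem_N n hS.my') ?_ rfl).elim
    have c : Commute (g' * d * g'⁻¹) (g' * y' * g'⁻¹) := (hS.conj n).dy'
    rcases sgn h hS n (mem_L.1 hg').2.1 (mem_L.1 hg').2.2 with s | s <;> rw [s.1] at c
    exacts [c.eq.symm, (Commute.inv_left_iff.1 c).eq.symm]

theorem cen_t {S U₀ : Subgroup (G3 F)} (hB : BD ω S U₀) (hR : Res ω R G U₀) (hg : g ∈ G)
    (c : g * tt ω d x = tt ω d x * g) : g ∈ subgroupNormalizer R := by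
  have : Fact (Nat.Prime 3) := ⟨Nat.prime_three⟩
  have := h.ne
  have hd := h.cube d hS.md
  have hx := h.cube x hS.mx
  have dZ := hS.dZ h.toEx
  have s := syl h hS hT
  have kN := K_le h hS hT
  obtain ⟨k, hk, e⟩ := (s.cj_of_mem_normalizer (nor_K h hS hg c)).exists_cj_eq s
  rw [cj_cj] at e
  rw [← mul_mem_cancel_left (kN hk)]
  have c1 : k * g * tt ω d x = tt ω d x * (k * g) := Commute.mul_left (cm_iff.1 hk.1.2) c
  have g1 := mul_mem hk.1.1 hg
  have a := nor_hm h hS.md dZ hS.md dZ (e.le (conj_mem_cj (mem_zpowers _)))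
  generalize k * g = g at c1 g1 a
  obtain ⟨l, hl, e⟩ := s.exists_le_cj (isPGroup_zpowers (x := g * hm ω x * g⁻¹) (k := 1) (by
    rw [pow_one, conj_pow, hm_cube h.om hx]; simp)) (zpowers_le_of_mem (cj_K g1 c1 (hx_K h hS)))
  have b := nor_hm (g := l⁻¹ * g) h hS.mx (hS.xZ h.toEx) hS.md dZ (by
    simpa only [mul_inv_rev, inv_inv, mul_assoc] using mem_cj.1 (e (mem_zpowers _)))
  have lN := kN hl
  have S' := hS.conj lN
  rw [KN h hS hl lN hS.my (ty h hS), KN h hS hl lN hS.my' (ty' h hS), mul_inv_cancel_right,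
    mul_inv_cancel_right] at S'
  replace b : g * hm ω x * g⁻¹ = hm ω (l * d * l⁻¹) := by rw [← hm_conj h.om hd, ← b]; group
  have i : tt ω d x * (l * d * l⁻¹) * (tt ω d x)⁻¹ = (l * d * l⁻¹)⁻¹ := by
    have := cm_iff.1 hl.1.2
    calc _ = (tt ω d x * l) * d * (tt ω d x * l)⁻¹ := by group
      _ = l * (tt ω d x * d * (tt ω d x)⁻¹) * l⁻¹ := by rw [← this]; group
      _ = _ := by rw [td h hS]; group
  have key : ∀ v ∈ R, g * hm ω x * g⁻¹ = hm ω v → tt ω d x * v * (tt ω d x)⁻¹ = v⁻¹ → v * y = y * v →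
      v * y' = y' * v → v * d = ω • (d * v) → g ∈ subgroupNormalizer R := fun v hv b h1 h2 h3 h4 => by
    obtain ⟨m, hm', j⟩ := conj_hd h hS hv h1 h2 h3 h4
    rw [← mul_mem_cancel_left (inv_mem (zpowers_le_of_mem (h.toEx.hm_mem_N hS.md) hm'))]
    refine L_le h hS hT hB hR (mem_L.2 ⟨mul_mem (inv_mem (zpowers_le_of_mem (hd_K h hS) hm').1.1) g1,
      Commute.mul_left ?_ (mul_inv_eq_iff_eq_mul.1 a), ?_⟩)
    · obtain ⟨i, rfl⟩ := hm'
      exact ((Commute.refl _).zpow_left i).inv_left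
    · rw [← j, ← hm_conj h.om hx] at b
      calc _ = m⁻¹ * (g * hm ω x * g⁻¹) * g := by group
        _ = _ := by rw [b]; group
  generalize l * d * l⁻¹ = v at S' b i
  rcases h.toEx.tri S'.md hS.md with j | j | j
  · have c2 : hm ω d * hm ω x = hm ω x * hm ω d := by
      have := hm_comm h.om (h.cube v S'.md) (hm_comm h.om hd j).symm
      rw [← b, ← a, conj_mul, conj_mul] at this
      exact (MulAut.conj g).injective this
    rcases sgn h hS (h.toEx.hm_mem_N hS.md) rfl c2 with s | s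
    · have := s.2
      rw [hm_conj_rel h.om hd hS.rel, ← smul_mul_assoc, mul_eq_right] at this
      exact (dZ (inv_mem_iff.1 ((smul_mem_Z ω).1 (this ▸ one_mem _)))).elim
    · have := s.1
      rw [← hm_comm h.om hd rfl, mul_inv_cancel_right, eq_inv_iff_mul_eq_one] at this
      exact (dZ (h.toEx.eq_one_of_sq hS.md this ▸ one_mem _)).elim
  · exact key v S'.md b i S'.dy S'.dy' j
  · exact key v⁻¹ (inv_mem S'.md) (by rw [b, hm_inv (h.cube v S'.md)]) (by rw [← conj_inv, i])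
      (Commute.inv_left S'.dy) (Commute.inv_left S'.dy') (flip_rel' j)

omit h hS hT [Finite F] in
theorem jobT : JobT.{u} := fun _ _ _ _ _ _ _ _ h hB hR hT _ _ _ _ hS _ hg c => cen_t h hS hT hB hR hg c

end H95.T3
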