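import Cfsg.Agent.H95.F24Fin
import Cfsg.Agent.H95.V8Gen
/-! Groups of large Fischer type: the normaliser `2^{3+12}.(L₃(2) × A₆)`. -/
set_option autoImplicit false
namespace H95.F24
open H39.F24 H78 Cfsg Subgroup MulAction
open scoped commutatorElement

variable {G : Type*} [Group G]

/-- the conjugate of `Q` with centre `v` -/
def Qv (z : G) (Q : Subgroup G) (v : G) : Subgroup G where
  carrier := {x | ∀ g, g * z * g⁻¹ = v → g⁻¹ * x * g ∈ Q}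
  one_mem' g _ := by simp
  mul_mem' {a b} ha hb g e := by
    have := Q.mul_mem (ha g e) (hb g e)
    rwa [show g⁻¹ * a * g * (g⁻¹ * b * g) = g⁻¹ * (a * b) * g by group] at this
  inv_mem' {a} ha g e := by
    have := Q.inv_mem (ha g e)
    rwa [show (g⁻¹ * a * g)⁻¹ = g⁻¹ * a⁻¹ * g by group] at this

theorem Qv_conj {z : G} {Q : Subgroup G} {v x : G} (hx : x ∈ Qv z Q v) (k : G) :
    k * x * k⁻¹ ∈ Qv z Q (k * v * k⁻¹) := fun g e => by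
  have := hx (k⁻¹ * g) (by
    calc _ = k⁻¹ * (g * z * g⁻¹) * k := by group
      _ = v := by rw [e]; group)
  rwa [show (k⁻¹ * g)⁻¹ * x * (k⁻¹ * g) = g⁻¹ * (k * x * k⁻¹) * g by group] at this

theorem Qv_conj' {z : G} {Q : Subgroup G} {v w x k : G} (hx : x ∈ Qv z Q v)
    (e : k * v * k⁻¹ = w) : k * x * k⁻¹ ∈ Qv z Q w := e ▸ Qv_conj hx k

theorem Qv_of_conj {z : G} {Q : Subgroup G} {v w x k : G} (e : k * v * k⁻¹ = w)
    (hx : k * x * k⁻¹ ∈ Qv z Q w) : x ∈ Qv z Q v := by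
  have := Qv_conj' (k := k⁻¹) (w := v) hx (by rw [← e]; group)
  rwa [show k⁻¹ * (k * x * k⁻¹) * k⁻¹⁻¹ = x by group] at this

theorem Qv_eq {z : G} {Q : Subgroup G} (h : LX Q z) {g v : G} (e : g * z * g⁻¹ = v) :
    Qv z Q v = Q.map (MulAut.conj g).toMonoidHom := by
  ext x
  refine ⟨fun hx => (mem_conj_iff _ _ _).2 (hx g e), fun hx k hk => ?_⟩
  exact (mem_conj_iff _ _ _).1 (h.mem_conj_of_eq (e.trans hk.symm) hx)

theorem Qv_z {z : G} {Q : Subgroup G} (h : LX Q z) : Qv z Q z = Q := by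
  ext x
  rw [Qv_eq h (g := 1) (by simp), mem_conj_iff]; simp

variable {z : G} {Q : Subgroup G} {cl : G → V} {ρ : CZ z →* X}

/-- the preimage of the line `F₄ s₀` -/
def V8 (h : FT z Q cl ρ) : Subgroup G where
  carrier := {x | x ∈ Q ∧ cl x ∈ FL}
  one_mem' := ⟨Q.one_mem, h.cl_one ▸ FL_zero⟩
  mul_mem' {a b} ha hb := ⟨Q.mul_mem ha.1 hb.1, h.mul a ha.1 b hb.1 ▸ FL_add _ ha.2 _ hb.2⟩
  inv_mem' {_} ha := ⟨Q.inv_mem ha.1, (h.cl_inv ha.1).symm ▸ ha.2⟩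

/-- its centraliser -/
abbrev CV (h : FT z Q cl ρ) : Subgroup G := centralizer (V8 h : Set G)

/-- the largest normal `2`-subgroup of its normaliser -/
noncomputable def OV (h : FT z Q cl ρ) : Subgroup G := CV h ⊓ (R0.comap ρ).map (CZ z).subtype

variable (h : FT z Q cl ρ)

theorem z_mem : z ∈ V8 h := ⟨h.xs.z_mem, h.cl_z ▸ FL_zero⟩

theorem V_le : V8 h ≤ Q := fun _ hx => hx.1

theorem V_sq : ∀ v ∈ V8 h, v * v = 1 := fun _ hv => (h.sq_iff hv.1).2 (FL_q _ hv.2)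

theorem V_comm {u v : G} (hu : u ∈ V8 h) (hv : v ∈ V8 h) : u * v = v * u :=
  (h.comm_iff hu.1 hv.1).2 (FL_bf _ hu.2 _ hv.2)

theorem V_le_C : V8 h ≤ CV h := fun _ hu _ hv => V_comm h hv hu

theorem card_V8 [Finite G] : Nat.card (V8 h) = 8 := by
  rw [h.card_eq_two_mul (V_le h) (z_mem h), show cl '' (V8 h) = {v | v ∈ FL} from ?_, FL_ncard]
  ext v
  constructor
  · rintro ⟨x, hx, rfl⟩; exact hx.2
  · intro hv
    obtain ⟨x, hx, rfl⟩ := h.surj v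
    exact ⟨x, ⟨hx, hv⟩, rfl⟩

theorem C_le : CV h ≤ CZ z := fun _ hc => mem_CZ.2 (hc z (z_mem h)).symm

theorem mem_C_iff {x : G} (hx : x ∈ Q) : x ∈ CV h ↔ Hp (cl x) := by
  rw [Hp_iff]
  constructor
  · intro hc u hu
    obtain ⟨y, hy, rfl⟩ := h.surj u
    exact (h.comm_iff hx hy).1 (hc y ⟨hy, hu⟩).symm
  · exact fun hc y hy => ((h.comm_iff hx hy.1).2 (hc _ hy.2)).symm

theorem mem_O {c : G} : c ∈ OV h ↔ ∃ hc : c ∈ CV h, ρ ⟨c, C_le h hc⟩ ∈ R0 :=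
  ⟨fun ⟨h1, _, h2, e⟩ => ⟨h1, by subst e; exact h2⟩, fun ⟨h1, h2⟩ => ⟨h1, _, h2, rfl⟩⟩

theorem C_fix {c : G} (hc : c ∈ CV h) {u : V} (hu : u ∈ FL) : ρ ⟨c, C_le h hc⟩ • u = u := by
  obtain ⟨y, hy, rfl⟩ := h.surj u
  exact h.smul_cl_of_comm _ hy (hc y ⟨hy, hu⟩).symm

theorem C_lin {c : G} (hc : c ∈ CV h) : ρ ⟨c, C_le h hc⟩ ∈ Lin :=
  lin_of_fix (H0_le_SLin (h.rho_mem _)) (C_fix h hc FL_85) (C_fix h hc FL_170)

theorem conj_mem_V {c : CZ z} {k : ℕ} (e : ρ c = w0 ^ k) {y : G} (hy : y ∈ V8 h) :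
    c * y * (c : G)⁻¹ ∈ V8 h :=
  ⟨h.conj_mem c hy.1, by rw [h.act c y hy.1, e]; exact FL_pow hy.2 k⟩

section s
variable {s : G} (hs : s ∈ Q) (e : cl s = dv 85)
include hs e

theorem s_mem : s ∈ V8 h := ⟨hs, e ▸ FL_85⟩

include h in
theorem pair_s [Finite G] : Pair Q (Qv z Q s) z s ∧ Nat.card (Qv z Q s) = 2 ^ 13 := by
  obtain ⟨g, hg, hp⟩ := h.exists_pair hs (e ▸ ty_s0)
  rw [Qv_eq h.lx hg]
  exact ⟨hp, (Co.card_conj g).trans h.card⟩

theorem V_le_P [Finite G] : V8 h ≤ Qv z Q s := fun _ hy =>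
  (h.mem_P_iff (pair_s h hs e).1 (pair_s h hs e).2 e hy.1).2 (FL_E0 hy.2)

theorem exists_std [Finite G] {v : G} (hv : v ∈ V8 h) (h1 : v ≠ 1) (hz : v ≠ z) :
    ∃ c : CZ z, ∃ k : ℕ, ρ c = w0 ^ k ∧ c * v * (c : G)⁻¹ = s := by
  obtain ⟨k, hk⟩ := FL_orbit hv.2 fun a => ((h.ker v hv.1).1 a).elim h1 hz
  obtain ⟨c, hc⟩ := h.exists_rho (pow_mem (M0_le_H0 w0_mem_M0) k)
  obtain ⟨c', h2, h3⟩ := h.conj_of_smul hv.1 hs (e ▸ ne_85) c (by rw [hc, hk, e])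
  exact ⟨c', k, h2.trans hc, h3⟩

theorem mem_C_of {s' c : G} (hs' : s' ∈ Q) (e' : cl s' = dv 170) (h0 : Commute c z)
    (h1 : Commute c s) (h2 : Commute c s') : c ∈ CV h := by
  intro y hy
  have key : ∀ t ∈ Q, Commute c t → cl y = cl t → y * c = c * y := fun t ht hc a => by
    rcases (h.cl_eq_iff hy.1 ht).1 a with rfl | rfl
    exacts [hc.symm, (hc.mul_right h0).symm]
  rcases FL_cases _ hy.2 with a | a | a | a
  · exact key 1 Q.one_mem (Commute.one_right _) (a.trans h.cl_one.symm)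
  · exact key s hs h1 (a.trans e.symm)
  · exact key s' hs' h2 (a.trans e'.symm)
  · exact key _ (Q.mul_mem hs hs') (h1.mul_right h2) (by rw [a, h.mul _ hs _ hs', e, e'])

theorem exists_lift_P [Finite G] {b : X} (hb : b ∈ R0) (hL : b ∈ Lin) :
    ∃ p ∈ Qv z Q s, ∃ hp : p ∈ CV h, ρ ⟨p, C_le h hp⟩ = b := by
  obtain ⟨hp, hc⟩ := pair_s h hs e
  rw [← h.map_P_eq hp hc e] at hb
  obtain ⟨p, hpP, rfl⟩ := hb
  have hpP' : (p : G) ∈ Qv z Q s := hpP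
  obtain ⟨s', hs', e'⟩ := h.surj (dv 170)
  have h1 : Commute (p : G) s := (hp.hP.z_comm _ hpP').symm
  refine ⟨p, hpP', mem_C_of h hs e hs' e' (mem_CZ.1 p.2) h1 ?_, rfl⟩
  rcases hp.hP.toXS.conj_eq_or (V_le_P h hs e (show s' ∈ V8 h from ⟨hs', e' ▸ FL_170⟩)) hpP'
    with a | a
  · exact mul_inv_eq_iff_eq_mul.1 a
  · have h2 := h.act p s' hs'
    rw [a, h.mul _ hs' _ hs, e, e', fix_170 hL (e ▸ h.smul_cl_of_comm p hs h1)] at h2
    exact absurd (by simpa using h2) ne_85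

end s

theorem hQ [Finite G] : ∀ v ∈ V8 h, v ≠ 1 → XS (Qv z Q v) v ∧ V8 h ≤ Qv z Q v := by
  intro v hv h1
  by_cases hz : v = z
  · subst hz
    rw [Qv_z h.lx]
    exact ⟨h.xs, V_le h⟩
  obtain ⟨g, hg, hp⟩ := h.exists_pair hv.1 (FL_ty hv.2 fun a => ((h.ker v hv.1).1 a).elim h1 hz)
  refine ⟨Qv_eq h.lx hg ▸ hp.hP.toXS, fun y hy => ?_⟩
  obtain ⟨s, hs, e⟩ := h.surj (dv 85)
  obtain ⟨c, k, h2, h3⟩ := exists_std h hs e hv h1 hz
  exact Qv_of_conj h3 (V_le_P h hs e (conj_mem_V h h2 hy))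

theorem mem_O_of_Q [Finite G] {x : G} (hx : x ∈ Q) (hc : x ∈ CV h) : x ∈ OV h :=
  (mem_O h).2 ⟨hc, by rw [(h.rho_eq_one_iff _).2 hx]; exact R0.one_mem⟩

theorem mem_O_of_Qv [Finite G] {v x : G} (hv : v ∈ V8 h) (h1 : v ≠ 1) (hx : x ∈ Qv z Q v)
    (hc : x ∈ CV h) : x ∈ OV h := by
  by_cases hz : v = z
  · subst hz
    exact mem_O_of_Q h (Qv_z h.lx ▸ hx) hc
  obtain ⟨s, hs, e⟩ := h.surj (dv 85)
  obtain ⟨c, k, h2, h3⟩ := exists_std h hs e hv h1 hz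
  obtain ⟨hp, hcard⟩ := pair_s h hs e
  refine (mem_O h).2 ⟨hc, ?_⟩
  have h4 : ρ (c * ⟨x, C_le h hc⟩ * c⁻¹) ∈ R0 :=
    h.map_P_eq hp hcard e ▸ mem_map_of_mem ρ (show _ ∈ Qv z Q s from Qv_conj' hx h3)
  have h5 : Commute (ρ ⟨x, C_le h hc⟩) (w0 ^ k) :=
    (show Commute _ w0 from mem_Lin.1 (C_lin h hc)).pow_right k
  rwa [map_mul, map_mul, map_inv, h2, ← h5.eq, mul_inv_cancel_right] at h4

theorem exists_lift_C [Finite G] {g : X} (hg : g ∈ M0) (hg' : g • dv 85 = dv 85) :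
    ∃ c, ∃ hc : c ∈ CV h, ρ ⟨c, C_le h hc⟩ = g := by
  obtain ⟨s, hs, e⟩ := h.surj (dv 85)
  obtain ⟨s', hs', e'⟩ := h.surj (dv 170)
  obtain ⟨c, rfl, hc⟩ := h.exists_lift (pair_s h hs e).1 (h.M0_le hg) (by rwa [e])
  have h1 := h.act c s' hs'
  rw [e', fix_170 (M0_le_Lin hg) hg', ← e', h.cl_eq_iff (h.conj_mem c hs') hs'] at h1
  rcases h1 with a | a
  · exact ⟨c, mem_C_of h hs e hs' e' (mem_CZ.1 c.2) hc (mul_inv_eq_iff_eq_mul.1 a), rfl⟩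
  · obtain ⟨u, u1, u2⟩ := exists_sep
    obtain ⟨p, hp, rfl⟩ := h.surj u
    have p1 : Commute p s := (h.comm_iff hp hs).2 (e ▸ u1)
    have p0 : Commute p z := (h.xs.z_comm p hp).symm
    have p2 : p * s' * p⁻¹ = s' * z := h.xs.conj_of_cf_one hp hs' (by rw [h.cf_eq hp hs', e', u2])
    refine ⟨p * c, mem_C_of h hs e hs' e' (p0.mul_left (mem_CZ.1 c.2)) (p1.mul_left hc) ?_, ?_⟩
    · refine mul_inv_eq_iff_eq_mul.1 ?_
      calc _ = p * (c * s' * (c : G)⁻¹) * p⁻¹ := by group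
        _ = p * s' * p⁻¹ * (p * z * p⁻¹) := by rw [a]; group
        _ = s' := by rw [p2, p0.eq, mul_inv_cancel_right, h.xs.mul_z_z]
    · have : ρ (⟨p, h.Q_le hp⟩ * c) = ρ c := by
        rw [map_mul, (h.rho_eq_one_iff ⟨p, _⟩).2 hp, one_mul]
      exact this

theorem card_QC [Finite G] : Nat.card (Q ⊓ CV h : Subgroup G) = 2 ^ 11 := by
  have := h.xs.card_cent (V_le h) (z_mem h)
  rw [h.card, card_V8] at this
  change _ = 8 * Nat.card (Q ⊓ CV h : Subgroup G) at this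
  omega

theorem card_O [Finite G] : Nat.card (OV h) = 2 ^ 15 := by
  have hle : OV h ≤ CZ z := inf_le_left.trans (C_le h)
  have h1 := card_eq_map_mul ρ ((OV h).subgroupOf (CZ z))
  have e1 : ((OV h).subgroupOf (CZ z)).map ρ = R0 ⊓ Lin := by
    ext b
    constructor
    · rintro ⟨c, hc, rfl⟩
      obtain ⟨h2, h3⟩ := (mem_O h).1 hc
      exact ⟨h3, C_lin h h2⟩
    · intro hb
      obtain ⟨s, hs, e⟩ := h.surj (dv 85)
      obtain ⟨p, -, hp, rfl⟩ := exists_lift_P h hs e hb.1 hb.2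
      exact ⟨⟨p, C_le h hp⟩, (mem_O h).2 ⟨hp, hb.1⟩, rfl⟩
  have e2 : (OV h).subgroupOf (CZ z) ⊓ ρ.ker = (Q ⊓ CV h).subgroupOf (CZ z) := by
    ext c
    simp only [mem_inf, mem_subgroupOf, MonoidHom.mem_ker, h.rho_eq_one_iff]
    exact ⟨fun a => ⟨a.2, a.1.1⟩, fun a => ⟨mem_O_of_Q h a.1 a.2, a.1⟩⟩
  rw [e1, e2, card_B0, Nat.card_congr (subgroupOfEquivOfLe hle).toEquiv,
    Nat.card_congr (subgroupOfEquivOfLe (inf_le_left.trans h.Q_le)).toEquiv, card_QC] at h1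
  exact h1

theorem O_decomp [Finite G] {s : G} (hs : s ∈ Q) (e : cl s = dv 85) {x : G} (hx : x ∈ OV h) :
    ∃ q ∈ Q, q ∈ CV h ∧ ∃ p ∈ Qv z Q s, p ∈ OV h ∧ x = q * p := by
  obtain ⟨h1, h2⟩ := (mem_O h).1 hx
  obtain ⟨p, hp, hp', e'⟩ := exists_lift_P h hs e h2 (C_lin h h1)
  refine ⟨x * p⁻¹, ?_, (CV h).mul_mem h1 ((CV h).inv_mem hp'), p, hp,
    (mem_O h).2 ⟨hp', e' ▸ h2⟩, by simp⟩
  exact (h.rho_eq_one_iff (⟨x, C_le h h1⟩ * (⟨p, C_le h hp'⟩ : CZ z)⁻¹)).1 (by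
    rw [map_mul, map_inv, e', mul_inv_cancel])

theorem O_sq [Finite G] {x : G} (hx : x ∈ OV h) : x * x ∈ V8 h := by
  obtain ⟨s, hs, e⟩ := h.surj (dv 85)
  obtain ⟨q, hq, hqC, p, hp, hpO, rfl⟩ := O_decomp h hs e hx
  obtain ⟨h1, h2⟩ := (mem_O h).1 hpO
  have h3 : p * q * p⁻¹ ∈ Q := h.conj_mem ⟨p, C_le h h1⟩ hq
  have h4 : q * (p * q * p⁻¹) ∈ V8 h := ⟨Q.mul_mem hq h3, by
    rw [h.mul _ hq _ h3, h.act ⟨p, C_le h h1⟩ q hq, add_comm]
    exact B0_comm h2 (C_lin h h1) ((mem_C_iff h hq).1 hqC)⟩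
  have h5 : p * p ∈ V8 h := by
    rcases (pair_s h hs e).1.hP.sq p hp with a | a <;> rw [a]
    exacts [one_mem _, s_mem h hs e]
  rw [show q * p * (q * p) = q * (p * q * p⁻¹) * (p * p) by group]
  exact mul_mem h4 h5

theorem V_le_O [Finite G] : V8 h ≤ OV h := fun _ hy => mem_O_of_Q h hy.1 (V_le_C h hy)

theorem O_center [Finite G] {y : G} (hy : y ∈ OV h) (hc : ∀ x ∈ OV h, y * x = x * y) :
    y ∈ V8 h := by
  obtain ⟨h1, h2⟩ := (mem_O h).1 hy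
  have h3 : y ∈ Q := (h.rho_eq_one_iff ⟨y, C_le h h1⟩).1 (R0_eq_one h2 fun v hv => by
    obtain ⟨x, hx, rfl⟩ := h.surj v
    exact h.smul_cl_of_comm _ hx (hc x (mem_O_of_Q h hx ((mem_C_iff h hx).2 hv))))
  refine ⟨h3, mem_FL_of_perp fun u hu => ?_⟩
  obtain ⟨x, hx, rfl⟩ := h.surj u
  exact (h.comm_iff h3 hx).1 (hc x (mem_O_of_Q h hx ((mem_C_iff h hx).2 hu)))

theorem V_trans [Finite G] {a b : G} (ha : a ∈ V8 h) (hb : b ∈ V8 h) (a1 : a ≠ 1) (b1 : b ≠ 1) :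
    ∃ l ∈ normalizer (V8 h : Set G), l * a * l⁻¹ = b := by
  by_cases e : a = b
  · exact ⟨1, one_mem _, by simp [e]⟩
  obtain ⟨v, hv, h1, p, hp, -, h2⟩ := exists_transv (V_sq h) (hQ h) (K := ⊥) bot_le ha hb a1 b1 e
  exact ⟨p, le_normalizer_of_xs (hQ h) hv h1 hp, h2⟩

theorem exists_Phi [Finite G] :
    ∃ Φ : normalizer (V8 h : Set G) →* MulAut (V8 h) × alternatingGroup (Fin 6),
      Function.Surjective Φ ∧ ∀ l, Φ l = 1 ↔ (l : G) ∈ OV h := by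
  let α := (V8 h).normalizerMonoidHom
  have hα : ∀ (l : normalizer (V8 h : Set G)) (y : V8 h), (α l y : G) = l * y * (l : G)⁻¹ :=
    fun _ _ => rfl
  have hk : ∀ l : normalizer (V8 h : Set G), l ∈ α.ker ↔ (l : G) ∈ CV h := fun l => by
    rw [normalizerMonoidHom_ker, mem_subgroupOf]
  let f1 : α.ker →* CZ z := ((normalizer (V8 h : Set G)).subtype.comp α.ker.subtype).codRestrict _
    fun c => C_le h ((hk c).1 c.2)
  let f2 : α.ker →* ↥(H0 ⊓ stabilizer X (dv 85)) := (ρ.comp f1).codRestrict _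
    fun c => ⟨h.rho_mem _, C_fix h ((hk c).1 c.2) FL_85⟩
  let π : α.ker →* alternatingGroup (Fin 6) := (piH.comp f2).codRestrict _
    fun c => piH_range ▸ ⟨_, rfl⟩
  have hπ : ∀ c : α.ker, π c = 1 ↔ ((c : normalizer (V8 h : Set G)) : G) ∈ OV h := fun c => by
    rw [Subtype.ext_iff, mem_O]
    exact (piH_eq_one_iff (f2 c)).trans ⟨fun a => ⟨(hk c).1 c.2, a⟩, fun ⟨_, a⟩ => a⟩
  have hCN : CV h ≤ normalizer (V8 h : Set G) := centralizer_le_normalizer _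
  have g1 : Function.Surjective π := fun τ => by
    obtain ⟨n, hn, e⟩ := exists_piS_eq τ.2
    obtain ⟨c, hc, e'⟩ := exists_lift_C h hn (mem_Ys.1 n.2).2
    refine ⟨⟨⟨c, hCN hc⟩, (hk _).2 hc⟩, Subtype.ext ?_⟩
    rw [← e]
    exact congrArg piS (Subtype.ext e')
  have g2 : center (alternatingGroup (Fin 6)) = ⊥ := by
    have : IsSimpleGroup (alternatingGroup (Fin 6)) := alternatingGroup.isSimpleGroup (by simp)
    refine (Normal.eq_bot_or_eq_top inferInstance).resolve_right fun e => ?_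
    have := congrArg Subtype.val (mem_center_iff.1 (e.ge (mem_top
      (⟨c[0, 1, 2], Equiv.Perm.mem_alternatingGroup.2 (by decide)⟩ : alternatingGroup (Fin 6))))
      ⟨c[0, 1, 3], Equiv.Perm.mem_alternatingGroup.2 (by decide)⟩)
    revert this
    simp only [Subgroup.coe_mul]
    decide
  have g3 : ∀ n ∈ {n : normalizer (V8 h : Set G) | ∃ v ∈ V8 h, v ≠ 1 ∧ (n : G) ∈ Qv z Q v},
      ∀ c c' : α.ker, (c' : normalizer (V8 h : Set G)) = n * c * n⁻¹ → π c' = π c := by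
    rintro n ⟨v, hv, v1, hn⟩ c c' e
    have hc := (hk c).1 c.2
    rw [← mul_inv_eq_one, ← map_inv, ← map_mul, hπ]
    have e' : (((c' * c⁻¹ : α.ker) : normalizer (V8 h : Set G)) : G) =
        n * (c * (n : G)⁻¹ * ((c : normalizer (V8 h : Set G)) : G)⁻¹) := by
      simp only [Subgroup.coe_mul, Subgroup.coe_inv, e]; group
    refine mem_O_of_Qv h hv v1 ?_ ((hk _).1 (c' * c⁻¹).2)
    rw [e']
    exact mul_mem hn (Qv_conj' (inv_mem hn) (mul_inv_eq_iff_eq_mul.2 (hc v hv).symm))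
  obtain ⟨Φ, h1, h2, h3⟩ := exists_prod_hom α π g1 g2 g3 fun φ => by
    obtain ⟨n, ⟨m, hm, rfl⟩, e⟩ := exists_induce (V_sq h) (hQ h)
      (N := (closure {n : normalizer (V8 h : Set G) | ∃ v ∈ V8 h, v ≠ 1 ∧ (n : G) ∈ Qv z Q v}).map
        (normalizer (V8 h : Set G)).subtype)
      (fun v hv v1 p hp => ⟨⟨p, le_normalizer_of_xs (hQ h) hv v1 hp⟩,
        subset_closure ⟨v, hv, v1, hp⟩, rfl⟩) φ
    exact ⟨m, hm, MulEquiv.ext fun y => Subtype.ext (e y)⟩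
  refine ⟨Φ, h1, fun l => ⟨fun e => ?_, fun hl => ?_⟩⟩
  · have h4 : l ∈ α.ker := (h2 l).symm.trans (congrArg Prod.fst e)
    exact (hπ ⟨l, h4⟩).1 ((h3 ⟨l, h4⟩).symm.trans (congrArg Prod.snd e))
  · have h4 : l ∈ α.ker := (hk l).2 hl.1
    exact Prod.ext ((h2 l).trans h4) ((h3 ⟨l, h4⟩).trans ((hπ ⟨l, h4⟩).2 hl))

theorem isPGroup_O [Finite G] : IsPGroup 2 (OV h) := IsPGroup.of_card (card_O h)

theorem O_conj [Finite G] {l x : G} (hl : l ∈ normalizer (V8 h : Set G)) (hx : x ∈ OV h) :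
    l * x * l⁻¹ ∈ OV h := by
  obtain ⟨Φ, -, h2⟩ := exists_Phi h
  have hx' : x ∈ normalizer (V8 h : Set G) := centralizer_le_normalizer _ hx.1
  exact (h2 (⟨l, hl⟩ * ⟨x, hx'⟩ * ⟨l, hl⟩⁻¹)).1 (by
    rw [map_mul, map_mul, (h2 ⟨x, hx'⟩).2 hx, map_inv, mul_one, mul_inv_cancel])

theorem center_O [Finite G] : (center (OV h)).map (OV h).subtype = V8 h := by
  ext y
  rw [mem_centerIn_iff]
  exact ⟨fun a => O_center h a.1 a.2, fun a => ⟨V_le_O h a, fun x hx => hx.1 y a⟩⟩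

theorem special_O [Finite G] : IsSpecial 2 (OV h) := by
  have hc : ∀ y : OV h, y ∈ center (OV h) ↔ (y : G) ∈ V8 h := fun y => by
    rw [← center_O h]; exact (mem_map_iff_mem (OV h).subtype_injective).symm
  refine isSpecial_of (isPGroup_O h) (fun x => (hc _).2 (O_sq h x.2)) fun y hy => ?_
  by_cases y1 : y = 1
  · rw [y1]; exact one_mem _
  obtain ⟨u, v, hu, hv, e⟩ := exists_Hp_bf
  obtain ⟨a, ha, rfl⟩ := h.surj u
  obtain ⟨b, hb, rfl⟩ := h.surj v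
  rw [← h.cf_eq ha hb, h.xs.cf_eq_one' ha hb] at e
  obtain ⟨l, hl, e'⟩ := V_trans h (z_mem h) ((hc y).1 hy) h.xs.z_ne fun a => y1 (Subtype.ext a)
  have : y = ⁅(⟨_, O_conj h hl (inv_mem (mem_O_of_Q h ha ((mem_C_iff h ha).2 hu)))⟩ : OV h),
      (⟨_, O_conj h hl (inv_mem (mem_O_of_Q h hb ((mem_C_iff h hb).2 hv)))⟩ : OV h)⁆ := by
    refine Subtype.ext ?_
    rw [← e', commutatorElement_def]
    simp only [Subgroup.coe_mul, Subgroup.coe_inv]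
    calc _ = l * ((b * a)⁻¹ * (a * b)) * l⁻¹ := by rw [e]; group
      _ = _ := by group
  rw [this]
  exact commutator_mem_commutator (mem_top _) (mem_top _)

/-- **The normaliser `2^{3+12}.(L₃(2) × A₆)`.** -/
theorem normalizer_V8 [Finite G] :
    OV h = (pCore 2 ↥(normalizer (V8 h : Set G))).map (normalizer (V8 h : Set G)).subtype ∧
    ∃ _ : ((OV h).subgroupOf (normalizer (V8 h : Set G))).Normal,
      Nonempty (↥(normalizer (V8 h : Set G)) ⧸ (OV h).subgroupOf (normalizer (V8 h : Set G)) ≃*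
        Matrix.SpecialLinearGroup (Fin 3) (ZMod 2) × ↥(alternatingGroup (Fin 6))) := by
  obtain ⟨Φ, h1, h2⟩ := exists_Phi h
  have hle : OV h ≤ normalizer (V8 h : Set G) := inf_le_left.trans (centralizer_le_normalizer _)
  have hk : Φ.ker = (OV h).subgroupOf _ := Subgroup.ext h2
  obtain ⟨e⟩ := nonempty_mulAut_equiv_SL2 (G := V8 h) (fun a => Subtype.ext (V_sq h a a.2))
    (n := 3) (card_V8 h)
  have hn : ((OV h).subgroupOf (normalizer (V8 h : Set G))).Normal := hk ▸ Φ.normal_ker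
  refine ⟨?_, hn, ⟨((QuotientGroup.quotientMulEquivOfEq hk.symm).trans
    (QuotientGroup.quotientKerEquivOfSurjective Φ h1)).trans (e.prodCongr (MulEquiv.refl _))⟩⟩
  rw [pCore_eq_ker Φ h1 (hk ▸ (isPGroup_O h).comap_subtype) (fun K hK hp => ?_) fun K hK hp => ?_,
    hk, subgroupOf_map_subtype, inf_eq_left.2 hle]
  · refine normal_aut_eq_bot (by rw [card_V8]; norm_num) (fun a b a1 b1 => ?_) hK hp
    obtain ⟨l, hl, e'⟩ := V_trans h a.2 b.2 (fun x => a1 (Subtype.ext x))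
      fun x => b1 (Subtype.ext x)
    exact ⟨(V8 h).normalizerMonoidHom ⟨l, hl⟩, Subtype.ext e'⟩
  · have : IsSimpleGroup (alternatingGroup (Fin 6)) := alternatingGroup.isSimpleGroup (by simp)
    refine hK.eq_bot_or_eq_top.resolve_right fun e' => ?_
    subst e'
    obtain ⟨k, hk'⟩ := hp ⟨⟨c[0, 1, 2], Equiv.Perm.mem_alternatingGroup.2 (by decide)⟩, mem_top _⟩
    have h3 : (c[0, 1, 2] : Equiv.Perm (Fin 6)) ^ 2 ^ k = 1 :=
      congrArg (fun x => x.1.1) hk'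
    have h4 := orderOf_dvd_of_pow_eq_one h3
    have := Fact.mk Nat.prime_three
    rw [orderOf_eq_prime (p := 3) (by decide) (by decide)] at h4
    exact absurd (Nat.prime_three.dvd_of_dvd_pow h4) (by norm_num)

end H95.F24
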