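import Cfsg.Agent.H95.F24D
import Cfsg.Agent.H59.SU
/-! Groups of large Fischer type: the centraliser `6·U₄(3)`. -/
set_option autoImplicit false
namespace H95.F24
open H39.F24 H78 Cfsg Subgroup MulAction
open scoped commutatorElement

section general
variable {G : Type*} [Group G]

theorem exists_pow_lt {a c : G} {o : ℕ} (ho : 0 < o) (ha : a ^ o = 1) (h : c ∈ zpowers a) :
    ∃ j < o, c = a ^ j := by
  obtain ⟨i, rfl⟩ := h
  have h1 : 0 ≤ i % o := Int.emod_nonneg _ (by omega)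
  have h2 : i % o < o := Int.emod_lt_of_pos _ (by omega)
  refine ⟨(i % o).toNat, by omega, ?_⟩
  rw [← zpow_natCast, Int.toNat_of_nonneg h1]
  exact zpow_eq_zpow_emod' _ ha

theorem perfect_of {B : Type*} [Group B] (f : G →* B) (hf : Function.Surjective f)
    (hB : _root_.commutator B = ⊤) (hk : f.ker ≤ _root_.commutator G) :
    _root_.commutator G = ⊤ := by
  have h1 : (_root_.commutator G).map f = ⊤ := by
    rw [_root_.commutator_def, map_commutator, ← MonoidHom.range_eq_map,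
      MonoidHom.range_eq_top.2 hf, ← _root_.commutator_def, hB]
  rw [← sup_eq_left.2 hk, ← comap_map_eq, h1, comap_top]

theorem center_eq_bot_of_simple [IsSimpleGroup G] {a b : G} (h : a * b ≠ b * a) :
    center G = ⊥ :=
  (Normal.eq_bot_or_eq_top inferInstance).resolve_right fun e =>
    h (mem_center_iff.1 (e.ge (mem_top b)) a)

theorem commutator_eq_top_of_simple [IsSimpleGroup G] {a b : G} (h : a * b ≠ b * a) :
    _root_.commutator G = ⊤ :=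
  (Normal.eq_bot_or_eq_top inferInstance).resolve_left fun e =>
    h (commutatorElement_eq_one_iff_mul_comm.1 (mem_bot.1 (e.le
      (commutator_mem_commutator (mem_top a) (mem_top b)))))

/-- the trace with respect to an element of order three -/
def tr3 (x e : G) : G := e * (x * e * x⁻¹) * (x * (x * e * x⁻¹) * x⁻¹)

variable {E : Subgroup G} {x : G}

theorem tr3_mem (hx : ∀ e ∈ E, x * e * x⁻¹ ∈ E) {e : G} (he : e ∈ E) : tr3 x e ∈ E :=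
  mul_mem (mul_mem he (hx e he)) (hx _ (hx e he))

theorem tr3_mul (hE : ∀ a ∈ E, ∀ b ∈ E, a * b = b * a) (hx : ∀ e ∈ E, x * e * x⁻¹ ∈ E) {e f : G}
    (he : e ∈ E) (hf : f ∈ E) : tr3 x (e * f) = tr3 x e * tr3 x f := by
  have e1 : x * (e * f) * x⁻¹ = (x * e * x⁻¹) * (x * f * x⁻¹) := by group
  have e2 : x * ((x * e * x⁻¹) * (x * f * x⁻¹)) * x⁻¹ =
      (x * (x * e * x⁻¹) * x⁻¹) * (x * (x * f * x⁻¹) * x⁻¹) := by group
  rw [tr3, e1, e2, Commute.mul_mul_mul_comm (hE _ hf _ (hx e he)),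
    Commute.mul_mul_mul_comm (hE _ (mul_mem hf (hx f hf)) _ (hx _ (hx e he)))]
  rfl

theorem tr3_conj {c : G} (hc : Commute c x) (e : G) :
    tr3 x (c * e * c⁻¹) = c * tr3 x e * c⁻¹ := by
  have key : ∀ y, x * (c * y * c⁻¹) * x⁻¹ = c * (x * y * x⁻¹) * c⁻¹ := fun y => by
    calc _ = (x * c) * y * (x * c)⁻¹ := by group
      _ = _ := by rw [← hc.eq]; group
  rw [tr3, key, key, tr3]; group

theorem tr3_comm (hE : ∀ a ∈ E, ∀ b ∈ E, a * b = b * a) (hx : ∀ e ∈ E, x * e * x⁻¹ ∈ E)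
    (h3 : x ^ 3 = 1) {e : G} (he : e ∈ E) : Commute (tr3 x e) x := by
  refine (mul_inv_eq_iff_eq_mul.1 ?_).symm
  calc x * tr3 x e * x⁻¹
      = (x * e * x⁻¹) * (x * (x * e * x⁻¹) * x⁻¹) * (x ^ 3 * e * (x ^ 3)⁻¹) := by
        rw [tr3, pow_succ, pow_two]; group
    _ = _ := by
        rw [h3, one_mul, inv_one, mul_one, hE _ (mul_mem (hx e he) (hx _ (hx e he))) _ he, tr3,
          mul_assoc e]

theorem tr3_inv (hE : ∀ a ∈ E, ∀ b ∈ E, a * b = b * a) (hx : ∀ e ∈ E, x * e * x⁻¹ ∈ E) {e : G}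
    (he : e ∈ E) : tr3 x e⁻¹ = (tr3 x e)⁻¹ := by
  rw [eq_inv_iff_mul_eq_one, ← tr3_mul hE hx (inv_mem he) he]; simp [tr3]

end general

variable {G : Type*} [Group G] [Finite G] {z : G} {Q : Subgroup G} {cl : G → V} {ρ : CZ z →* X}
  (h : FT z Q cl ρ)

theorem V_trans2 {K : Subgroup G} (hK : K ≤ V8 h) {a b : G} (ha : a ∈ V8 h) (hb : b ∈ V8 h)
    (a1 : a ∉ K) (b1 : b ∉ K) :
    ∃ l ∈ normalizer (V8 h : Set G), (∀ k ∈ K, l * k * l⁻¹ = k) ∧ l * a * l⁻¹ = b := by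
  by_cases e : a = b
  · exact ⟨1, one_mem _, by simp, by simp [e]⟩
  obtain ⟨v, hv, h1, p, hp, h3, h2⟩ := exists_transv (V_sq h) (hQ h) hK ha hb a1 b1 e
  exact ⟨p, le_normalizer_of_xs (hQ h) hv h1 hp, h3, h2⟩

omit [Finite G] in
theorem C_conj {l c : G} (hl : l ∈ normalizer (V8 h : Set G)) (hc : c ∈ CV h) :
    l * c * l⁻¹ ∈ CV h := fun y hy => by
  have := hc _ (conj_mem_of_mem_normalizer (inv_mem hl) hy)
  calc _ = l * (l⁻¹ * y * l⁻¹⁻¹ * c) * l⁻¹ := by group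
    _ = _ := by rw [this]; group

/-- the trace argument -/
theorem trace_main {s x y : G} (hs : s ∈ Q) (e : cl s = dv 85) (h3 : x ^ 3 = 1)
    (x1 : x * z * x⁻¹ = s) (x2 : x * s * x⁻¹ = z * s) (hy : y ∈ V8 h)
    (hy' : y ∉ closure ({z, s} : Set G)) (hyx : Commute y x)
    (hC : ∀ c ∈ CV h, ∃ o ∈ OV h, ∃ c' ∈ CV h, Commute c' x ∧ c = o * c') :
    ∃ a b c d : G, (∀ t ∈ [a, b, c, d], Commute t x ∧ Commute t y) ∧ y = ⁅a, b⁆ * ⁅c, d⁆ := by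
  obtain ⟨hp, hcard⟩ := pair_s h hs e
  have hE : ∀ a ∈ Q ⊓ Qv z Q s, ∀ b ∈ Q ⊓ Qv z Q s, a * b = b * a := fun _ ha _ hb => hp.E_comm ha hb
  have x3 : x * (z * s) * x⁻¹ = z := by
    calc _ = (x * z * x⁻¹) * (x * s * x⁻¹) := by group
      _ = z := by rw [x1, x2, hp.four.s_zs]
  have hx : ∀ e ∈ Q ⊓ Qv z Q s, x * e * x⁻¹ ∈ Q ⊓ Qv z Q s := fun a ha => by
    refine ⟨?_, Qv_conj' ((Qv_z h.lx).symm ▸ ha.1) x1⟩
    obtain ⟨p, hp1, hp2⟩ := hp.exists_q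
    have h1 : p⁻¹ * a * p⁻¹⁻¹ ∈ Qv z Q s := by
      rcases h.xs.conj_eq_or ha.1 (inv_mem hp1) with b | b <;> rw [b]
      exacts [ha.2, mul_mem ha.2 hp.z_mem]
    have h2 := Qv_conj' h1 hp2
    rw [show p * (p⁻¹ * a * p⁻¹⁻¹) * p⁻¹ = a by group] at h2
    exact Qv_z h.lx ▸ Qv_conj' h2 x3
  have hl : ∀ t ∈ closure ({z, s} : Set G), tr3 x t = 1 := fun t ht => by
    rcases (hp.four.mem_V t).1 ht with rfl | rfl | rfl | rfl
    · simp [tr3]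
    · rw [tr3, x1, x2, hp.four.zs_sq]
    · rw [tr3, x2, x3, hp.four.s_zs, hp.four.z_sq]
    · rw [tr3, x3, x1, hp.four.zs_z, hp.four.s_sq]
  have hVE : V8 h ≤ Q ⊓ Qv z Q s := le_inf (V_le h) (V_le_P h hs e)
  have hcE : ∀ c ∈ CV h, ∀ a ∈ Q ⊓ Qv z Q s, c * a * c⁻¹ ∈ Q ⊓ Qv z Q s := fun c hc a ha =>
    ⟨h.conj_mem ⟨c, C_le h hc⟩ ha.1,
      Qv_conj' ha.2 (mul_inv_eq_iff_eq_mul.2 (hc s (s_mem h hs e)).symm)⟩
  have key : ∀ c ∈ CV h, ∀ a ∈ Q ⊓ Qv z Q s, ∃ c' a', (Commute c' x ∧ Commute c' y) ∧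
      (Commute a' x ∧ Commute a' y) ∧ tr3 x (c * a * c⁻¹ * a⁻¹) = ⁅c', a'⁆ := fun c hc a ha => by
    obtain ⟨o, ho, c', hc', h1, rfl⟩ := hC c hc
    refine ⟨c', tr3 x a, ⟨h1, (hc' y hy).symm⟩,
      ⟨tr3_comm hE hx h3 ha, hE _ (tr3_mem hx ha) _ (hVE hy)⟩, ?_⟩
    have h2 := hcE c' hc' a ha
    obtain ⟨q, hq, -, p, hp', -, rfl⟩ := O_decomp h hs e ho
    have h4 := hp.comm_X_E (mul_mem_sup hq hp') h2
    rw [show q * p * c' * a * (q * p * c')⁻¹ * a⁻¹ = (q * p * (c' * a * c'⁻¹) * (q * p)⁻¹ *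
      (c' * a * c'⁻¹)⁻¹) * ((c' * a * c'⁻¹) * a⁻¹) by group,
      tr3_mul hE hx (hp.V_le_E h4) (mul_mem h2 (inv_mem ha)), hl _ h4, one_mul,
      tr3_mul hE hx h2 (inv_mem ha), tr3_conj h1, tr3_inv hE hx ha, commutatorElement_def]
  obtain ⟨g₁, hg₁, g₂, hg₂, v₁, hv₁, v₂, hv₂, f₁, f₂, hm⟩ := exists_comm_E0
  obtain ⟨c₁, hc₁, rfl⟩ := exists_lift_C h hg₁ f₁
  obtain ⟨c₂, hc₂, rfl⟩ := exists_lift_C h hg₂ f₂
  obtain ⟨a₁, ha₁, rfl⟩ := h.surj v₁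
  obtain ⟨a₂, ha₂, rfl⟩ := h.surj v₂
  have ha₁' : a₁ ∈ Q ⊓ Qv z Q s := ⟨ha₁, (h.mem_P_iff hp hcard e ha₁).2 hv₁⟩
  have ha₂' : a₂ ∈ Q ⊓ Qv z Q s := ⟨ha₂, (h.mem_P_iff hp hcard e ha₂).2 hv₂⟩
  have m₁ := mul_mem (hcE c₁ hc₁ a₁ ha₁') (inv_mem ha₁')
  have m₂ := mul_mem (hcE c₂ hc₂ a₂ ha₂') (inv_mem ha₂')
  have hm' : cl (c₁ * a₁ * c₁⁻¹ * a₁⁻¹ * (c₂ * a₂ * c₂⁻¹ * a₂⁻¹)) = dv 170 := by
    rw [h.mul _ m₁.1 _ m₂.1, h.mul _ (hcE c₁ hc₁ a₁ ha₁').1 _ (inv_mem ha₁),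
      h.mul _ (hcE c₂ hc₂ a₂ ha₂').1 _ (inv_mem ha₂), h.cl_inv ha₁, h.cl_inv ha₂,
      h.act ⟨c₁, C_le h hc₁⟩ a₁ ha₁, h.act ⟨c₂, C_le h hc₂⟩ a₂ ha₂, hm]
  have hℓ : ∀ t ∈ Q, cl t = 0 ∨ cl t = dv 85 → t ∈ closure ({z, s} : Set G) := by
    rintro t ht (a | a)
    · rcases (h.ker t ht).1 a with rfl | rfl
      exacts [one_mem _, hp.four.z_mem_V]
    · rcases (h.cl_eq_iff ht hs).1 (a.trans e.symm) with rfl | rfl
      exacts [hp.four.s_mem_V, mul_mem hp.four.s_mem_V hp.four.z_mem_V]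
  have m₃ := mul_mem m₁ m₂
  have h5 : y * (c₁ * a₁ * c₁⁻¹ * a₁⁻¹ * (c₂ * a₂ * c₂⁻¹ * a₂⁻¹))⁻¹ ∈ closure ({z, s} : Set G) := by
    refine hℓ _ (mul_mem hy.1 (inv_mem m₃.1)) ?_
    rw [h.mul _ hy.1 _ (inv_mem m₃.1), h.cl_inv m₃.1, hm']
    rcases FL_cases _ hy.2 with a | a | a | a
    · exact absurd (hℓ y hy.1 (Or.inl a)) hy'
    · exact absurd (hℓ y hy.1 (Or.inr a)) hy'
    · exact Or.inl (by rw [a, add_self_V])
    · exact Or.inr (by rw [a, add_assoc, add_self_V, add_zero])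
  obtain ⟨a, b, k1, k2, k3⟩ := key c₁ hc₁ a₁ ha₁'
  obtain ⟨c, d, k4, k5, k6⟩ := key c₂ hc₂ a₂ ha₂'
  refine ⟨a, b, c, d, by simp [k1, k2, k4, k5], ?_⟩
  have h6 := hl _ h5
  rw [tr3_mul hE hx (hVE hy) (inv_mem m₃), tr3_inv hE hx m₃, mul_inv_eq_one, tr3_mul hE hx m₁ m₂,
    k3, k6] at h6
  have h7 : x * y * x⁻¹ = y := mul_inv_eq_iff_eq_mul.2 hyx.symm
  rw [← h6, tr3, h7, h7, V_sq h y hy, one_mul]

section x
variable {x : CZ z} (hx : ρ x = w0) (h3 : x ^ 3 = 1)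
include h hx h3

theorem exists_conj_Q {y : CZ z} (hy : ρ y = w0) (y3 : y ^ 3 = 1) :
    ∃ q ∈ Q, cl q = w0 • cl (y * x⁻¹ : CZ z) ∧ q * x * q⁻¹ = y := by
  have h0 : ((y * x⁻¹ : CZ z) : G) ∈ Q := (h.rho_eq_one_iff _).1 (by simp [hx, hy])
  obtain ⟨q, hq, e⟩ := h.surj (w0 • cl (y * x⁻¹ : CZ z))
  refine ⟨q, hq, e, ?_⟩
  have h1 := h.conj_mem x (inv_mem hq)
  have h2 : cl (q * (x * q⁻¹ * (x : G)⁻¹)) = cl (y * x⁻¹ : CZ z) := by
    rw [h.mul _ hq _ h1, h.act x _ (inv_mem hq), h.cl_inv hq, hx, ← w0_sq_smul, e, ← mul_smul,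
      ← mul_smul, ← pow_two, ← pow_succ, w0_pow, one_smul]
  have hxz : Commute (x : G) z := mem_CZ.1 x.2
  rcases (h.cl_eq_iff (mul_mem hq h1) h0).1 h2 with a | a
  · rw [Subgroup.coe_mul, Subgroup.coe_inv, ← mul_assoc, ← mul_assoc] at a
    exact mul_right_cancel a
  · exfalso
    rw [Subgroup.coe_mul, Subgroup.coe_inv, ← mul_assoc, ← mul_assoc, mul_assoc (y : G),
      hxz.inv_left.eq, ← mul_assoc] at a
    have h4 := congrArg (· ^ 3) (mul_right_cancel a)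
    have x3 : (x : G) ^ 3 = 1 := congrArg Subtype.val h3
    have y3' : (y : G) ^ 3 = 1 := congrArg Subtype.val y3
    simp only [conj_pow, x3] at h4
    rw [(show Commute (y : G) z from mem_CZ.1 y.2).mul_pow, y3', pow_succ, pow_two, h.xs.z_sq] at h4
    exact h.xs.z_ne (by simpa using h4.symm)

theorem decomp {c : CZ z} (hc : ρ c ∈ Lin) :
    ∃ q ∈ Q, cl q = w0 • cl (c * x * c⁻¹ * x⁻¹ : CZ z) ∧ Commute (q⁻¹ * c) (x : G) := by
  obtain ⟨q, hq, e1, e2⟩ := exists_conj_Q h hx h3 (y := c * x * c⁻¹)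
    (by rw [map_mul, map_mul, map_inv, hx, mem_Lin.1 hc, mul_inv_cancel_right])
    (by rw [conj_pow, h3]; simp)
  refine ⟨q, hq, e1, mul_inv_eq_iff_eq_mul.1 ?_⟩
  calc _ = q⁻¹ * ((c * x * c⁻¹ : CZ z) : G) * q := by
        simp only [Subgroup.coe_mul, Subgroup.coe_inv]; group
    _ = _ := by rw [← e2]; group

omit h3 in
theorem x_norm : (x : G) ∈ normalizer (V8 h : Set G) :=
  mem_normalizer_of_conj_mem fun _ hy => conj_mem_V h (k := 1) (by simp [hx]) hy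

theorem decomp_C {c : G} (hc : c ∈ CV h) :
    ∃ o ∈ OV h, ∃ c' ∈ CV h, Commute c' (x : G) ∧ c = o * c' := by
  obtain ⟨q, hq, e1, e2⟩ := decomp h hx h3 (C_lin h hc)
  have h1 : ((⟨c, C_le h hc⟩ * x * ⟨c, C_le h hc⟩⁻¹ * x⁻¹ : CZ z) : G) ∈ Q :=
    (h.rho_eq_one_iff _).1 (by
      rw [map_mul, map_mul, map_mul, map_inv, map_inv, hx, mem_Lin.1 (C_lin h hc)]; simp)
  have h2 : ((⟨c, C_le h hc⟩ * x * ⟨c, C_le h hc⟩⁻¹ * x⁻¹ : CZ z) : G) ∈ CV h := by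
    have := mul_mem hc (C_conj h (x_norm h hx) (inv_mem hc))
    simpa [mul_assoc] using this
  have h4 : q ∈ CV h := (mem_C_iff h hq).2 (e1 ▸ Hp_w0 ((mem_C_iff h h1).1 h2))
  exact ⟨q, mem_O_of_Q h hq h4, _, mul_mem (inv_mem h4) hc, e2, by simp⟩

theorem exists_s : ∃ s ∈ Q, cl s = dv 85 ∧
    x * (x * s * (x : G)⁻¹) * (x : G)⁻¹ = s * (x * s * (x : G)⁻¹) := by
  obtain ⟨s, hs, e⟩ := h.surj (dv 85)
  have h1 := h.conj_mem x hs
  have e1 : cl (x * s * (x : G)⁻¹) = dv 170 := by rw [h.act x s hs, hx, e, w0_s0]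
  have e2 : cl (x * (x * s * (x : G)⁻¹) * (x : G)⁻¹) = cl (s * (x * s * (x : G)⁻¹)) := by
    rw [h.act x _ h1, hx, e1, w0_ws0, h.mul _ hs _ h1, e, e1]
  rcases (h.cl_eq_iff (h.conj_mem x h1) (mul_mem hs h1)).1 e2 with a | a
  · exact ⟨s, hs, e, a⟩
  · refine ⟨s * z, mul_mem hs h.xs.z_mem, (h.cl_mul_z hs).trans e, ?_⟩
    have key : ∀ t : G, x * (t * z) * (x : G)⁻¹ = x * t * (x : G)⁻¹ * z := fun t => by
      rw [mul_assoc _ _ z, (show Commute (x : G) z from mem_CZ.1 x.2).inv_left.eq]; group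
    rw [key, key, a, h.xs.mul_z_z, mul_assoc s z, ← mul_assoc z, h.xs.z_comm _ h1, h.xs.mul_z_z]

theorem z_comm_prod : ∃ a b c d : G, (∀ t ∈ [a, b, c, d], Commute t (x : G) ∧ Commute t z) ∧
    z = ⁅a, b⁆ * ⁅c, d⁆ := by
  obtain ⟨s, hs, e, e3⟩ := exists_s h hx h3
  have hsV := s_mem h hs e
  have hs2 : x * s * (x : G)⁻¹ ∈ V8 h := conj_mem_of_mem_normalizer (x_norm h hx) hsV
  have e1 : cl (x * s * (x : G)⁻¹) = dv 170 := by rw [h.act x s hs, hx, e, w0_s0]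
  obtain ⟨hp, -⟩ := pair_s h hs e
  obtain ⟨l₁, hl₁, f₁⟩ := V_trans h (z_mem h) hsV h.xs.z_ne hp.hP.z_ne
  obtain ⟨l₂, hl₂, f₂, f₃⟩ := V_trans2 h (K := zpowers s) (zpowers_le.2 hsV)
    (conj_mem_of_mem_normalizer hl₁ hsV) hs2 (by
      rw [mem_zpowers_invol hp.hP.z_sq]
      rintro (a | a)
      · exact hp.hP.z_ne (by simpa using a)
      · exact hp.ne (by simpa using a.trans f₁.symm)) (by
      rw [mem_zpowers_invol hp.hP.z_sq]
      rintro (a | a)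
      · exact ne_170 (by rw [← e1, a, h.cl_one])
      · exact ne_170_85 (by rw [← e1, a, e]))
  have hl := mul_mem hl₂ hl₁
  have g1 : l₂ * l₁ * z * (l₂ * l₁)⁻¹ = s := by
    rw [← f₂ s (mem_zpowers s)]; nth_rewrite 1 [← f₁]; group
  have g2 : l₂ * l₁ * s * (l₂ * l₁)⁻¹ = x * s * (x : G)⁻¹ := by rw [← f₃]; group
  generalize l₂ * l₁ = l at hl g1 g2
  have x3 : (x : G) ^ 3 = 1 := congrArg Subtype.val h3
  obtain ⟨a, b, c, d, k1, k2⟩ := trace_main h (x := l⁻¹ * x * l⁻¹⁻¹) (y := l⁻¹ * z * l⁻¹⁻¹) hs e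
    (by rw [conj_pow, x3]; simp)
    (by
      calc _ = l⁻¹ * (x * (l * z * l⁻¹) * (x : G)⁻¹) * l := by group
        _ = s := by rw [g1, ← g2]; group)
    (by
      calc _ = l⁻¹ * (x * (l * s * l⁻¹) * (x : G)⁻¹) * l := by group
        _ = l⁻¹ * ((l * z * l⁻¹) * (l * s * l⁻¹)) * l := by rw [g2, e3, g1]
        _ = z * s := by group)
    (conj_mem_of_mem_normalizer (inv_mem hl) (z_mem h))
    (fun hm => by
      have key : ∀ t, l⁻¹ * z * l⁻¹⁻¹ = t → z = l * t * l⁻¹ := fun t a => by rw [← a]; group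
      rcases (hp.four.mem_V _).1 hm with a | a | a | a
      · exact h.xs.z_ne (by simpa using key _ a)
      · exact hp.ne ((key _ a).trans g1).symm
      · exact ne_170 (by rw [← e1, ← g2, ← key _ a, h.cl_z])
      · have a' : z = s * (x * s * (x : G)⁻¹) := by
          rw [← g2]; nth_rewrite 1 [← g1, key _ a]; group
        have := congrArg cl a'
        rw [h.cl_z, h.mul _ hs _ hs2.1, e, e1, eq_comm, add_eq_zero_V] at this
        exact ne_170_85 this.symm)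
    ((show Commute z (x : G) from (mem_CZ.1 x.2).symm).conj l⁻¹)
    (fun c hc => by
      obtain ⟨o, ho, c', hc', k1, k2⟩ := decomp_C h hx h3 (C_conj h hl hc)
      refine ⟨_, O_conj h (inv_mem hl) ho, _, C_conj h (inv_mem hl) hc', k1.conj l⁻¹, ?_⟩
      calc c = l⁻¹ * (l * c * l⁻¹) * l := by group
        _ = _ := by rw [k2]; group)
  refine ⟨l * a * l⁻¹, l * b * l⁻¹, l * c * l⁻¹, l * d * l⁻¹, fun t ht => ?_, ?_⟩
  · obtain ⟨u, hu, rfl⟩ : ∃ u ∈ [a, b, c, d], t = l * u * l⁻¹ := by simpa using ht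
    exact ⟨by simpa [mul_assoc] using (k1 u hu).1.conj l,
      by simpa [mul_assoc] using (k1 u hu).2.conj l⟩
  · calc z = l * (l⁻¹ * z * l⁻¹⁻¹) * l⁻¹ := by group
      _ = _ := by rw [k2]; simp only [commutatorElement_def]; group

end x

include h

theorem psu_data : ∃ (K : Type) (_ : Field K) (_ : Fintype K), Fintype.card K = 9 ∧
    IsSimpleGroup (PSU 4 K 3) ∧ (∃ a b : PSU 4 K 3, a * b ≠ b * a) ∧
    ∃ φ : M0 →* PSU 4 K 3, Function.Surjective φ ∧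
      ∀ g : M0, φ g = 1 ↔ ∃ k < 3, (g : X) = w0 ^ k := by
  obtain ⟨K, _, _, hK, φ, h1, h2⟩ := h.psu
  have h4 : ∀ g : M0, φ g = 1 ↔ ∃ k < 3, (g : X) = w0 ^ k := fun g => (h2 g).trans
    ⟨exists_pow_lt (by norm_num) w0_pow, fun ⟨k, _, e⟩ => e ▸ npow_mem_zpowers _ _⟩
  obtain ⟨a, ha, b, hb, e⟩ := exists_noncomm_M0
  refine ⟨K, _, _, hK, H59.isSimpleGroup_PSU hK (by norm_num) (by norm_num),
    ⟨φ ⟨a, ha⟩, φ ⟨b, hb⟩, fun e' => ?_⟩, φ, h1, h4⟩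
  obtain ⟨k, hk, e''⟩ := (h4 (⟨a, ha⟩ * ⟨b, hb⟩ * ⟨a, ha⟩⁻¹ * ⟨b, hb⟩⁻¹)).1 (by
    rw [map_mul, map_mul, map_mul, e', map_inv, map_inv]; simp)
  exact e k hk e''

theorem exists_gen {Y : Subgroup (CZ z)} (hY : Nat.card Y = 3)
    (hn : ∀ c : CZ z, ∀ y ∈ Y, ρ (c * y * c⁻¹) ∈ Y.map ρ) :
    ∃ x : CZ z, ρ x = w0 ∧ x ^ 3 = 1 ∧ Y = zpowers x := by
  have := Fact.mk Nat.prime_three
  have p3 : ∀ y ∈ Y, y ^ 3 = 1 := fun y hy =>
    congrArg Subtype.val (hY ▸ pow_card_eq_one' (x := (⟨y, hy⟩ : Y)))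
  have gen : ∀ y ∈ Y, y ≠ 1 → Y = zpowers y := fun y hy y1 =>
    (eq_of_le_of_card_ge (zpowers_le.2 hy)
      (by rw [hY, Nat.card_zpowers, orderOf_eq_prime (p3 y hy) y1])).symm
  have : Nontrivial Y := Finite.one_lt_card_iff_nontrivial.1 (by omega)
  obtain ⟨⟨y, hy⟩, y1⟩ := exists_ne (1 : Y)
  have y1' : y ≠ 1 := fun e => y1 (Subtype.ext e)
  obtain ⟨K, _, _, -, hS, ⟨a, b, hab⟩, φ, h1, h2⟩ := psu_data h
  have hM : ρ y ∈ M0 := by
    have h4 : ρ y * ρ y ∈ Lin := by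
      rcases mem_SLin.1 (H0_le_SLin (h.rho_mem y)) with a | a
      exacts [mul_mem (mem_Lin.2 a) (mem_Lin.2 a), mul_mem_Lin_of a a]
    refine mem_M0_iff.2 ⟨h.rho_mem y, ?_⟩
    have := mul_mem h4 h4
    rwa [← map_mul, ← map_mul, show y * y * (y * y) = y ^ 3 * y by
      rw [pow_succ, pow_two]; group, p3 y hy, one_mul] at this
  have hN : (zpowers (φ ⟨_, hM⟩)).Normal := ⟨by
    rintro _ ⟨k, rfl⟩ g
    obtain ⟨⟨m, hm⟩, rfl⟩ := h1 g
    obtain ⟨c, rfl⟩ := h.exists_rho (M0_le_H0 hm)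
    obtain ⟨t, ht, e⟩ := hn c (y ^ k) (zpow_mem hy k)
    rw [gen y hy y1'] at ht
    obtain ⟨j, rfl⟩ := ht
    refine ⟨j, ?_⟩
    simp only [← map_zpow, ← map_inv, ← map_mul]
    exact congrArg φ (Subtype.ext (by simpa using e))⟩
  rcases hN.eq_bot_or_eq_top with e | e
  · obtain ⟨k, hk, e'⟩ := (h2 _).1 (zpowers_eq_bot.1 e)
    have e'' : ρ y = w0 ^ k := e'
    obtain rfl | rfl | rfl : k = 0 ∨ k = 1 ∨ k = 2 := by omega
    · have h4 := h.xs.pow_four ((h.rho_eq_one_iff y).1 e'')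
      have h5 : (y : G) ^ 3 = 1 := congrArg Subtype.val (p3 y hy)
      rw [pow_succ, h5, one_mul] at h4
      exact absurd (Subtype.ext h4) y1'
    · exact ⟨y, by simpa using e'', p3 y hy, gen y hy y1'⟩
    · have h4 : ρ (y ^ 2) = w0 := by
        rw [map_pow, e'', ← pow_mul, show 2 * 2 = 3 + 1 from rfl, pow_succ, w0_pow, one_mul]
      exact ⟨y ^ 2, h4, p3 _ (pow_mem hy 2), gen _ (pow_mem hy 2) fun a => w0_ne (by
        rw [← h4, a, map_one])⟩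
  · obtain ⟨i, rfl⟩ := e.ge (mem_top a)
    obtain ⟨j, rfl⟩ := e.ge (mem_top b)
    exact absurd (zpow_mul_comm _ _ _) hab

theorem M0_perfect : _root_.commutator M0 = ⊤ := by
  obtain ⟨K, _, _, -, hS, ⟨a, b, hab⟩, φ, h1, h2⟩ := psu_data h
  refine perfect_of φ h1 (commutator_eq_top_of_simple hab) fun g hg => ?_
  obtain ⟨k, -, e⟩ := (h2 g).1 hg
  obtain ⟨c, hc, d, hd, e'⟩ := exists_comm_w0
  rw [show g = ⁅(⟨c, hc⟩ : M0), (⟨d, hd⟩ : M0)⁆ ^ k from Subtype.ext (by rw [e, ← e']; rfl)]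
  exact pow_mem (commutator_mem_commutator (mem_top _) (mem_top _)) k

/-- **The centraliser `6·U₄(3)`.** -/
theorem cent_three {x : CZ z} (hx : ρ x = w0) (h3 : x ^ 3 = 1) {D : Subgroup (CZ z)}
    (hD : ∀ d, d ∈ D ↔ d * x = x * d) :
    IsQuasisimple D ∧ IsCyclic (center D) ∧ Nat.card (center D) = 6 ∧
      ∃ (K : Type) (_ : Field K) (_ : Fintype K), Fintype.card K = 9 ∧
        Nonempty (D ⧸ center D ≃* PSU 4 K 3) := by
  obtain ⟨K, _, _, hK, hS, ⟨a, b, hab⟩, φ, h1, h2⟩ := psu_data h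
  let ψ : D →* M0 := (ρ.comp D.subtype).codRestrict _ fun d => mem_M0_iff.2 ⟨h.rho_mem _,
    mem_Lin.2 (hx ▸ (map_mul ρ _ _).symm.trans
      ((congrArg ρ ((hD d).1 d.2)).trans (map_mul ρ _ _)))⟩
  have hψ : Function.Surjective ψ := fun g => by
    obtain ⟨c, hc⟩ := h.exists_rho (M0_le_H0 g.2)
    obtain ⟨q, hq, -, e⟩ := decomp h hx h3 (c := c) (hc ▸ M0_le_Lin g.2)
    refine ⟨⟨(⟨q, h.Q_le hq⟩ : CZ z)⁻¹ * c, (hD _).2 (Subtype.ext e)⟩, Subtype.ext ?_⟩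
    show ρ ((⟨q, h.Q_le hq⟩ : CZ z)⁻¹ * c) = g
    rw [map_mul, map_inv, (h.rho_eq_one_iff ⟨q, _⟩).2 hq, hc]; simp
  let z' : D := ⟨⟨z, mem_CZ.2 rfl⟩, (hD _).2 (Subtype.ext (mem_CZ.1 x.2).symm)⟩
  let x' : D := ⟨x, (hD _).2 rfl⟩
  have hker : ∀ d : D, ψ d = 1 → d = 1 ∨ d = z' := fun d hd => by
    have h4 : ((d : CZ z) : G) ∈ Q := (h.rho_eq_one_iff _).1 (congrArg Subtype.val hd)
    have h5 := h.smul_cl_of_comm x h4 (congrArg Subtype.val ((hD d).1 d.2)).symm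
    rw [hx] at h5
    rcases (h.ker _ h4).1 (fix_zero h5) with e | e
    exacts [Or.inl (Subtype.ext (Subtype.ext e)), Or.inr (Subtype.ext (Subtype.ext e))]
  have hperf : _root_.commutator D = ⊤ := by
    refine perfect_of ψ hψ (M0_perfect h) fun d hd => ?_
    rcases hker d hd with rfl | rfl
    · exact one_mem _
    obtain ⟨a, b, c, d, k1, k2⟩ := z_comm_prod h hx h3
    let f : ∀ t ∈ [a, b, c, d], D := fun t ht =>
      ⟨⟨t, mem_CZ.2 (k1 t ht).2⟩, (hD _).2 (Subtype.ext (k1 t ht).1)⟩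
    rw [show z' = ⁅f a (by simp), f b (by simp)⁆ * ⁅f c (by simp), f d (by simp)⁆ from
      Subtype.ext (Subtype.ext k2)]
    exact mul_mem (commutator_mem_commutator (mem_top _) (mem_top _))
      (commutator_mem_commutator (mem_top _) (mem_top _))
  have zc : z' ∈ center D := mem_center_iff.2 fun d => Subtype.ext (Subtype.ext (mem_CZ.1 d.1.2))
  have xc : x' ∈ center D := mem_center_iff.2 fun d => Subtype.ext ((hD d).1 d.2)
  have z2 : z' ^ 2 = 1 := Subtype.ext (Subtype.ext ((pow_two z).trans h.xs.z_sq))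
  have x3 : x' ^ 3 = 1 := Subtype.ext h3
  have zx : Commute z' x' := (mem_center_iff.1 xc z')
  have hc1 : center D ≤ (φ.comp ψ).ker := fun d hd => by
    rw [MonoidHom.mem_ker, ← mem_bot, ← center_eq_bot_of_simple hab, mem_center_iff]
    intro g
    obtain ⟨e, rfl⟩ := (h1.comp hψ) g
    show φ.comp ψ e * _ = _ * φ.comp ψ e
    rw [← map_mul, ← map_mul, mem_center_iff.1 hd e]
  have hc2 : (φ.comp ψ).ker ≤ zpowers (z' * x') := fun d hd => by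
    obtain ⟨k, -, e⟩ := (h2 _).1 hd
    have e1 : x' ∈ zpowers (z' * x') := ⟨(4 : ℕ), by
      simp only [zpow_natCast]
      rw [zx.mul_pow, show 4 = 2 * 2 from rfl, pow_mul, z2, show 2 * 2 = 3 + 1 from rfl, pow_succ x',
        x3]; simp⟩
    have e2 : z' ∈ zpowers (z' * x') := (mul_mem_cancel_right e1).1 (mem_zpowers _)
    refine (mul_mem_cancel_right (inv_mem (pow_mem e1 k))).1 ?_
    rcases hker (d * (x' ^ k)⁻¹) (Subtype.ext (by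
      rw [map_mul, map_inv, map_pow, Subgroup.coe_mul, e, Subgroup.coe_inv, Subgroup.coe_pow]
      change _ * (ρ x ^ k)⁻¹ = 1
      rw [hx, mul_inv_cancel])) with a | a <;> rw [a]
    exacts [one_mem _, e2]
  have hc3 : zpowers (z' * x') ≤ center D := zpowers_le.2 (mul_mem zc xc)
  have e1 : center D = (φ.comp ψ).ker := le_antisymm hc1 (hc2.trans hc3)
  have e2 : center D = zpowers (z' * x') := le_antisymm (hc1.trans hc2) hc3
  have E : D ⧸ center D ≃* PSU 4 K 3 := (QuotientGroup.quotientMulEquivOfEq e1).trans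
    (QuotientGroup.quotientKerEquivOfSurjective _ (h1.comp hψ))
  refine ⟨⟨⟨hperf⟩, E.isSimpleGroup⟩, e2 ▸ inferInstance, ?_, K, _, _, hK, ⟨E⟩⟩
  have := Fact.mk Nat.prime_three
  have := Fact.mk Nat.prime_two
  have o1 : orderOf z' = 2 := orderOf_eq_prime z2 fun e =>
    h.xs.z_ne (congrArg (fun t : D => ((t : CZ z) : G)) e)
  have o2 : orderOf x' = 3 := orderOf_eq_prime x3 fun e => w0_ne (by
    rw [← hx, show x = 1 from congrArg Subtype.val e, map_one])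
  rw [e2, Nat.card_zpowers, zx.orderOf_mul_eq_mul_orderOf_of_coprime (by rw [o1, o2]; norm_num),
    o1, o2]

end H95.F24
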