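import Cfsg.Agent.H39.F24Pair
/-! Finite facts about the line `F₄ s₀` in the model of `3·U₄(3).2`. -/
set_option autoImplicit false
set_option maxRecDepth 1000000
set_option Elab.async false
namespace H95.F24
open H39.F24 H49 H72 H78

/-- the line `F₄ s₀` -/
def FL : List V := [dv 0, dv 85, dv 170, dv 255]

/-- the hyperplane orthogonal to `F₄ s₀` -/
def Hp (v : V) : Prop := bf v (dv 85) = 0 ∧ bf v (dv 170) = 0

theorem mem_FL_dv {n : ℕ} (hn : n < 4096) : dv n ∈ FL ↔ n ∈ [0, 85, 170, 255] := by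
  simp only [FL, List.mem_cons, List.not_mem_nil, or_false]
  rw [dv_eq_iff hn (by norm_num), dv_eq_iff hn (by norm_num), dv_eq_iff hn (by norm_num),
    dv_eq_iff hn (by norm_num)]

theorem FL_zero : (0 : V) ∈ FL := dv_zero ▸ List.mem_cons_self
theorem FL_85 : dv 85 ∈ FL := by simp [FL]
theorem FL_170 : dv 170 ∈ FL := by simp [FL]
theorem dv_255 : dv 255 = dv 85 + dv 170 := dv_xor' 85 170
theorem FL_cases : ∀ u ∈ FL, u = 0 ∨ u = dv 85 ∨ u = dv 170 ∨ u = dv 85 + dv 170 := by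
  intro u hu
  simpa [FL, dv_zero, dv_255] using hu
theorem FL_code {u : V} (hu : u ∈ FL) : ∃ n ∈ [0, 85, 170, 255], n < 4096 ∧ dv n = u := by
  obtain ⟨n, hn, rfl⟩ := exists_dv u
  exact ⟨n, (mem_FL_dv hn).1 hu, hn, rfl⟩
theorem FL_add : ∀ u ∈ FL, ∀ v ∈ FL, u + v ∈ FL := by
  intro u hu v hv
  obtain ⟨m, hm, hm', rfl⟩ := FL_code hu
  obtain ⟨n, hn, hn', rfl⟩ := FL_code hv
  rw [← dv_xor', mem_FL_dv (xor_lt hm' hn')]
  revert m n; decide +kernel
theorem FL_q : ∀ u ∈ FL, q u = 0 := by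
  intro u hu
  obtain ⟨m, hm, hm', rfl⟩ := FL_code hu
  rw [q_dv_eq_zero hm']
  revert m; decide +kernel
theorem FL_bf : ∀ u ∈ FL, ∀ v ∈ FL, bf u v = 0 := by
  intro u hu v hv
  rw [bf_eq, FL_q u hu, FL_q v hv, FL_q _ (FL_add u hu v hv)]; rfl
theorem ne_85 : dv 85 ≠ 0 := by
  rw [← dv_zero, Ne, dv_eq_iff (by norm_num) (by norm_num)]; norm_num
theorem ne_170 : dv 170 ≠ 0 := by
  rw [← dv_zero, Ne, dv_eq_iff (by norm_num) (by norm_num)]; norm_num
theorem ne_170_85 : dv 170 ≠ dv 85 := by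
  rw [Ne, dv_eq_iff (by norm_num) (by norm_num)]; norm_num

theorem FL_ncard : {v | v ∈ FL}.ncard = 4 := by
  rw [ncard_eq_cntV (f := fun n => Nat.beq n 0 || Nat.beq n 85 || Nat.beq n 170 || Nat.beq n 255)
    fun n hn => by rw [Set.mem_ofPred_eq, mem_FL_dv hn]; simp [or_assoc]]
  decide +kernel

theorem FL_ty {u : V} (hu : u ∈ FL) (h0 : u ≠ 0) : ty u = 3 := by
  obtain ⟨n, hn, rfl⟩ := exists_dv u
  rw [mem_FL_dv hn] at hu
  have : ∀ n ∈ [0, 85, 170, 255], n = 0 ∨ tyN n = 3 := by decide +kernel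
  rcases this n hu with rfl | h
  · exact absurd dv_zero h0
  · rw [ty_dv hn, h]

theorem FL_E0 {u : V} (hu : u ∈ FL) : u ∈ E0 := by
  obtain ⟨n, hn, rfl⟩ := exists_dv u
  rw [mem_FL_dv hn] at hu
  have : ∀ n ∈ [0, 85, 170, 255], e0B n = true := by decide +kernel
  exact (mem_E0_iff hn).2 (this n hu)

theorem w0_ws0 : w0 • dv 170 = dv 85 + dv 170 := by rw [← w0_s0, w0_sq_smul]

theorem FL_w0 {u : V} (hu : u ∈ FL) : w0 • u ∈ FL := by
  rcases FL_cases u hu with rfl | rfl | rfl | rfl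
  · rw [smul_zero]; exact FL_zero
  · rw [w0_s0]; exact FL_170
  · rw [w0_ws0]; exact FL_add _ FL_85 _ FL_170
  · rw [smul_add, w0_s0, w0_ws0]; exact FL_add _ FL_170 _ (FL_add _ FL_85 _ FL_170)

theorem FL_orbit {u : V} (hu : u ∈ FL) (h0 : u ≠ 0) : ∃ k : ℕ, w0 ^ k • u = dv 85 := by
  have e : w0 • (dv 85 + dv 170) = dv 85 := by
    rw [smul_add, w0_s0, w0_ws0, add_comm, add_assoc, add_self_V, add_zero]
  rcases FL_cases u hu with rfl | rfl | rfl | rfl
  · exact absurd rfl h0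
  · exact ⟨0, by simp⟩
  · exact ⟨2, by rw [pow_two, mul_smul, w0_ws0, e]⟩
  · exact ⟨1, by rw [pow_one, e]⟩

theorem FL_pow {u : V} (hu : u ∈ FL) (k : ℕ) : w0 ^ k • u ∈ FL := by
  induction k with
  | zero => simpa using hu
  | succ k ih => rw [pow_succ', mul_smul]; exact FL_w0 ih

theorem w0_inv : w0⁻¹ = w0 ^ 2 := by
  rw [inv_eq_iff_mul_eq_one, ← pow_succ', w0_pow]

theorem fix_zero {v : V} (h : w0 • v = v) : v = 0 := by
  have := w0_sq_smul v
  rw [h, h, add_self_V] at this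
  exact this

theorem Hp_iff {v : V} : Hp v ↔ ∀ u ∈ FL, bf v u = 0 := by
  refine ⟨fun h u hu => ?_, fun h => ⟨h _ FL_85, h _ FL_170⟩⟩
  rcases FL_cases u hu with rfl | rfl | rfl | rfl
  · exact bf_zero_right _
  · exact h.1
  · exact h.2
  · rw [bf_add_right, h.1, h.2, add_zero]

theorem Hp_of_w0 {v : V} (h : Hp (w0 • v)) : Hp v :=
  Hp_iff.2 fun u hu => by rw [← bf_smul w0_mem_Oq]; exact Hp_iff.1 h _ (FL_w0 hu)

theorem Hp_dv {n : ℕ} (hn : n < 4096) : Hp (dv n) ↔ (bN n 85 || bN n 170) = false := by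
  rw [Hp, bf_dv hn (by norm_num), bf_dv hn (by norm_num), b2z_eq_zero, b2z_eq_zero,
    Bool.or_eq_false_iff]

/-- a semilinear element fixing `s₀` and `ω s₀` is linear -/
theorem lin_of_fix {g : X} (hg : g ∈ SLin) (h1 : g • dv 85 = dv 85) (h2 : g • dv 170 = dv 170) :
    g ∈ Lin := by
  by_contra hL
  have := congrArg (· • dv 85) (semi_of_not_mem_Lin hg hL)
  simp only [mul_smul, w0_s0, h1, h2, w0_inv, pow_two, w0_ws0] at this
  exact ne_85 (by simpa using this)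

theorem fix_170 {g : X} (hg : g ∈ Lin) (h1 : g • dv 85 = dv 85) : g • dv 170 = dv 170 := by
  rw [← w0_s0, smul_w0 hg, h1]

/-- the elements of `R0` -/
noncomputable def RL : List X := List.map (wd rrL) [[], [0], [1], [0, 1], [2], [0, 2], [1, 2],
  [0, 1, 2], [3], [0, 3], [1, 3], [0, 1, 3], [2, 3], [0, 2, 3], [1, 2, 3], [0, 1, 2, 3], [4],
  [0, 4], [1, 4], [0, 1, 4], [2, 4], [0, 2, 4], [1, 2, 4], [0, 1, 2, 4], [3, 4], [0, 3, 4],
  [1, 3, 4], [0, 1, 3, 4], [2, 3, 4], [0, 2, 3, 4], [1, 2, 3, 4], [0, 1, 2, 3, 4]]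

theorem mem_RL {x : X} (hx : x ∈ R0) : x ∈ RL := by
  have hn' : x ∈ Submonoid.closure {x | x ∈ rrL} := by
    rw [← Subgroup.closure_toSubmonoid_of_finite, ← R0_eq]; exact hx
  clear hx
  induction hn' using Submonoid.closure_induction_left with
  | one => exact memB_iff.1 (by decide +kernel)
  | mul_left a ha b _ ih =>
    have : UG.frcL RL (fun L => allB (fun a : X => allB (fun b : X => memB (a * b) L) L) rrL) = true := by
      decide +kernel
    rw [UG.frcL_eq] at this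
    exact memB_iff.1 (allB_iff.1 (allB_iff.1 this a ha) b ih)

/-- test for `FL` -/
noncomputable def flB (n : ℕ) : Bool :=
  frc n fun m => Nat.beq m 0 || Nat.beq m 85 || Nat.beq m 170 || Nat.beq m 255

theorem flB_iff {n : ℕ} (hn : n < 4096) : dv n ∈ FL ↔ flB n = true := by
  rw [mem_FL_dv hn, flB, frc_eq]; simp [or_assoc]

theorem B0_comm {b : X} (hb : b ∈ R0) (hL : b ∈ Lin) {v : V} (hv : Hp v) : b • v + v ∈ FL := by
  obtain ⟨n, hn, rfl⟩ := exists_dv v
  have key : frcN (cds (RL.filter fun b => decide (b * w0 = w0 * b))) (fun L =>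
      allV (fun n => (bN n 85 || bN n 170) || allB (fun c => flB (Nat.xor (ap c n) n)) L) 4096)
      = true := by decide +kernel
  rw [frcN_eq] at key
  have h2 := allV_iff.1 key n hn
  rw [(Hp_dv hn).1 hv, Bool.false_or] at h2
  rw [smul_dv, ← dv_xor', flB_iff (xor_lt (ap_lt _ hn) hn)]
  exact allB_iff.1 h2 _ (List.mem_map.2 ⟨b, List.mem_filter.2
    ⟨mem_RL hb, decide_eq_true (mem_Lin.1 hL)⟩, rfl⟩)

/-- a basis of the hyperplane -/
def hpB : List ℕ := [256, 512, 1024, 2048, 5, 10, 17, 34, 65, 130]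

theorem hpB_spec : ∀ n ∈ hpB, n < 4096 ∧ Hp (dv n) := fun n hn => by
  have : ∀ n ∈ hpB, n < 4096 ∧ (bN n 85 || bN n 170) = false := by decide +kernel
  exact ⟨(this n hn).1, (Hp_dv (this n hn).1).2 (this n hn).2⟩

theorem R0_eq_one {b : X} (hb : b ∈ R0) (h : ∀ v, Hp v → b • v = v) : b = 1 := by
  have key : allB (fun b : X => decide (b = 1) || frc b.c fun c =>
      !allB (fun n => Nat.beq (ap c n) n) hpB) RL = true := by decide +kernel
  have := allB_iff.1 key b (mem_RL hb)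
  rw [frc_eq, allB_iff.2 fun n hn => by
    rw [Nat.beq_eq]
    exact (smul_dv_iff b (hpB_spec n hn).1 (hpB_spec n hn).1).1 (h _ (hpB_spec n hn).2)] at this
  simpa using this

theorem mem_FL_of_perp {v : V} (h : ∀ u, Hp u → bf v u = 0) : v ∈ FL := by
  obtain ⟨n, hn, rfl⟩ := exists_dv v
  have key : allV (fun n => flB n || !allB (fun u => !bN n u) hpB) 4096
      = true := by decide +kernel
  have := allV_iff.1 key n hn
  rw [allB_iff.2 fun u hu => by
    have := h _ (hpB_spec u hu).2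
    rw [bf_dv hn (hpB_spec u hu).1, b2z_eq_zero] at this
    rw [this]; rfl] at this
  exact (flB_iff hn).2 (by simpa using this)

theorem exists_Hp_bf : ∃ u v, Hp u ∧ Hp v ∧ bf u v = 1 :=
  ⟨dv 256, dv 512, (hpB_spec _ (by decide)).2, (hpB_spec _ (by decide)).2, by decide +kernel⟩

theorem exists_sep : ∃ u, bf u (dv 85) = 0 ∧ bf u (dv 170) = 1 := ⟨dv 1, by decide +kernel⟩

theorem card_B0 : Nat.card ↥(R0 ⊓ Lin) = 16 := by
  have := card_eq_two_mul_Lin (K := R0) (R0_le_H0.trans H0_le_SLin) (rr_mem 0) (rr_not_mem_Lin 0)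
  rw [card_R0] at this
  omega

theorem exists_comm_E0 : ∃ g₁ ∈ M0, ∃ g₂ ∈ M0, ∃ v₁ ∈ E0, ∃ v₂ ∈ E0, g₁ • dv 85 = dv 85 ∧
    g₂ • dv 85 = dv 85 ∧ (g₁ • v₁ + v₁) + (g₂ • v₂ + v₂) = dv 170 := by
  refine ⟨wd gM [3, 2], M0_eq ▸ wd_mem_closure _ _, wd gM [0, 4, 0, 4, 4],
    M0_eq ▸ wd_mem_closure _ _, dv 17, (mem_E0_iff (by norm_num)).2 (by decide +kernel), dv 1280,
    (mem_E0_iff (by norm_num)).2 (by decide +kernel), ?_, ?_, ?_⟩
  · rw [smul_dv_iff _ (by norm_num) (by norm_num)]; decide +kernel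
  · rw [smul_dv_iff _ (by norm_num) (by norm_num)]; decide +kernel
  · rw [smul_dv, smul_dv]; decide +kernel

theorem exists_comm_w0 : ∃ a ∈ M0, ∃ b ∈ M0, a * b * a⁻¹ * b⁻¹ = w0 :=
  ⟨UG.mk' CT 5579269937306523552006848059682894351704065
      16728281240970934305410058144009410851119105, mem_M0_of (by decide +kernel),
    UG.mk' CT 696984022740949643390642582054950234259460
      2787933473726733920751931739663822091321360, mem_M0_of (by decide +kernel),
    by decide +kernel⟩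

theorem Hp_w0 {v : V} (h : Hp v) : Hp (w0 • v) := by
  refine Hp_of_w0 (Hp_of_w0 ?_)
  rwa [← mul_smul, ← mul_smul, ← pow_two, ← pow_succ, w0_pow, one_smul]

theorem exists_noncomm_M0 : ∃ a ∈ M0, ∃ b ∈ M0, ∀ k < 3, a * b * a⁻¹ * b⁻¹ ≠ w0 ^ k := by
  refine ⟨wd gM [0], M0_eq ▸ wd_mem_closure _ _, wd gM [2], M0_eq ▸ wd_mem_closure _ _,
    fun k hk => ?_⟩
  obtain rfl | rfl | rfl : k = 0 ∨ k = 1 ∨ k = 2 := by omega
  · rw [pow_zero]; decide +kernel
  · rw [pow_one]; decide +kernel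
  · rw [pow_two]; decide +kernel

end H95.F24
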