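import Cfsg.Agent.H95.O4T
import Cfsg.Agent.H13.SL4Spec

/-! The normaliser of `SO₄` in `SL₄` is maximal (odd characteristic). -/

set_option autoImplicit false
set_option linter.unusedSectionVars false

namespace H95.O4

open Module H62

variable {F V : Type*} [Field F] [AddCommGroup V] [Module F V] [FiniteDimensional F V]
  {B B' : LinearMap.BilinForm F V} {M : Subgroup (V ≃ₗ[F] V)} {θ θ' : V →ₗ[F] V}
  {a b c d e f f' n k x : V} {r : V ≃ₗ[F] V} {l : F}

/-- A symmetric form whose special orthogonal group lies in `M`. -/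
structure MF (M : Subgroup (V ≃ₗ[F] V)) (B : LinearMap.BilinForm F V) : Prop where
  s : ∀ x y, B x y = B y x
  nd : B.Nondegenerate
  so : ∀ e : V ≃ₗ[F] V, (∀ x y, B (e x) (e y) = B x y) → LinearMap.det (e : V →ₗ[F] V) = 1 → e ∈ M

theorem MF.comp (h : MF M B) (hr : r ∈ M) : MF M (B.comp (r : V →ₗ[F] V) (r : V →ₗ[F] V)) where
  s x y := h.s _ _
  nd := ⟨fun x hx => r.map_eq_zero_iff.1 (h.nd.1 _ fun y => by simpa using hx (r.symm y)),
    fun x hx => r.map_eq_zero_iff.1 (h.nd.2 _ fun y => by simpa using hx (r.symm y))⟩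
  so e h1 h2 := by
    have := h.so (r * e * r⁻¹) (fun x y => by simpa using h1 (r.symm x) (r.symm y)) (by
      rw [LinearEquiv.coe_toLinearMap_mul, LinearEquiv.coe_toLinearMap_mul, map_mul, map_mul, h2,
        mul_one, ← map_mul, ← LinearEquiv.coe_toLinearMap_mul, mul_inv_cancel]
      exact LinearMap.det_id)
    rwa [mul_mem_cancel_right (inv_mem hr), mul_mem_cancel_left hr] at this

theorem exists_theta (hB : B.Nondegenerate) (B' : LinearMap.BilinForm F V) :
    ∃ θ : V →ₗ[F] V, ∀ x y, B' x y = B x (θ y) := by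
  choose θ hθ using fun a : V => exists_flip_eq hB (B'.flip a)
  exact ⟨⟨⟨θ, fun a b => sub_eq_zero.1 (hB.2 _ fun x => by simp [hθ])⟩,
    fun c a => sub_eq_zero.1 (hB.2 _ fun x => by simp [hθ])⟩, fun x y => (hθ y x).symm⟩

theorem siegel (hs : ∀ x y, B x y = B y x) (h1 : B e e = 0) (h2 : B f e = 0) (h3 : B f f = 0) :
    ∃ s : V ≃ₗ[F] V, (∀ x y, B (s x) (s y) = B x y) ∧ LinearMap.det (s : V →ₗ[F] V) = 1 ∧
      ∀ x, s x = x + B x e • f - B x f • e := by
  obtain ⟨t, ht⟩ := exists_tv (φ := B.flip e) (u := f) h2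
  obtain ⟨t', ht'⟩ := exists_tv (φ := -B.flip f) (u := e) (by simpa [hs e f] using h2)
  have k : ∀ x, (t * t') x = x + B x e • f - B x f • e := fun x => by
    simp only [LinearEquiv.mul_apply, ht, ht', map_add, map_smul, LinearMap.neg_apply,
      LinearMap.BilinForm.flip_apply, LinearMap.add_apply, LinearMap.smul_apply, h1]
    module
  refine ⟨t * t', fun x y => ?_, ?_, k⟩
  · simp only [k, map_add, map_sub, map_smul, LinearMap.add_apply, LinearMap.sub_apply,
      LinearMap.smul_apply, smul_eq_mul, h1, h2, h3, hs e f, hs e y, hs f y]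
    ring
  · rw [LinearEquiv.coe_toLinearMap_mul, map_mul, det_of_tv ht, det_of_tv ht']
    simp [h2, hs e f]

theorem perp4 (h : MF M B) (hn : finrank F V = 4) (h1 : B c c ≠ 0) (h2 : B n n ≠ 0) (h3 : B a a ≠ 0)
    (h4 : B k k ≠ 0) (p1 : B c n = 0) (p2 : B c a = 0) (p3 : B c k = 0) (p4 : B n a = 0)
    (p5 : B n k = 0) (p6 : B a k = 0) (q1 : B c x = 0) (q2 : B n x = 0) (q3 : B a x = 0)
    (q4 : B k x = 0) : x = 0 := by
  have li : LinearIndependent F ![c, n, a, k] := by
    refine LinearMap.linearIndependent_of_isOrthoᵢ (B := B) (fun i j hij => ?_) fun i => ?_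
    · fin_cases i <;> fin_cases j <;> simp_all [Function.onFun, h.s n c, h.s a c, h.s k c, h.s a n, h.s k n, h.s k a]
    · fin_cases i <;> simpa
  have := li.span_eq_top_of_card_eq_finrank' (by simp [hn])
  refine h.nd.2 _ fun y => ?_
  have k : ⊤ ≤ LinearMap.ker (B.flip x) := by
    rw [← this, Submodule.span_le]
    rintro _ ⟨i, rfl⟩
    fin_cases i <;> assumption
  exact k trivial

variable [Finite F] (h2 : (2 : F) ≠ 0) (hn : finrank F V = 4)
  (hT : ¬ ∀ φ w, φ w = 0 → HasTv M φ w) (h : MF M B)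
include h2 hn hT h

theorem no_tv (hf : f ≠ 0) (h0 : B x f = 0) (ht : HasTv M (B.flip f) x) : x = 0 :=
  by_contra fun hx => hT (all_tv h2 h.s h.nd hn h.so hx hf h0 ht)

theorem comm_fix (hr : r ∈ M) (ha : B a a ≠ 0) (hb : B b b ≠ 0) (h1 : r b = b)
    (hBb : ∀ x, B (r x) b = B x b) (hBa : ∀ x, B (r x) a = B x a) : r a = a := by
  have htM := h.so (rf B ha * rf B hb) (fun x y => by simp [rf_isom h.s]) (det_rf_mul _ _)
  have hcomm : ∀ x, r (rf B hb x) = rf B hb (r x) := fun x => by simp [rf_apply, h1, hBb]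
  refine sub_eq_zero.1 (no_tv h2 hn hT h (f := (2 / B a a) • a)
    (smul_ne_zero (div_ne_zero h2 ha) (ne_of_ns ha)) (by simp [hBa])
    ⟨r * (rf B ha * rf B hb) * r⁻¹ * (rf B ha * rf B hb)⁻¹, M.mul_mem (M.mul_mem
      (M.mul_mem hr htM) (M.inv_mem hr)) (M.inv_mem htM), fun x => ?_⟩)
  have h1 : (rf B ha * rf B hb)⁻¹ x = rf B hb (rf B ha x) := by
    rw [LinearEquiv.coe_inv, LinearEquiv.symm_apply_eq]
    simp [rf_rf]
  have h3 : r⁻¹ (rf B hb (rf B ha x)) = rf B hb (r.symm (rf B ha x)) := by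
    rw [LinearEquiv.coe_inv, LinearEquiv.symm_apply_eq, hcomm, r.apply_symm_apply]
  simp only [LinearEquiv.mul_apply]
  rw [h1, h3, rf_rf, rf_apply ha (r.symm _), map_sub, map_smul, r.apply_symm_apply, ← hBa,
    r.apply_symm_apply, rf_apply]
  simp only [map_sub, map_smul, LinearMap.sub_apply, LinearMap.smul_apply, smul_eq_mul,
    LinearMap.BilinForm.flip_apply]
  match_scalars <;> field_simp <;> ring

variable (h' : MF M B')
include h'

theorem sieg_eq (he : e ≠ 0) (h0 : ∀ x, B' x e = l * B x e) (h1 : B e e = 0) (h3 : B f e = 0)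
    (h4 : B f f = 0) (h5 : B' f' e = 0) (h6 : B' f' f' = 0) : B' f f' = l * B f f' := by
  have hl : l ≠ 0 := fun e0 => he (h'.nd.2 _ fun x => by rw [h0, e0, zero_mul])
  have h7 : B f' e = 0 := by simpa [h0, hl] using h5
  obtain ⟨s, s1, s2, s3⟩ := siegel h.s h1 h3 h4
  obtain ⟨t, t1, t2, t3⟩ := siegel h'.s (by rw [h0, h1, mul_zero]) h5 h6
  have hs := h.so s s1 s2
  have ht := h'.so t t1 t2
  have := no_tv h2 hn hT h he (x := (B' f f' - l * B f f') • e) (by simp [h1])
    ⟨s * t * (t * s)⁻¹, mul_mem (mul_mem hs ht) (inv_mem (mul_mem ht hs)), fun x => by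
      obtain ⟨x, rfl⟩ := (t * s).surjective x
      rw [LinearEquiv.mul_apply, LinearEquiv.coe_inv, LinearEquiv.symm_apply_apply]
      simp only [LinearEquiv.mul_apply, s3, t3, map_add, map_sub, map_smul, LinearMap.add_apply,
        LinearMap.sub_apply, LinearMap.smul_apply, smul_eq_mul, LinearMap.BilinForm.flip_apply,
        h0, h1, h3, h7, h.s e f, h.s f' f, h'.s e f']
      module⟩
  exact sub_eq_zero.1 ((smul_eq_zero.1 this).resolve_right he)

variable (hθ : ∀ x y, B' x y = B x (θ y))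
include hθ

omit h2 hn hT in
theorem sa (x y : V) : B (θ x) y = B x (θ y) := by rw [h.s, ← hθ, h'.s, hθ]

theorem eig_perp (hb : B b b ≠ 0) (hl : θ b = l • b) (ha : B a b = 0) : ∃ m : F, θ a = m • a := by
  have hl0 : l ≠ 0 := fun e => ne_of_ns hb (h'.nd.2 _ fun x => by simp [hθ, hl, e])
  have hb' : B' b b ≠ 0 := by simp [hθ, hl, hl0, hb]
  have k : ∀ t : F, B' (a + t • b) (a + t • b) ≠ 0 → ∃ m : F, θ a = m • a := fun t ht => by
    by_contra hc
    have hU := finrank_span_list_le (F := F) [θ (a + t • b), b]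
    obtain ⟨s, s1, s2, s3, s4⟩ := exists_so_fix h2 h.s h.nd
      (U := Submodule.span F {x | x ∈ [θ (a + t • b), b]}) (by simp at hU ⊢; omega)
      (w := a + t • b) fun hm => by
        obtain ⟨p, q, e⟩ := Submodule.mem_span_pair.1 (by simpa [Set.setOf_or, Set.pair_comm b] using hm :
          a + t • b ∈ Submodule.span F {θ (a + t • b), b})
        have e1 := congrArg (B · b) e
        simp only [map_add, map_smul, hl, LinearMap.add_apply, LinearMap.smul_apply, smul_eq_mul,
          sa h h' hθ, ha] at e e1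
        have e2 : p * (t * l) + q = t := mul_right_cancel₀ hb (by linear_combination e1)
        have e3 : p • θ a = a := by linear_combination (norm := module) e - e2 • b
        by_cases hp : p = 0
        · exact hc ⟨0, by rw [← e3, hp]; simp⟩
        · exact hc ⟨p⁻¹, by rw [eq_inv_smul_iff₀ hp, e3]⟩
    have k1 := s3 _ (Submodule.subset_span (by simp) : θ (a + t • b) ∈ _)
    have k2 := s3 _ (Submodule.subset_span (by simp) : b ∈ _)
    exact s4 (comm_fix h2 hn hT h' (h.so s s1 s2) ht hb' k2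
      (fun x => by rw [hθ, hθ, hl, ← s1 x, map_smul s, k2])
      fun x => by rw [hθ, hθ, ← s1 x, k1])
  by_cases e : B' a a = 0
  · exact k 1 (by simpa [e, h'.s b a, hθ a b, hl, ha] using hb')
  · exact k 0 (by simpa using e)

theorem eig_all (hb : B b b ≠ 0) (hl : θ b = l • b) (x : V) : θ x = l • x := by
  have k : ∀ a, B a b = 0 → θ a = l • a := fun a ha => by
    obtain ⟨m, hm⟩ := eig_perp h2 hn hT h h' hθ hb hl ha
    obtain ⟨d, hd, h3, h4⟩ := ns_two h2 h.s h.nd hn (u := b) (f := a) fun e => hb e.1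
    obtain ⟨p, hp⟩ := eig_perp h2 hn hT h h' hθ hb hl (h.s _ _ ▸ h3 : B d b = 0)
    obtain ⟨q, hq⟩ := eig_perp h2 hn hT h h' hθ hd hp (a := b + a) (by simp [h3, h4])
    have e := congrArg (B · b) hq
    simp only [map_add, map_smul, hl, hm, LinearMap.add_apply, LinearMap.smul_apply, smul_eq_mul,
      ha] at e
    have e2 : l = q := mul_right_cancel₀ hb (by linear_combination e)
    rw [map_add, hl, ← e2, smul_add] at hq
    exact add_left_cancel hq
  have := k (x - (B x b / B b b) • b) (by simp [hb])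
  rw [map_sub, map_smul, hl] at this
  linear_combination (norm := module) this

theorem isom_of_fix (hx : B' x x ≠ 0) (r1 : ∀ x y, B (r x) (r y) = B x y)
    (r2 : LinearMap.det (r : V →ₗ[F] V) = 1) (r3 : r x = x) (r4 : r (θ x) = θ x) (u v : V) :
    B' (r u) (r v) = B' u v := by
  have h'' := h'.comp (h.so r r1 r2)
  obtain ⟨η, hη⟩ := exists_theta h'.nd (B'.comp (r : V →ₗ[F] V) (r : V →ₗ[F] V))
  have := eig_all h2 hn hT h' h'' hη hx (l := 1) (sub_eq_zero.1 (h'.nd.2 _ fun y => by
    rw [map_sub, ← hη, one_smul, LinearMap.BilinForm.comp_apply, LinearEquiv.coe_coe, r3, hθ, hθ,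
      ← r1 y, r4, sub_self]))
  simpa [this] using hη u v

theorem inv2 (hx : B' x x ≠ 0) : ∃ p q : F, p • x + q • θ x = θ (θ x) := by
  by_contra hc
  have hU := finrank_span_list_le (F := F) [x, θ x]
  obtain ⟨s, s1, s2, s3, s4⟩ := exists_so_fix h2 h.s h.nd
    (U := Submodule.span F {y | y ∈ [x, θ x]}) (by simp at hU ⊢; omega) (w := θ (θ x)) fun hm =>
      hc (Submodule.mem_span_pair.1 (by simpa [Set.setOf_or, Set.pair_comm x] using hm))
  have k1 := s3 _ (Submodule.subset_span (by simp) : x ∈ _)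
  have k2 := s3 _ (Submodule.subset_span (by simp) : θ x ∈ _)
  refine s4 (sub_eq_zero.1 (h.nd.2 _ fun y => ?_))
  obtain ⟨y, rfl⟩ := s.surjective y
  rw [map_sub, s1, ← hθ, ← hθ, ← isom_of_fix h2 hn hT h h' hθ hx s1 s2 k1 k2, k2, sub_self]

variable (hθ' : ∀ x y, B x y = B' x (θ' y)) (hp : ∀ l : F, ¬ ∀ x, θ x = l • x)
include hθ' hp

theorem struct (hc : B c c ≠ 0) : ∃ (μ : F) (n : V), θ c = μ • c + n ∧ B c n = 0 ∧ B n n = -B c c ∧
    ∀ t : F, t ≠ 0 → t * t = 1 := by
  obtain ⟨y, hy, y1, y2⟩ := ns_two h2 h'.s h'.nd hn (u := c) (f := θ' c) fun e => hc (hθ' _ _ ▸ e.2.1)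
  rw [hθ] at y1
  rw [h'.s, ← hθ', h.s] at y2
  obtain ⟨p, q, y3⟩ := inv2 h2 hn hT h h' hθ hy
  obtain ⟨n, hn'⟩ : ∃ n, θ c = (B c (θ c) / B c c) • c + n := ⟨_, (add_sub_cancel _ _).symm⟩
  generalize hμ : B c (θ c) / B c c = μ at hn'
  have n0 : B c n = 0 := by
    have := congrArg (B c) hn'
    rw [map_add, map_smul, ← hμ, smul_eq_mul, div_mul_cancel₀ _ hc] at this
    linear_combination -this
  have n1 : B n y = 0 := by simpa [hn', y2, y1] using sa h h' hθ c y
  have n2 : B n (θ y) = 0 := by simpa [hn', y2, y1, ← y3] using sa h h' hθ c (θ y)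
  have key : ∀ t : F, t ≠ 0 → B c c + t * t * B n n = 0 := fun t ht => by_contra fun hd => by
    replace hd : B (c + t • n) (c + t • n) ≠ 0 := fun e => hd (by
      simp only [map_add, map_smul, LinearMap.add_apply, LinearMap.smul_apply, smul_eq_mul, n0,
        h.s n c] at e
      linear_combination e)
    obtain ⟨u, -, u1, u2⟩ := ns_perp h2 h.s h.nd hn (u := c) (f := c + t • n) fun hm => by
      obtain ⟨κ, e⟩ := Submodule.mem_span_singleton.1 hm
      have e1 := congrArg (B c) e
      simp only [map_add, map_smul, n0, smul_eq_mul] at e1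
      obtain rfl : κ = 1 := mul_right_cancel₀ hc (by linear_combination e1)
      have e2 : n = 0 := by simpa [ht] using e
      exact hp μ (eig_all h2 hn hT h h' hθ hc (by rw [hn', e2, add_zero]))
    have := isom_of_fix h2 hn hT h h' hθ hy (r := rf B hc * rf B hd)
      (fun x y => by simp [rf_isom h.s]) (det_rf_mul _ _)
      (by rw [LinearEquiv.mul_apply, rf_of_perp hd (by simp [h.s y, y2, n1]),
        rf_of_perp hc (h.s _ _ ▸ y2)])
      (by rw [LinearEquiv.mul_apply, rf_of_perp hd (by simp [h.s (θ y), y1, n2]),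
        rf_of_perp hc (h.s _ _ ▸ y1)]) u u
    rw [LinearEquiv.mul_apply, rf_of_perp hd u1, rf_apply] at this
    simp only [map_add, map_sub, map_smul, LinearMap.sub_apply, LinearMap.smul_apply, smul_eq_mul,
      h'.s c u, hθ _ c, hn', n0] at this u1
    rw [h.s] at u2
    field_simp at this
    refine mul_ne_zero (mul_ne_zero h2 h2) (mul_ne_zero hc (mul_ne_zero u2 u2)) ?_
    linear_combination (exp := 1) 4 * B c c * B u c * u1 + t * this
  have k := key 1 one_ne_zero
  refine ⟨μ, n, hn', n0, by linear_combination k, fun t ht => mul_right_cancel₀ hc ?_⟩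
  linear_combination t * t * k - key t ht

theorem main : False := by
  have inj : ∀ x, θ (θ' x) = x := fun x => sub_eq_zero.1 (h.nd.2 _ fun y => by
    rw [map_sub, ← hθ, ← hθ', sub_self])
  have hp' : ∀ l : F, ¬ ∀ x, θ' x = l • x := fun l k => by
    obtain ⟨c, hc, -⟩ := ns_one h2 h.s h.nd hn 0
    have hl : l ≠ 0 := by rintro rfl; exact hc (by simp [hθ', k])
    exact hp l⁻¹ fun x => by rw [eq_inv_smul_iff₀ hl, ← map_smul, ← k, inj]
  have S := fun c => struct h2 hn hT h h' hθ hθ' hp (c := c)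
  obtain ⟨c, hc, -⟩ := ns_one h2 h.s h.nd hn 0
  obtain ⟨μ, n, c1, c2, c3, sq⟩ := S c hc
  have hnn : B n n ≠ 0 := by simpa [c3] using hc
  obtain ⟨β, c4⟩ : ∃ β : F, θ n = -c + β • n := by
    obtain ⟨p, q, e⟩ := inv2 h2 hn hT h' h hθ' hc
    replace e := congrArg (fun x => θ (θ x)) e
    simp only [map_add, map_smul, inj, c1] at e
    have h0 : p ≠ 0 := by
      rintro rfl
      have e1 := congrArg (B n) e
      have e2 := congrArg (B c) e
      simp only [map_add, map_smul, smul_eq_mul, c2, h.s n c, zero_mul] at e1 e2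
      have e3 : q = 0 := (mul_eq_zero.1 (by linear_combination e1)).resolve_right hnn
      exact hc (by rw [← e2, e3]; ring)
    have e1 := congrArg (B c) e
    simp only [map_add, map_smul, smul_eq_mul, ← sa h h' hθ c n, c1, c2, c3, LinearMap.add_apply,
      LinearMap.smul_apply] at e1
    have e2 : p * μ * μ + q * μ - p = 1 := mul_right_cancel₀ hc (by linear_combination e1)
    refine ⟨-(μ + q / p), smul_right_injective V h0 ?_⟩
    have e3 : p * (q / p) = q := mul_div_cancel₀ _ h0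
    linear_combination (norm := module) e - e2 • c + e3 • n
  obtain ⟨a, ha, a1, a2⟩ := ns_two h2 h.s h.nd hn (u := c) (f := n) fun e => hc e.1
  obtain ⟨μ', k, k1, k2, k3, -⟩ := S a ha
  have k4 : B c k = 0 := by simpa [c1, k1, a1, a2] using (sa h h' hθ c a).symm
  have k5 : B n k = 0 := by simpa [c4, k1, a1, a2] using (sa h h' hθ n a).symm
  by_cases e : μ = β
  · have G : ∀ z, B z z ≠ 0 → B z z * B (θ z) (θ z) - B z (θ z) ^ 2 = -B z z ^ 2 := fun z hz => by
      obtain ⟨m, w, w1, w2, w3, -⟩ := S z hz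
      simp only [w1, map_add, map_smul, LinearMap.add_apply, LinearMap.smul_apply, smul_eq_mul,
        w2, w3, h.s w z]
      ring
    have g1 := G (a + c + n)
    have g2 := G (a + c - n)
    simp only [map_add, map_sub, map_neg, map_smul, LinearMap.add_apply, LinearMap.sub_apply,
      LinearMap.neg_apply, LinearMap.smul_apply, smul_eq_mul, c1, c2, c3, c4, k1, k2, k3, k4, k5,
      a1, a2, h.s n c, h.s a c, h.s a n, h.s k a, h.s k c, h.s k n, ← e] at g1 g2
    refine mul_ne_zero (mul_ne_zero h2 (mul_ne_zero h2 h2)) (mul_ne_zero hc hc) ?_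
    linear_combination -g1 (by simpa using ha) - g2 (by simpa using ha)
  obtain ⟨s, s1⟩ : ∃ s, μ - β = 2 * s := ⟨(μ - β) / 2, by field_simp⟩
  have s2 := sq s fun e' => e (by rw [e'] at s1; linear_combination s1)
  have e1 : θ (c + s • n) = (μ - s) • (c + s • n) := by
    rw [map_add, map_smul, c1, c4]
    linear_combination (norm := module) (-s * s1 - s2) • n
  obtain ⟨d, hd, d1, d2⟩ := ns_two h2 h'.s h'.nd hn (u := c) (f := θ' c) fun e => hc (hθ' _ _ ▸ e.2.1)
  obtain ⟨μ'', m, m1, m2, m3, -⟩ := struct h2 hn hT h' h hθ' hθ hp' hd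
  rw [h'.s, ← hθ'] at d2
  rw [h'.s] at d1
  have d3 : B d n = 0 := by simpa [hθ, c1, d2] using d1
  have d4 : B' d n = 0 := by simp [hθ, c4, d2, d3]
  have m4 : B' m c = 0 := by simpa [h.s c, d2, m1, h'.s c, d1] using (hθ' c d).symm
  have m5 : B' m n = 0 := by simpa [h.s n, d3, m1, h'.s n, d4] using (hθ' n d).symm
  have Z : ∀ t t' : F, t * t = 1 → t' * t' = 1 →
      B' (a + t • k) (d + t' • m) = (μ - s) * B (a + t • k) (d + t' • m) := fun t t' h3 h4 =>
    sieg_eq h2 hn hT h h' (e := c + s • n) (fun e => hc (by simpa [c2] using congrArg (B c) e))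
      (fun x => by rw [hθ, e1, map_smul, smul_eq_mul])
      (by simp [c2, c3, h.s n c]; linear_combination -B c c * s2)
      (by simp [h.s a, h.s k, a1, a2, k4, k5])
      (by simp [k2, k3, h.s k a]; linear_combination -B a a * h3)
      (by simp [d1, d4, m4, m5]) (by simp [m2, m3, h'.s m d]; linear_combination -B' d d * h4)
  have z1 := Z 1 1 (by simp) (by simp)
  have z2 := Z 1 (-1) (by simp) (by simp)
  have z3 := Z (-1) 1 (by simp) (by simp)
  have z4 := Z (-1) (-1) (by simp) (by simp)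
  simp only [map_add, map_smul, LinearMap.add_apply, LinearMap.smul_apply, smul_eq_mul] at z1 z2 z3 z4
  have e2 := perp4 h hn hc hnn ha (by simpa [k3] using ha) c2 a1 k4 a2 k5 k2
    (x := θ d - (μ - s) • d) (by simp [← hθ, h'.s c d, h.s c d, d1, d2])
    (by simp [← hθ, h'.s n d, h.s n d, d3, d4])
    (mul_left_cancel₀ (mul_ne_zero h2 h2) (by
      rw [map_sub, map_smul, ← hθ, smul_eq_mul]; linear_combination z1 + z2 + z3 + z4))
    (mul_left_cancel₀ (mul_ne_zero h2 h2) (by
      rw [map_sub, map_smul, ← hθ, smul_eq_mul]; linear_combination z1 + z2 - z3 - z4))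
  rw [sub_eq_zero] at e2
  exact hp _ (eig_all h2 hn hT h h' hθ (fun e => hd (by simp [hθ, e2, e])) e2)

omit h2 hn hT h h' hθ hθ' hp

universe u

theorem jobL7 : H13.L4.JobL7.{u} := by
  intro F _ _ hodd Q hQ
  have h2 : (2 : F) ≠ 0 := fun h => by
    have : ringChar F = 2 := by
      have h1 := (ringChar.spec F 2).1 (by exact_mod_cast h)
      rcases (Nat.dvd_prime Nat.prime_two).1 h1 with h3 | h3
      · exact absurd h3 CharP.ringChar_ne_one
      · exact h3
    exact absurd (FiniteField.even_card_of_char_two this) (by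
      rw [Nat.odd_iff] at hodd; omega)
  have hB := quadOf_nondegenerate hQ
  have hs : ∀ x y, (quadOf hQ).polarBilin x y = (quadOf hQ).polarBilin y x := fun x y =>
    QuadraticMap.polar_comm _ x y
  have hn : finrank F (Fin 4 → F) = 4 := by simp
  have hsim : ∀ e : (Fin 4 → F) ≃ₗ[F] (Fin 4 → F),
      (∃ c : Fˣ, ∀ v, quadOf hQ (e v) = c * quadOf hQ v) ↔
      ∃ c : Fˣ, ∀ u v, (quadOf hQ).polarBilin (e u) (e v) = c * (quadOf hQ).polarBilin u v := by
    refine fun e => exists_congr fun c => ⟨fun h u v => ?_, fun h v => mul_left_cancel₀ h2 ?_⟩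
    · simp only [QuadraticMap.polarBilin_apply_apply, QuadraticMap.polar, ← map_add, h]
      ring
    · have := h v v
      simp only [QuadraticMap.polarBilin_apply_apply, QuadraticMap.polar_self, two_nsmul] at this
      linear_combination this
  generalize (quadOf hQ).polarBilin = B at hB hs hsim
  obtain ⟨u, hu, -⟩ := ns_one h2 hs hB hn 0
  refine isMaximalIn_of_toLE (fun e => ∃ c : Fˣ, ∀ u v, B (e u) (e v) = c * B u v)
    (fun e => LinearMap.det (e : (Fin 4 → F) →ₗ[F] (Fin 4 → F)) = 1) mem_specialLinear_iff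
    (fun g => and_congr (hsim (toLE g)) (mem_specialLinear_iff g)) ?_ fun M hM _ g hg hns => ?_
  · obtain ⟨w, hw, huw⟩ := ns_one h2 hs hB hn u
    obtain ⟨e, he⟩ := exists_tv (φ := B.flip u) (u := w) huw
    refine ⟨e, by rw [det_of_tv he]; simp [huw], fun ⟨c, hc⟩ => ?_⟩
    have := hc u w
    simp [he, huw, hs u w, hu, hw] at this
  refine mem_of_det_eq_one (by_contra fun hT => ?_)
  have h : MF M B := ⟨hs, hB, fun k h1 h3 => hM k ⟨1, by simpa using h1⟩ h3⟩
  have h' := h.comp hg
  obtain ⟨θ, hθ⟩ := exists_theta hB (LinearMap.BilinForm.comp B g.toLinearMap g.toLinearMap)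
  obtain ⟨θ', hθ'⟩ := exists_theta h'.nd B
  refine main h2 hn hT h h' hθ hθ' fun l k => ?_
  have hl : l ≠ 0 := by
    rintro rfl
    exact ne_of_ns hu (h'.nd.2 _ fun x => by simp [hθ, k])
  exact hns ⟨Units.mk0 l hl, fun u v => by simpa [k] using hθ u v⟩

end H95.O4
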