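import Cfsg.Agent.H62.OInSL

/-! A subgroup of `GL₄` containing `SO₄` and a transvection contains all transvections. -/

set_option autoImplicit false
set_option linter.unusedSectionVars false

namespace H95.O4

open Module H62

variable {F V : Type*} [Field F] [AddCommGroup V] [Module F V] [FiniteDimensional F V]
  {B : LinearMap.BilinForm F V} {M : Subgroup (V ≃ₗ[F] V)}

theorem ne_of_ns {x : V} (hx : B x x ≠ 0) : x ≠ 0 := by rintro rfl; simp at hx

section
variable (h2 : (2 : F) ≠ 0) (hs : ∀ x y, B x y = B y x) (hB : B.Nondegenerate)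
  (hn : finrank F V = 4)
include h2 hs hB hn

theorem ns_one (f : V) : ∃ a, B a a ≠ 0 ∧ B a f = 0 := by
  have := finrank_le_finrank_inf_ker_add_one (⊤ : Submodule F V) (B.flip f)
  rw [top_inf_eq, finrank_top] at this
  obtain ⟨a, h1, h⟩ := exists_ns h2 hs hB (W := LinearMap.ker (B.flip f)) (by omega)
  exact ⟨a, h, h1⟩

theorem ns_two {u f : V} (h : ¬ (B u u = 0 ∧ B u f = 0 ∧ B f f = 0)) :
    ∃ d, B d d ≠ 0 ∧ B u d = 0 ∧ B f d = 0 := by
  by_contra hc
  push Not at hc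
  have k := finrank_le_ker_two (B u) (B f)
  set W := LinearMap.ker (B u) ⊓ LinearMap.ker (B f)
  have h0 : ∀ x ∈ W, B x x = 0 := fun x hx => by_contra fun e => hc x e hx.1 hx.2
  have hle : W ≤ B.orthogonal W := fun x hx y hy => by
    have h1 := h0 (x + y) (W.add_mem hx hy)
    simp only [map_add, LinearMap.add_apply, h0 x hx, h0 y hy, hs x y] at h1
    exact mul_left_cancel₀ h2 (by linear_combination h1)
  have e := Submodule.eq_of_le_of_finrank_le hle (by
    rw [LinearMap.BilinForm.finrank_orthogonal hB]; omega)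
  have hu : u ∈ W := e ▸ fun y hy => (hs y u).trans hy.1
  have hf : f ∈ W := e ▸ fun y hy => (hs y f).trans hy.2
  exact h ⟨hu.1, hf.1, hf.2⟩

theorem ns_perp {u f : V} (hu : u ∉ F ∙ f) : ∃ c, B c c ≠ 0 ∧ B c f = 0 ∧ B u c ≠ 0 := by
  obtain ⟨a, ha, haf⟩ := ns_one h2 hs hB hn f
  obtain ⟨c, h1, h3, h4⟩ := exists_ns_notMem h2 hs (W := LinearMap.ker (B.flip f))
    (Z := LinearMap.ker (B u)) haf ha fun h => by
      obtain ⟨φ, h5, h6⟩ := exists_dual_pair hu
      obtain ⟨y, hy⟩ := exists_flip_eq hB φ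
      have h7 : B u y = 0 := h (show B y f = 0 by rw [hs, hy, h6])
      rw [hy, h5] at h7
      exact one_ne_zero h7
  exact ⟨c, h4, h1, h3⟩

theorem full [Finite F] {T : V → V → Prop} (hT : OT B T) {u f : V}
    (hf : B f f ≠ 0) (hu : u ≠ 0) (huf : B u f = 0) (h : T u f) {x : V} (hx : B x f = 0) :
    T x f := by
  let A : AddSubgroup V := AddSubgroup.ofSub {x | B x f = 0 ∧ T x f} ⟨0, by simp, hT.zero f⟩
    fun a ha b hb => by
      rw [← sub_eq_add_neg]
      exact ⟨by simp [ha.1, hb.1], hT.sub ha.2 hb.2 ha.1 hb.1⟩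
  have hA : ∀ y, y ∈ A ↔ B y f = 0 ∧ T y f := fun y => Iff.rfl
  have hP : ∀ y ∈ A, ∀ c, B c c ≠ 0 → B c f = 0 → (2 * B y c / B c c) • c ∈ A := by
    intro y hy c hc hcf
    have h1 := hT.rr hc hf ((hA y).1 hy).2
    rw [rf_of_perp hf ((hA y).1 hy).1, rf_self, map_neg, rf_of_perp hc (x := f) (by rw [hs, hcf])] at h1
    have h3 : -rf B hc y ∈ A := (hA _).2 ⟨by simp [rf_apply, ((hA y).1 hy).1, hcf], hT.sgn h1⟩
    have h4 := A.add_mem hy h3
    rwa [rf_apply, neg_sub, add_sub_cancel] at h4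
  have hnot : ∀ z, z ≠ 0 → B z f = 0 → z ∉ F ∙ f := by
    intro z hz hzf hm
    obtain ⟨a, rfl⟩ := Submodule.mem_span_singleton.1 hm
    simp only [map_smul, LinearMap.smul_apply, smul_eq_mul, mul_eq_zero, hf, or_false] at hzf
    exact hz (by simp [hzf])
  have := finrank_le_finrank_inf_ker_add_one (⊤ : Submodule F V) (B.flip f)
  rw [top_inf_eq, finrank_top] at this
  obtain ⟨z, hzf, hz0, hzz⟩ := H60.exists_sing (Q := B.toQuadraticMap)
    (LinearMap.ker (B.flip f)) (by omega)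
  replace hzf : B z f = 0 := hzf
  replace hzz : B z z = 0 := hzz
  obtain ⟨u₁, hu₁, hns, huz⟩ : ∃ u₁ ∈ A, B u₁ u₁ ≠ 0 ∧ B u₁ z = 0 := by
    obtain ⟨c, hc, hcf, huc⟩ := ns_perp h2 hs hB hn (hnot u hu huf)
    have k := hP u ((hA u).2 ⟨huf, h⟩) c hc hcf
    by_cases e : B c z = 0
    · exact ⟨_, k, by simp [hc, huc, h2], by simp [e]⟩
    obtain ⟨d, hd, hfd, hzd⟩ := ns_two h2 hs hB hn (u := f) (f := z) fun e => hf e.1
    have k2 : ∀ d, B d d ≠ 0 → B f d = 0 → B z d = 0 → B c d ≠ 0 →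
        ∃ u₁ ∈ A, B u₁ u₁ ≠ 0 ∧ B u₁ z = 0 := fun d hd hfd hzd e =>
      ⟨_, hP _ k d hd (hs _ _ ▸ hfd), by simp [hc, huc, h2, hd, e], by simp [hs d z, hzd]⟩
    by_cases e' : B c d = 0
    · exact k2 (d + z) (by simpa [hzz, hzd, hs d z] using hd) (by simp [hfd, hs f z, hzf])
        (by simp [hzd, hzz]) (by simpa [e'] using e)
    · exact k2 d hd hfd hzd e'
  have hzA : ∀ l : F, l • z ∈ A := by
    intro l
    have h1 : B (u₁ + (l / 2) • z) (u₁ + (l / 2) • z) = B u₁ u₁ := by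
      simp [hzz, huz, hs z u₁]
    have h3 := hP u₁ hu₁ (u₁ + (l / 2) • z) (h1 ▸ hns) (by simp [hzf, ((hA _).1 hu₁).1])
    have h4 : 2 * B u₁ (u₁ + (l / 2) • z) / B (u₁ + (l / 2) • z) (u₁ + (l / 2) • z) = 2 := by
      rw [h1]; simp [huz, hns]
    rw [h4] at h3
    have h5 := A.sub_mem (A.sub_mem h3 hu₁) hu₁
    convert h5 using 1
    rw [smul_add, smul_smul, mul_div_cancel₀ _ h2]
    module
  have h3 : ∀ c, B c c ≠ 0 → B c f = 0 → B z c ≠ 0 → c ∈ A := by
    intro c hc hcf hzc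
    have h1 := hP _ (hzA (B c c / (2 * B z c))) c hc hcf
    have h4 : 2 * B ((B c c / (2 * B z c)) • z) c / B c c = 1 := by
      simp only [map_smul, LinearMap.smul_apply, smul_eq_mul]
      field_simp
    rwa [h4, one_smul] at h1
  have h4 : ∀ y, B y f = 0 → B z y ≠ 0 → y ∈ A := by
    intro y hyf hzy
    by_cases hy : B y y = 0
    · have h1 := h3 (y + z) (by
        simp only [map_add, LinearMap.add_apply, hy, hzz, hs y z, zero_add, add_zero]
        rw [← two_mul]; exact mul_ne_zero h2 hzy) (by simp [hyf, hzf]) (by simpa [hzz] using hzy)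
      have h5 := A.sub_mem h1 (hzA 1)
      simpa using h5
    · exact h3 y hy hyf hzy
  refine ((hA x).1 ?_).2
  by_cases hzx : B z x = 0
  · obtain ⟨y, -, hyf, hzy⟩ := ns_perp h2 hs hB hn (hnot z hz0 hzf)
    have h1 := A.sub_mem (h4 (x + y) (by simp [hx, hyf]) (by simpa [hzx] using hzy)) (h4 y hyf hzy)
    simpa using h1
  · exact h4 x hx hzx

variable
  (hM : ∀ e : V ≃ₗ[F] V, (∀ x y, B (e x) (e y) = B x y) → LinearMap.det (e : V →ₗ[F] V) = 1 → e ∈ M)
include hM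

theorem ns_centre {u f : V} (hu : u ≠ 0) (hf : f ≠ 0) (huf : B u f = 0) (h : HasTv M (B.flip f) u) :
    ∃ u f, f ≠ 0 ∧ B u u ≠ 0 ∧ B u f = 0 ∧ HasTv M (B.flip f) u := by
  have k : ∀ l : F, l ≠ 0 → B f f = 0 → HasTv M (B.flip f) (l • f) →
      ∃ u f, f ≠ 0 ∧ B u u ≠ 0 ∧ B u f = 0 ∧ HasTv M (B.flip f) u := fun l hl hff h => by
    obtain ⟨d, hd, hdf⟩ := ns_one h2 hs hB hn f
    obtain ⟨c, hc, -, hfc⟩ := ns_perp h2 hs hB hn (u := f) (f := 0) (by simpa using hf)
    have h1 := h.rr hs hM hc hd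
    rw [map_smul, map_smul, rf_of_perp hd (hs _ _ ▸ hdf)] at h1
    set f' := rf B hc f with hf'
    have hff' : B f f' ≠ 0 := by
      rw [hf', rf_apply, map_sub, map_smul, hff, zero_sub, neg_ne_zero, smul_eq_mul]
      exact mul_ne_zero (div_ne_zero (mul_ne_zero h2 hfc) hc) hfc
    have hf'f' : B f' f' = 0 := by rw [hf', rf_isom hs, hff]
    have h3 := h.conj_tv (by simp [hff]) h1
    refine ⟨l • f' + B.flip f (l • f') • l • f, f' - (l * B f f') • f, fun h4 => ?_, fun h4 => ?_,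
      ?_, h3.congr fun x => by simp⟩
    · have h5 := congrArg (B f) h4
      simp [hff, hff'] at h5
    · simp only [map_smul, map_add, hff, hf'f', hs f' f, smul_eq_mul,
        LinearMap.BilinForm.flip_apply, LinearMap.smul_apply, LinearMap.add_apply] at h4
      have h8 : 2 * l ^ 3 * B f f' ^ 2 = 0 := by linear_combination h4
      simp [h2, hl, hff'] at h8
    · simp only [map_smul, map_sub, map_add, hff, hf'f', hs f' f, smul_eq_mul,
        LinearMap.BilinForm.flip_apply, LinearMap.smul_apply, LinearMap.add_apply]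
      ring
  by_cases hm : u ∈ F ∙ f
  · obtain ⟨l, rfl⟩ := Submodule.mem_span_singleton.1 hm
    have hl : l ≠ 0 := by rintro rfl; simp at hu
    exact k l hl (by simpa [hl] using huf) h
  obtain ⟨c, hc, hcf, huc⟩ := ns_perp h2 hs hB hn hm
  by_cases e : B u u = 0 ∧ B u f = 0 ∧ B f f = 0
  · have e1 : B (c + f) (c + f) = B c c := by simp [hcf, hs f c, e.2.2]
    have h1 := h.rr hs hM hc (e1 ▸ hc : B (c + f) (c + f) ≠ 0)
    rw [rf_of_perp _ (x := f) (by simp [hs f c, hcf, e.2.2]), rf_of_perp hc (hs _ _ ▸ hcf)] at h1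
    refine k (2 * B u c / B c c) (div_ne_zero (mul_ne_zero h2 huc) hc) e.2.2 ?_
    convert h.sub_right h1 (by
      rw [LinearMap.BilinForm.flip_apply]; simp [rf_apply, huf, hcf, e.2.2]) using 1
    rw [rf_apply _ u, e1, map_sub, map_smul, map_add, map_add, rf_self,
      rf_of_perp hc (x := f) (hs _ _ ▸ hcf), rf_apply, huf]
    module
  obtain ⟨d, hd, hdu, hdf⟩ := ns_two h2 hs hB hn e
  have h1 := h.rr hs hM hc hd
  rw [rf_of_perp hd hdu, rf_of_perp hd hdf, rf_of_perp hc (by rw [hs, hcf])] at h1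
  have h3 := h.sub_right h1 (by simp [rf_apply, huf, hcf])
  rw [rf_apply, sub_sub_cancel] at h3
  exact ⟨_, f, hf, by simp [hc, huc, h2], by simp [hcf], h3⟩

theorem all_tv [Finite F] {u f : V} (hu : u ≠ 0) (hf : f ≠ 0) (huf : B u f = 0)
    (h : HasTv M (B.flip f) u) (φ : Dual F V) (w : V) (hφ : φ w = 0) : HasTv M φ w := by
  have hL := ot_left hs hM
  have hR := ot_right hs hM
  obtain ⟨c, f, hf, hc, hcf, h⟩ := ns_centre h2 hs hB hn hM hu hf huf h
  have h4 : ∀ f', B f' c = 0 → HasTv M (B.flip f') c := fun f' hf' =>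
    full h2 hs hB hn hR hc hf (hs _ _ ▸ hcf) h hf'
  have h5 : ∀ x, B x x ≠ 0 → ∀ f', B f' x = 0 → HasTv M (B.flip f') x := by
    intro x hx f' hf'
    obtain ⟨y, hy, hyx, hyc⟩ := ns_two h2 hs hB hn (u := x) (f := c) fun e => hx e.1
    have h6 := full h2 hs hB hn hL hy (ne_of_ns hc) hyc (h4 y (by rw [hs, hyc])) hyx
    exact full h2 hs hB hn hR hx (ne_of_ns hy) (by rw [hs, hyx]) h6 hf'
  have h6 : ∀ f', B f' f' ≠ 0 → B w f' = 0 → HasTv M (B.flip f') w := fun f' h1 h3 => by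
    obtain ⟨a, ha, haf⟩ := ns_one h2 hs hB hn f'
    exact full h2 hs hB hn hL h1 (ne_of_ns ha) haf (h5 a ha f' (hs _ _ ▸ haf)) h3
  obtain ⟨f', hf'⟩ := exists_flip_eq hB φ
  have e : φ = B.flip f' := LinearMap.ext fun x => (hf' x).symm
  subst e
  have hφ : B w f' = 0 := hφ
  obtain ⟨a, ha, haw⟩ := ns_one h2 hs hB hn w
  rw [hs] at haw
  have k : ∀ a, B a a ≠ 0 → B w a = 0 → B (f' + a) (f' + a) ≠ 0 → HasTv M (B.flip f') w :=
    fun a h1 h3 h7 => by
      simpa using (h6 _ h7 (by simp [hφ, h3])).sub_left (h6 a h1 h3) (by simp [hφ, h3]) h3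
  by_cases e0 : B f' f' = 0
  swap
  · exact h6 f' e0 hφ
  by_cases e : B (f' + a) (f' + a) = 0
  · refine k (-a) (by simpa using ha) (by simp [haw]) fun e' => ha (mul_left_cancel₀ h2 ?_)
    simp only [map_add, map_neg, LinearMap.add_apply, LinearMap.neg_apply, e0] at e e'
    linear_combination e + e'
  · exact k a ha haw e

end

end H95.O4
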