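/- The fusion system in defining characteristic of a group acting on a polar space of rank at
least two is simple. -/
import Cfsg.Agent.H95.SimpleCrit
import Cfsg.Agent.H59.UniP

set_option autoImplicit false
open Cfsg Cfsg.FusionSystem H92 H59 Module

namespace H95

variable {F V G : Type*} [Field F] [AddCommGroup V] [Module F V] {σ : F →+* F} [Group G]

/-- unipotent radical of the stabiliser of a totally isotropic subspace -/
def radW (B : V →ₛₗ[σ] V →ₗ[F] F) (W : Submodule F V) : Subgroup (V ≃ₗ[F] V) where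
  carrier := {g | g ∈ isom B ∧ (∀ w ∈ W, g w = w) ∧ ∀ x, (∀ w ∈ W, B w x = 0) → g x - x ∈ W}
  mul_mem' := by
    rintro a b ⟨ha, ha1, ha2⟩ ⟨hb, hb1, hb2⟩
    refine ⟨Subgroup.mul_mem _ ha hb, fun w hw => by simp [ha1 w hw, hb1 w hw], fun x hx => ?_⟩
    have : (a * b) x - x = (b x - x) + (a x - x) := by
      rw [← ha1 _ (hb2 x hx), map_sub, LinearEquiv.mul_apply]; abel
    rw [this]
    exact W.add_mem (hb2 x hx) (ha2 x hx)
  one_mem' := ⟨Subgroup.one_mem _, fun _ _ => rfl, fun x _ => by simp⟩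
  inv_mem' := by
    rintro a ⟨ha, ha1, ha2⟩
    have h1 : ∀ w ∈ W, a⁻¹ w = w := fun w hw => by
      rw [LinearEquiv.coe_inv, LinearEquiv.symm_apply_eq, ha1 w hw]
    refine ⟨Subgroup.inv_mem _ ha, h1, fun x hx => ?_⟩
    have : a⁻¹ x - x = -(a x - x) := by
      rw [← h1 _ (ha2 x hx), map_sub, LinearEquiv.coe_inv, LinearEquiv.symm_apply_apply]; abel
    rw [this]
    exact W.neg_mem (ha2 x hx)

variable {B : V →ₛₗ[σ] V →ₗ[F] F} {p : ℕ}

theorem mem_radW {W : Submodule F V} {g : V ≃ₗ[F] V} : g ∈ radW B W ↔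
    g ∈ isom B ∧ (∀ w ∈ W, g w = w) ∧ ∀ x, (∀ w ∈ W, B w x = 0) → g x - x ∈ W := Iff.rfl

theorem radW_span_singleton (e : V) : radW B (Submodule.span F {e}) = unipRad B e := by
  ext g
  refine and_congr_right fun _ => and_congr ⟨fun h => h e (Submodule.mem_span_singleton_self e),
    fun h w hw => ?_⟩ ⟨fun h x hx => ?_, fun h x hx => ?_⟩
  · obtain ⟨c, rfl⟩ := Submodule.mem_span_singleton.1 hw
    rw [map_smul, h]
  · obtain ⟨c, hc⟩ := Submodule.mem_span_singleton.1 (h x fun w hw => by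
      obtain ⟨c, rfl⟩ := Submodule.mem_span_singleton.1 hw
      rw [form_smul_left, hx, mul_zero])
    exact ⟨c, by rw [hc]; abel⟩
  · obtain ⟨c, hc⟩ := h x (hx e (Submodule.mem_span_singleton_self e))
    exact Submodule.mem_span_singleton.2 ⟨c, by rw [hc]; abel⟩

theorem isPElt_of_mem_radW [Fact p.Prime] [CharP F p] {W : Submodule F V} {g : V ≃ₗ[F] V}
    (hg : g ∈ radW B W) : IsPElt p g := by
  rw [isPElt_iff_isNilpotent]
  refine ⟨3, ?_⟩
  ext x
  obtain ⟨hg, h1, h2⟩ := hg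
  have h3 := h1 _ (h2 (g x - x) fun w hw => by
    rw [map_sub, sub_eq_zero]
    conv_lhs => rw [← h1 w hw, hg])
  simp only [pow_succ, pow_zero, one_mul, Module.End.mul_apply, LinearMap.sub_apply,
    LinearEquiv.coe_coe, Module.End.one_apply, h3, sub_self, LinearMap.zero_apply]

theorem conj_mem_radW {W : Submodule F V} {n r : V ≃ₗ[F] V} (hn : n ∈ isom B)
    (hW : n ∈ stabSub W) (hr : r ∈ radW B W) : n * r * n⁻¹ ∈ radW B W := by
  have h0 : ∀ x, n (n⁻¹ x) = x := fun x => n.apply_symm_apply x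
  refine ⟨Subgroup.mul_mem _ (Subgroup.mul_mem _ hn hr.1) (Subgroup.inv_mem _ hn),
    fun w hw => ?_, fun x hx => ?_⟩
  · rw [LinearEquiv.mul_apply, LinearEquiv.mul_apply, hr.2.1 _ ((hW _).2 (by rwa [h0])), h0]
  · have := (hW _).1 (hr.2.2 (n⁻¹ x) fun w hw => by rw [← hn, h0]; exact hx _ ((hW w).1 hw))
    rwa [map_sub, h0] at this

/-- The properties of symplectic and special unitary groups used below. -/
structure Polar (p : ℕ) (B : V →ₛₗ[σ] V →ₗ[F] F) (ρ : G →* (V ≃ₗ[F] V)) : Prop where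
  inj : Function.Injective ρ
  refl : ∀ x y, B x y = 0 → B y x = 0
  nondeg : ∀ x, (∀ y, B x y = 0) → x = 0
  isom : ∀ g, ρ g ∈ isom B
  part : ∀ e d, B e e = 0 → B e d ≠ 0 → ∃ f, B e f = 1 ∧ B f f = 0 ∧ ∃ a b : F, f = a • e + b • d
  eich : ∃ ε : F, ε ≠ 0 ∧ ∀ e u, B e e = 0 → B e u = 0 → ∃ (a : F) (g : G),
    ∀ x, ρ g x = x + (ε * B u x) • e - B e x • u - (a * B e x) • e
  transv : ∀ e, B e e = 0 → ∃ c : F, c ≠ 0 ∧ ∃ g : G, ∀ x, ρ g x = x + (c * B e x) • e
  map : ∀ e f y, B e e = 0 → B f f = 0 → B e f = 1 → B y y = 0 → B e y = 1 →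
    ∃ g : G, ρ g ∈ unipRad B e ∧ ρ g f = y
  trans : ∀ e e', e ≠ 0 → e' ≠ 0 → B e e = 0 → B e' e' = 0 → ∃ g : G, ρ g e = e'
  gen : ∀ e f, B e e = 0 → B f f = 0 → B e f = 1 → ∀ l : G, ρ l e = e → ρ l f = f →
    l ∈ pgen p ((stabSub (Submodule.span F {e})).comap ρ)
  irr : ∀ e, e ≠ 0 → B e e = 0 → ∀ T : Subgroup G, T ≤ (unipRad B e).comap ρ →
    (∀ n : G, (∃ a : F, ρ n e = a • e) → ∀ t ∈ T, n * t * n⁻¹ ∈ T) →
    (∃ t ∈ T, ∃ x, B e x = 0 ∧ ρ t x ≠ x) → (unipRad B e).comap ρ ≤ T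
  rank : ∃ e v, e ≠ 0 ∧ B e e = 0 ∧ B v v = 0 ∧ B e v = 0 ∧ v ∉ Submodule.span F {e}

theorem rho_mul (ρ : G →* (V ≃ₗ[F] V)) (g h : G) (x : V) : ρ (g * h) x = ρ g (ρ h x) := by
  rw [map_mul]; rfl

theorem rho_inv_left (ρ : G →* (V ≃ₗ[F] V)) (g : G) (x : V) : ρ g⁻¹ (ρ g x) = x := by
  rw [← rho_mul, inv_mul_cancel, map_one]; rfl

theorem rho_inv_right (ρ : G →* (V ≃ₗ[F] V)) (g : G) (x : V) : ρ g (ρ g⁻¹ x) = x := by
  rw [← rho_mul, mul_inv_cancel, map_one]; rfl

theorem sylIn_le_of_norm {A C Q : Subgroup G} (h : SylIn p A C) (hQ : IsPGroup p Q)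
    (hQC : Q ≤ C) [Finite Q] (hn : ∀ a ∈ A, ∀ q ∈ Q, a * q * a⁻¹ ∈ Q) : Q ≤ A := by
  have := h.2.2 (Q ⊔ A) le_sup_right (sup_le hQC h.1)
    (hQ.to_sup_of_normal_left' h.2.1 fun a ha => mem_normalizer_of_finite (hn a ha))
  exact this ▸ le_sup_left

/-- elements supported on a subspace -/
def supp (ρ : G →* (V ≃ₗ[F] V)) (X : Submodule F V) : Subgroup G where
  carrier := {g | ∀ x, ρ g x - x ∈ X}
  mul_mem' {a b} ha hb x := by
    have := X.add_mem (ha (ρ b x)) (hb x)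
    rwa [sub_add_sub_cancel, ← rho_mul] at this
  one_mem' x := by simp
  inv_mem' {a} ha x := by
    have := X.neg_mem (ha (ρ a⁻¹ x))
    rwa [rho_inv_right, neg_sub] at this

namespace Polar

variable {ρ : G →* (V ≃ₗ[F] V)}

theorem form (h : Polar p B ρ) (g : G) (x y : V) : B (ρ g x) (ρ g y) = B x y := h.isom g x y

theorem exists_one (h : Polar p B ρ) {e : V} (he : e ≠ 0) : ∃ d, B e d = 1 := by
  obtain ⟨d, hd⟩ : ∃ d, B e d ≠ 0 := by
    by_contra! hc
    exact he (h.nondeg e hc)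
  exact ⟨(B e d)⁻¹ • d, by rw [form_smul_right, inv_mul_cancel₀ hd]⟩

theorem exists_partner (h : Polar p B ρ) {e : V} (he0 : e ≠ 0) (he : B e e = 0) :
    ∃ f, B e f = 1 ∧ B f f = 0 := by
  obtain ⟨d, hd⟩ := h.exists_one he0
  obtain ⟨f, h1, h2, -⟩ := h.part e d he (by rw [hd]; exact one_ne_zero)
  exact ⟨f, h1, h2⟩

theorem mem_span_of_perp [Finite F] (h : Polar p B ρ) {e v : V} (he : e ≠ 0)
    (hv : ∀ x, B e x = 0 → B v x = 0) : v ∈ Submodule.span F {e} := by
  obtain ⟨d, hd⟩ := h.exists_one he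
  obtain ⟨s, hs⟩ := Finite.surjective_of_injective σ.injective (B v d)
  have := h.nondeg (v - s • e) fun x => by
    have h1 := hv (x - B e x • d) (by rw [map_sub, form_smul_right, hd, mul_one, sub_self])
    rw [map_sub, form_smul_right] at h1
    rw [map_sub, LinearMap.sub_apply, form_smul_left, hs]
    linear_combination h1
  exact Submodule.mem_span_singleton.2 ⟨s, (sub_eq_zero.1 this).symm⟩

theorem exists_rank (h : Polar p B ρ) {e : V} (he0 : e ≠ 0) (he : B e e = 0) :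
    ∃ v, B v v = 0 ∧ B e v = 0 ∧ v ∉ Submodule.span F {e} := by
  obtain ⟨e', v, h0, h1, h2, h3, h4⟩ := h.rank
  obtain ⟨g, rfl⟩ := h.trans e' e h0 he0 h1 he
  refine ⟨ρ g v, by rw [h.form, h2], by rw [h.form, h3], fun hv => h4 ?_⟩
  obtain ⟨c, hc⟩ := Submodule.mem_span_singleton.1 hv
  rw [← map_smul] at hc
  exact Submodule.mem_span_singleton.2 ⟨c, (ρ g).injective hc⟩

theorem transv_mem (h : Polar p B ρ) {W : Submodule F V} (hW : ∀ x ∈ W, ∀ y ∈ W, B x y = 0)
    {e : V} (he : e ∈ W) {c : F} {g : G} (hg : ∀ x, ρ g x = x + (c * B e x) • e) :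
    ρ g ∈ radW B W :=
  ⟨h.isom g, fun w hw => by simp [hg, hW e he w hw], fun x hx => by simp [hg, hx e he]⟩

theorem eich_mem (h : Polar p B ρ) {W : Submodule F V} (hW : ∀ x ∈ W, ∀ y ∈ W, B x y = 0)
    {e u : V} (he : e ∈ W) (hu : ∀ w ∈ W, B w u = 0) {ε a : F} {g : G}
    (hg : ∀ x, ρ g x = x + (ε * B u x) • e - B e x • u - (a * B e x) • e) : ρ g ∈ radW B W :=
  ⟨h.isom g, fun w hw => by simp [hg, hW e he w hw, h.refl _ _ (hu w hw)], fun x hx => by
    simpa [hg, hx e he] using W.smul_mem _ he⟩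

/-- `Q_e` moves `v` inside the line `⟨e, v⟩`. -/
theorem exists_move [Finite F] (h : Polar p B ρ) {e v : V} (he0 : e ≠ 0) (he : B e e = 0)
    (hev : B e v = 0) (hv : v ∉ Submodule.span F {e}) (a : F) :
    ∃ g : G, ρ g ∈ unipRad B e ∧ ρ g v = v + a • e := by
  obtain ⟨ε, hε, hE⟩ := h.eich
  obtain ⟨u, hu, huv⟩ : ∃ u, B e u = 0 ∧ B v u ≠ 0 := by
    by_contra! hc
    exact hv (h.mem_span_of_perp he0 hc)
  have huv' : B u v ≠ 0 := fun h0 => huv (h.refl _ _ h0)
  obtain ⟨s, hs⟩ := Finite.surjective_of_injective σ.injective (a / (ε * B u v))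
  have hu' : B e (s • u) = 0 := by rw [form_smul_right, hu, mul_zero]
  obtain ⟨b, g, hg⟩ := hE e (s • u) he hu'
  refine ⟨g, ?_, ?_⟩
  · rw [← radW_span_singleton]
    refine h.eich_mem (fun x hx y hy => ?_) (Submodule.mem_span_singleton_self e)
      (fun w hw => ?_) hg
    · obtain ⟨c, rfl⟩ := Submodule.mem_span_singleton.1 hx
      obtain ⟨d, rfl⟩ := Submodule.mem_span_singleton.1 hy
      rw [form_smul_left, form_smul_right, he, mul_zero, mul_zero]
    · obtain ⟨c, rfl⟩ := Submodule.mem_span_singleton.1 hw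
      rw [form_smul_left, hu', mul_zero]
  · rw [hg, hev, form_smul_left, hs, show ε * (a / (ε * B u v) * B u v) = a by field_simp]
    simp

variable [Fact p.Prime] [CharP F p]

theorem isPElt (h : Polar p B ρ) {W : Submodule F V} {g : G} (hg : ρ g ∈ radW B W) :
    IsPElt p g := (isPElt_of_mem_radW hg).of_map h.inj

theorem isPGroup (h : Polar p B ρ) (W : Submodule F V) : IsPGroup p ((radW B W).comap ρ) :=
  isPGroup_iff_isPElt.2 fun _ hg => h.isPElt hg

theorem isPGroup' (h : Polar p B ρ) (e : V) : IsPGroup p ((unipRad B e).comap ρ) :=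
  radW_span_singleton (B := B) e ▸ h.isPGroup _

theorem mem_of_commute (h : Polar p B ρ) {W : Submodule F V}
    (hW : ∀ x ∈ W, ∀ y ∈ W, B x y = 0) (h0 : W ≠ ⊥) {s : G} (hs : IsPElt p s)
    (hc : ∀ r ∈ (radW B W).comap ρ, s * r = r * s) : s ∈ (radW B W).comap ρ := by
  have h1 : ∀ w ∈ W, ρ s w = w := fun w hw => by
    by_cases hw0 : w = 0
    · simp [hw0]
    obtain ⟨c, hc0, g, hg⟩ := h.transv w (hW w hw w hw)
    obtain ⟨x, hx⟩ := h.exists_one hw0
    have e := congrArg (fun k => ρ k x) (hc g (h.transv_mem hW hw hg))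
    simp only [rho_mul, hg, hx, map_add, map_smul, mul_one, add_right_inj] at e
    have e2 : ρ s w = B w (ρ s x) • w := by
      rw [← inv_smul_smul₀ hc0 (ρ s w), e, smul_smul, inv_mul_cancel_left₀ hc0]
    rw [e2, (hs.map ρ).eigen_eq_one hw0 e2, one_smul]
  refine ⟨h.isom s, h1, fun u hu => ?_⟩
  obtain ⟨e, he, he0⟩ := (Submodule.ne_bot_iff W).1 h0
  obtain ⟨ε, -, hE⟩ := h.eich
  obtain ⟨a, g, hg⟩ := hE e u (hW e he e he) (hu e he)
  obtain ⟨x, hx⟩ := h.exists_one he0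
  have e1 := congrArg (fun k => ρ k x) (hc g (h.eich_mem hW he hu hg))
  have e2 : B e (ρ s x) = 1 := by rw [← h1 e he, h.form, hx]
  simp only [rho_mul, hg, hx, e2, map_add, map_sub, map_smul, h1 e he, one_smul] at e1
  have : ρ s u - u = (ε * B u x - ε * B u (ρ s x)) • e := by
    linear_combination (norm := module) -e1
  rw [this]
  exact W.smul_mem _ he

variable [Finite G]

theorem exists_fixed (h : Polar p B ρ) {X : Submodule F V} {A : Subgroup G} (hA : IsPGroup p A)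
    (h0 : A ≠ ⊥) (hX : A ≤ supp ρ X) : ∃ e ∈ X, e ≠ 0 ∧ B e e = 0 ∧ ∀ g ∈ A, ρ g e = e := by
  let U : Submodule F V := Submodule.span F {y | ∃ g ∈ A, ∃ x, y = ρ g x - x}
  have hU : ∀ g ∈ A, ∀ x, ρ g x - x ∈ U := fun g hg x => Submodule.subset_span ⟨g, hg, x, rfl⟩
  haveI : Finite (A.map ρ) := Finite.of_surjective _ (ρ.subgroupMap_surjective A)
  obtain ⟨e, he, he0, hf⟩ := exists_fixed_vec (hA.map ρ) (U := U) (by
    rintro _ ⟨g, hg, rfl⟩ x hx
    simpa using U.add_mem (hU g hg x) hx) (fun hb => h0 (eq_bot_iff.2 fun g hg => h.inj (by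
      ext x
      have := hU g hg x
      rw [hb, Submodule.mem_bot, sub_eq_zero] at this
      simpa using this)))
  have hf' : ∀ g ∈ A, ρ g e = e := fun g hg => hf _ ⟨g, hg, rfl⟩
  refine ⟨e, Submodule.span_le.2 (by rintro _ ⟨g, hg, x, rfl⟩; exact hX hg x) he, he0, ?_, hf'⟩
  have : U ≤ LinearMap.ker (B e) := Submodule.span_le.2 (by
    rintro _ ⟨g, hg, x, rfl⟩
    rw [SetLike.mem_coe, LinearMap.mem_ker, map_sub, sub_eq_zero]
    conv_lhs => rw [← hf' g hg, h.form])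
  exact this he

theorem exists_fixed_line (h : Polar p B ρ) {A : Subgroup G} (hA : IsPGroup p A) {e : V}
    (he0 : e ≠ 0) (he : B e e = 0) (hf : ∀ g ∈ A, ρ g e = e) :
    ∃ v, B v v = 0 ∧ B e v = 0 ∧ v ∉ Submodule.span F {e} ∧
      ∀ g ∈ A, ρ g v - v ∈ Submodule.span F {e} := by
  let U : Submodule F V := Submodule.span F {y | ∃ g ∈ A, ∃ x, B e x = 0 ∧ y = ρ g x - x}
  have hU : ∀ g ∈ A, ∀ x, B e x = 0 → ρ g x - x ∈ U := fun g hg x hx =>
    Submodule.subset_span ⟨g, hg, x, hx, rfl⟩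
  have hUe : U ≤ LinearMap.ker (B e) := Submodule.span_le.2 (by
    rintro _ ⟨g, hg, x, -, rfl⟩
    rw [SetLike.mem_coe, LinearMap.mem_ker, map_sub, sub_eq_zero]
    conv_lhs => rw [← hf g hg, h.form])
  by_cases hle : U ≤ Submodule.span F {e}
  · obtain ⟨v, h1, h2, h3⟩ := h.exists_rank he0 he
    exact ⟨v, h1, h2, h3, fun g hg => hle (hU g hg v h2)⟩
  haveI : Finite (A.map ρ) := Finite.of_surjective _ (ρ.subgroupMap_surjective A)
  obtain ⟨v, hv, hv0, hv1⟩ := exists_fixed_mod (hA.map ρ) (U₁ := Submodule.span F {e}) (U₂ := U)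
    (by
      rintro _ ⟨g, hg, rfl⟩ x hx
      obtain ⟨c, rfl⟩ := Submodule.mem_span_singleton.1 hx
      rwa [map_smul, hf g hg]) (by
      rintro _ ⟨g, hg, rfl⟩ x hx
      simpa using U.add_mem (hU g hg x (hUe hx)) hx) hle
  have hv2 : ∀ g ∈ A, ρ g v - v ∈ Submodule.span F {e} := fun g hg => hv1 _ ⟨g, hg, rfl⟩
  refine ⟨v, ?_, hUe hv, hv0, hv2⟩
  have : U ≤ LinearMap.ker (B v) := Submodule.span_le.2 (by
    rintro _ ⟨g, hg, x, hx, rfl⟩
    obtain ⟨c, hc⟩ := Submodule.mem_span_singleton.1 (hv2 g⁻¹ (A.inv_mem hg))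
    rw [SetLike.mem_coe, LinearMap.mem_ker, map_sub, ← h.form g⁻¹, rho_inv_left,
      ← LinearMap.sub_apply, ← map_sub, ← hc, form_smul_left, hx, mul_zero])
  exact this hv

/-- A Sylow subgroup is generated by its intersections with the groups `Q_v`. -/
theorem le_of_good [FiniteDimensional F V] (h : Polar p B ρ) (T : Subgroup G) (n : ℕ) :
    ∀ X : Submodule F V, finrank F X = n → (∀ x ∈ X, x ≠ 0 → ∃ d ∈ X, B x d ≠ 0) →
      ∀ A : Subgroup G, SylIn p A (supp ρ X) →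
      (∀ g ∈ A, ∀ v, v ≠ 0 → B v v = 0 → ρ g ∈ unipRad B v → g ∈ T) → A ≤ T := by
  induction n using Nat.strong_induction_on with | _ n ih => ?_
  intro X hn hX A hA hT
  by_cases h0 : A = ⊥
  · exact h0 ▸ bot_le
  obtain ⟨e, heX, he0, he, hf⟩ := h.exists_fixed hA.2.1 h0 hA.1
  obtain ⟨d, hdX, hd⟩ := hX e heX he0
  obtain ⟨f, hef, hff, a, b, hab⟩ := h.part e d he hd
  have hfX : f ∈ X := hab ▸ X.add_mem (X.smul_mem _ heX) (X.smul_mem _ hdX)
  have hfe : B f e ≠ 0 := fun h0 => one_ne_zero (hef.symm.trans (h.refl _ _ h0))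
  let X' := X ⊓ LinearMap.ker (B e) ⊓ LinearMap.ker (B f)
  have hX' : X' ≤ X := inf_le_left.trans inf_le_left
  let Q := (unipRad B e).comap ρ ⊓ supp ρ X
  have hQ : IsPGroup p Q := (h.isPGroup' e).to_le inf_le_left
  have hnQ : ∀ g ∈ supp ρ X, ρ g e = e → ∀ q ∈ Q, g * q * g⁻¹ ∈ Q := fun g hg hge q hq =>
    ⟨by
      have := conj_mem_unipRad (h.isom g) hq.1
      rwa [hge, ← map_inv, ← map_mul, ← map_mul] at this,
    Subgroup.mul_mem _ (Subgroup.mul_mem _ hg hq.2) (Subgroup.inv_mem _ hg)⟩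
  have hQA : Q ≤ A := sylIn_le_of_norm hA hQ inf_le_right fun g hg => hnQ g (hA.1 hg) (hf g hg)
  have hfix : ∀ g ∈ supp ρ X', ρ g e = e := fun g hg => by
    by_contra hne
    obtain ⟨y, hy, hy0⟩ := hX _ (hX' (hg e)) (sub_ne_zero.2 hne)
    apply hy0
    have h1 : B e (ρ g⁻¹ y - y) = 0 := (Subgroup.inv_mem _ hg y).1.2
    rw [map_sub, LinearMap.sub_apply, ← h.form g⁻¹, rho_inv_left, ← map_sub, h1]
  have hdec : ∀ g ∈ A, ∃ q ∈ Q, q⁻¹ * g ∈ A ⊓ supp ρ X' := fun g hg => by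
    obtain ⟨q, hq1, hq2⟩ := h.map e f (ρ g f) he hff hef (by rw [h.form, hff])
      (by rw [← hf g hg, h.form, hef])
    have hq : q ∈ Q := ⟨hq1, fun x => by
      obtain ⟨c, hc⟩ := hq1.2.2 (x - B e x • f) (by
        rw [map_sub, form_smul_right, hef, mul_one, sub_self])
      rw [map_sub, map_smul, hq2] at hc
      have : ρ q x - x = c • e + B e x • (ρ g f - f) := by
        linear_combination (norm := module) hc
      rw [this]
      exact X.add_mem (X.smul_mem _ heX) (X.smul_mem _ (hA.1 hg f))⟩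
    have h1 := A.mul_mem (A.inv_mem (hQA hq)) hg
    have h2 : ρ (q⁻¹ * g) f = f := by rw [rho_mul, ← hq2, rho_inv_left]
    refine ⟨q, hq, h1, fun x => ⟨⟨hA.1 h1 x, ?_⟩, ?_⟩⟩
    · rw [SetLike.mem_coe, LinearMap.mem_ker, map_sub, sub_eq_zero]
      conv_lhs => rw [← hf _ h1, h.form]
    · rw [SetLike.mem_coe, LinearMap.mem_ker, map_sub, sub_eq_zero]
      conv_lhs => rw [← h2, h.form]
  have hsub : supp ρ X' ≤ supp ρ X := fun g hg x => hX' (hg x)
  have key := ih _ (hn ▸ Submodule.finrank_lt_finrank_of_lt (lt_of_le_of_ne hX' fun h0 =>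
      hfe (h0.ge heX).2)) X' rfl (fun x hx hx0 => by
    obtain ⟨y, hy, hy0⟩ := hX x (hX' hx) hx0
    refine ⟨y - (B f y / B f e) • e - B e y • f, ⟨⟨X.sub_mem (X.sub_mem hy (X.smul_mem _ heX))
      (X.smul_mem _ hfX), ?_⟩, ?_⟩, ?_⟩
    · simp [he, hef]
    · simp [hff, hfe]
    · simpa [h.refl _ _ hx.1.2, h.refl _ _ hx.2] using hy0) (A ⊓ supp ρ X')
    ⟨inf_le_right, hA.2.1.to_le inf_le_left, fun C h1 h2 h3 => le_antisymm (le_inf (by
      have := hA.2.2 (Q ⊔ C) (fun g hg => by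
          obtain ⟨q, hq, hl⟩ := hdec g hg
          have := Subgroup.mul_mem _ (Subgroup.mem_sup_left (T := C) hq)
            (Subgroup.mem_sup_right (h1 hl))
          rwa [mul_inv_cancel_left] at this) (sup_le inf_le_right (h2.trans hsub))
        (hQ.to_sup_of_normal_left' h3 fun c hc => mem_normalizer_of_finite
          (hnQ c (hsub (h2 hc)) (hfix c (h2 hc))))
      exact this ▸ le_sup_right) h2) h1⟩ fun g hg => hT g hg.1
  intro g hg
  obtain ⟨q, hq, hl⟩ := hdec g hg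
  have := T.mul_mem (hT q (hQA hq) e he0 he hq.1) (key hl)
  rwa [mul_inv_cancel_left] at this

omit [Fact p.Prime] [CharP F p] [Finite G] in
theorem span_ti {e v : V} (he : B e e = 0) (hv : B v v = 0) (hev : B e v = 0) (hve : B v e = 0) :
    ∀ x ∈ Submodule.span F {e, v}, ∀ y ∈ Submodule.span F {e, v}, B x y = 0 := by
  intro x hx y hy
  obtain ⟨a, b, rfl⟩ := Submodule.mem_span_pair.1 hx
  obtain ⟨c, d, rfl⟩ := Submodule.mem_span_pair.1 hy
  simp [he, hv, hev, hve]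

omit [Fact p.Prime] [CharP F p] [Finite G] in
theorem mem_stab_single [FiniteDimensional F V] {g : G} {e : V} {a : F} (hg : ρ g e = a • e) :
    g ∈ (stabSub (Submodule.span F {e})).comap ρ :=
  mem_stabSub_iff_mapsTo.2 fun x hx => by
    obtain ⟨c, rfl⟩ := Submodule.mem_span_singleton.1 hx
    rw [map_smul, hg]
    exact Submodule.smul_mem _ _ (Submodule.smul_mem _ _ (Submodule.mem_span_singleton_self e))

omit [Fact p.Prime] [CharP F p] [Finite G] in
theorem mem_stab_pair [FiniteDimensional F V] {g : G} {e v : V}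
    (h1 : ρ g e ∈ Submodule.span F {e, v}) (h2 : ρ g v ∈ Submodule.span F {e, v}) :
    g ∈ (stabSub (Submodule.span F {e, v})).comap ρ :=
  mem_stabSub_iff_mapsTo.2 fun x hx => by
    obtain ⟨a, b, rfl⟩ := Submodule.mem_span_pair.1 hx
    rw [map_add, map_smul, map_smul]
    exact Submodule.add_mem _ (Submodule.smul_mem _ _ h1) (Submodule.smul_mem _ _ h2)

omit [Fact p.Prime] [CharP F p] [Finite G] in
theorem conj_mem (h : Polar p B ρ) {W : Submodule F V} {n r : G} (hn : n ∈ (stabSub W).comap ρ)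
    (hr : r ∈ (radW B W).comap ρ) : n * r * n⁻¹ ∈ (radW B W).comap ρ := by
  have := conj_mem_radW (h.isom n) hn hr
  rwa [← map_inv, ← map_mul, ← map_mul] at this

theorem rad_le (h : Polar p B ρ) {W : Submodule F V} (S : Sylow p G)
    (hS : (S : Subgroup G) ≤ (stabSub W).comap ρ) : (radW B W).comap ρ ≤ S :=
  sylIn_le_of_norm (sylIn_top S) (h.isPGroup W) le_top fun _ ha _ hq => h.conj_mem (hS ha) hq

theorem isSimple [Finite F] [FiniteDimensional F V] (h : Polar p B ρ) (S : Sylow p G) :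
    (groupFusionSystem (S : Subgroup G)).IsSimple p := by
  have hS1 : (S : Subgroup G) ≠ ⊥ := fun h0 => by
    obtain ⟨e, -, he0, he, -⟩ := h.rank
    obtain ⟨c, hc, g, hg⟩ := h.transv e he
    have h1 : ρ g ∈ unipRad B e := ⟨h.isom g, by simp [hg, he], fun x hx => ⟨0, by simp [hg, hx]⟩⟩
    have h2 := sylIn_le_of_norm (sylIn_top S) (h.isPGroup' e) le_top (fun a ha q hq => by
      rw [h0, Subgroup.mem_bot] at ha
      simpa [ha] using hq) h1
    rw [h0, Subgroup.mem_bot] at h2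
    obtain ⟨x, hx⟩ := h.exists_one he0
    simpa [h2, hx, hc, he0] using hg x
  obtain ⟨e, -, he0, he, hf⟩ := h.exists_fixed (X := ⊤) S.isPGroup' hS1 fun _ _ _ => trivial
  obtain ⟨v, hv, hev, hv1, hv2⟩ := h.exists_fixed_line S.isPGroup' he0 he hf
  have hve := h.refl _ _ hev
  have hv0 : v ≠ 0 := fun h0 => hv1 (h0 ▸ Submodule.zero_mem _)
  have he1 : e ∉ Submodule.span F {v} := fun h0 => by
    obtain ⟨c, hc⟩ := Submodule.mem_span_singleton.1 h0
    have hc0 : c ≠ 0 := fun h1 => he0 (by rw [← hc, h1, zero_smul])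
    exact hv1 (Submodule.mem_span_singleton.2 ⟨c⁻¹, by rw [← hc, inv_smul_smul₀ hc0]⟩)
  have hti := span_ti he hv hev hve
  have hti1 : ∀ x ∈ Submodule.span F {e}, ∀ y ∈ Submodule.span F {e}, B x y = 0 :=
    fun x hx y hy => hti x (Submodule.span_mono (by simp) hx) y (Submodule.span_mono (by simp) hy)
  have heW : e ∈ Submodule.span F {e, v} := Submodule.subset_span (by simp)
  have hvW : v ∈ Submodule.span F {e, v} := Submodule.subset_span (by simp)
  have hS2 : (S : Subgroup G) ≤ (stabSub (Submodule.span F {e})).comap ρ := fun g hg =>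
    mem_stab_single (a := 1) (by rw [hf g hg, one_smul])
  have hS3 : (S : Subgroup G) ≤ (stabSub (Submodule.span F {e, v})).comap ρ := fun g hg =>
    mem_stab_pair (by rwa [hf g hg]) (by
      simpa using Submodule.add_mem _ (Submodule.span_mono (by simp) (hv2 g hg)) hvW)
  have hQ1 := h.rad_le S hS2
  have hQ2 := h.rad_le S hS3
  have hC1 : ∀ s ∈ S, (∀ r ∈ (radW B (Submodule.span F {e})).comap ρ, s * r = r * s) →
      s ∈ (radW B (Submodule.span F {e})).comap ρ := fun s hs =>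
    h.mem_of_commute hti1 (by simpa using he0) (isPGroup_iff_isPElt.1 S.isPGroup' s hs)
  have hC2 : ∀ s ∈ S, (∀ r ∈ (radW B (Submodule.span F {e, v})).comap ρ, s * r = r * s) →
      s ∈ (radW B (Submodule.span F {e, v})).comap ρ := fun s hs =>
    h.mem_of_commute hti ((Submodule.ne_bot_iff _).2 ⟨e, heW, he0⟩)
      (isPGroup_iff_isPElt.1 S.isPGroup' s hs)
  obtain ⟨f, hef, hff⟩ := h.exists_partner he0 he
  refine isSimple_group S hS1 (fun T hT hT1 => ?_) fun K hK1 _ hK g hg => ?_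
  · have hQT : (unipRad B e).comap ρ ≤ T := by
      refine (h.irr e he0 he (T ⊓ (unipRad B e).comap ρ) inf_le_right (fun n ⟨a, hn⟩ t ht => ?_)
        ?_).trans inf_le_left
      · have h1 := h.conj_mem (mem_stab_single hn) (r := t) (by rw [radW_span_singleton]; exact ht.2)
        exact ⟨hT.2 n t ht.1 (hQ1 h1), by rwa [radW_span_singleton] at h1⟩
      obtain ⟨z, hz, hz1, hz2⟩ := hT.exists_central S.isPGroup' hT1
      have hzQ := hC1 z (hT.1 hz) fun r hr => (hz2 r (hQ1 hr)).symm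
      rw [radW_span_singleton] at hzQ
      by_cases hx : ∃ x, B e x = 0 ∧ ρ z x ≠ x
      · exact ⟨z, ⟨hz, hzQ⟩, hx⟩
      push Not at hx
      obtain ⟨c, hc⟩ := Submodule.mem_span_singleton.1 (h.mem_span_of_perp (v := ρ z f - f) he0
        fun x hx' => by rw [map_sub, LinearMap.sub_apply, ← hx x hx', h.form, hx x hx', sub_self])
      have hz3 : ∀ x, ρ z x = x + (c * B e x) • e := fun x => by
        have := hx (x - B e x • f) (by rw [map_sub, form_smul_right, hef, mul_one, sub_self])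
        rw [map_sub, map_smul] at this
        linear_combination (norm := module) this - B e x • hc
      have hc0 : c ≠ 0 := fun h0 => by
        have : z = 1 := h.inj (by ext x; simp [hz3, h0])
        rw [this, orderOf_one] at hz1
        exact (Fact.out : p.Prime).one_lt.ne hz1
      have key : ∀ w ∈ Submodule.span F {e, v}, w ≠ 0 →
          ∃ t ∈ T, ∀ x, ρ t x = x + (c * B w x) • w := fun w hw hw0 => by
        obtain ⟨k, rfl⟩ := h.trans e w he0 hw0 he (hti w hw w hw)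
        have h1 : ∀ x, ρ (k * z * k⁻¹) x = x + (c * B (ρ k e) x) • ρ k e := fun x => by
          rw [rho_mul, rho_mul, hz3, map_add, map_smul, rho_inv_right, ← h.form k, rho_inv_right]
        exact ⟨_, hT.2 k z hz (hQ2 (h.transv_mem hti hw h1)), h1⟩
      obtain ⟨t1, ht1, e1⟩ := key v hvW hv0
      obtain ⟨t2, ht2, e2⟩ := key (v + e) (Submodule.add_mem _ hvW heW) fun h0 =>
        hv1 (Submodule.mem_span_singleton.2 ⟨-1, by rw [eq_neg_of_add_eq_zero_left h0]; simp⟩)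
      have e3 : ∀ x, B e x = 0 → ρ (t1⁻¹ * t2) x = x + (c * B v x) • e := fun x hx => by
        apply (ρ t1).injective
        rw [rho_mul, rho_inv_right, e2, e1]
        simp only [map_add, map_smul, LinearMap.add_apply, hx, hve, smul_eq_mul]
        module
      obtain ⟨x, hx1, hx2⟩ : ∃ x, B e x = 0 ∧ B v x ≠ 0 := by
        by_contra! hc
        exact hv1 (h.mem_span_of_perp he0 hc)
      exact ⟨t1⁻¹ * t2, ⟨T.mul_mem (T.inv_mem ht1) ht2, h.isom _, by rw [e3 e he]; simp [hve],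
        fun x hx => ⟨_, e3 x hx⟩⟩, x, hx1, by rw [e3 x hx1]; simp [hc0, hx2, he0]⟩
    refine h.le_of_good T _ ⊤ rfl (fun x _ hx => ?_) S
      ((sylIn_top S).mono (fun _ _ _ => trivial) le_top) fun s hs w hw0 hw hsw => ?_
    · obtain ⟨d, hd⟩ := h.exists_one hx
      exact ⟨d, trivial, by rw [hd]; exact one_ne_zero⟩
    obtain ⟨k, rfl⟩ := h.trans w e hw0 he0 hw he
    have h1 := conj_mem_unipRad (h.isom k) hsw
    rw [← map_inv, ← map_mul, ← map_mul] at h1
    exact hT.mem_of_isConj (hQT h1) hs (isConj_iff.2 ⟨k⁻¹, by group⟩)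
  have hg' := mem_normalizer_of_finite hg
  have hfix : ∀ s ∈ S, ρ s (ρ g e) = ρ g e := fun s hs => by
    have := hf _ ((Subgroup.mem_normalizer_iff.1 (Subgroup.inv_mem _ hg') s).1 hs)
    rw [inv_inv, rho_mul, rho_mul] at this
    rw [← rho_inv_right ρ g (ρ s (ρ g e)), this]
  obtain ⟨l, hl⟩ : ∃ l : F, l • e = ρ g e := by
    obtain ⟨c, hc, t, ht⟩ := h.transv e he
    have h1 := hfix t (hQ1 (h.transv_mem hti1 (Submodule.mem_span_singleton_self e) ht))
    have h2 : B e (ρ g e) = 0 := by simpa [ht, hc, he0] using h1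
    by_contra h3
    obtain ⟨q, hq, h4⟩ := h.exists_move he0 he h2 (fun h4 => h3 (Submodule.mem_span_singleton.1 h4)) 1
    rw [hfix q (hQ1 (by rwa [radW_span_singleton]))] at h4
    simp [he0] at h4
  have hl0 : l ≠ 0 := fun h0 => he0 ((ρ g).injective (by rw [← hl, h0, zero_smul, map_zero]))
  let M := pgen p ((stabSub (Submodule.span F {e, v})).comap ρ)
  have hM : ∀ q : G, ∀ w, ρ q ∈ unipRad B w → ρ q e ∈ Submodule.span F {e, v} →
      ρ q v ∈ Submodule.span F {e, v} → q ∈ M := fun q w hq h1 h2 => by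
    obtain ⟨k, hk⟩ := (isPElt_of_mem_unipRad (p := p) hq).of_map h.inj
    exact mem_pgen (mem_stab_pair h1 h2) hk
  obtain ⟨m, hm, hme⟩ : ∃ m ∈ M, ρ m e = l • e := by
    obtain ⟨q1, h1, e1⟩ := h.exists_move hv0 hv hve he1 1
    obtain ⟨q2, h2, e2⟩ := h.exists_move he0 he hev hv1 (l - 1)
    obtain ⟨q3, h3, e3⟩ := h.exists_move hv0 hv hve he1 (-l⁻¹)
    refine ⟨q3 * (q2 * q1), M.mul_mem (hM q3 v h3 ?_ ?_) (M.mul_mem (hM q2 e h2 ?_ ?_)
      (hM q1 v h1 ?_ ?_)), ?_⟩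
    · exact e3 ▸ Submodule.add_mem _ heW (Submodule.smul_mem _ _ hvW)
    · rwa [h3.2.1]
    · rwa [h2.2.1]
    · exact e2 ▸ Submodule.add_mem _ hvW (Submodule.smul_mem _ _ heW)
    · exact e1 ▸ Submodule.add_mem _ heW (Submodule.smul_mem _ _ hvW)
    · rwa [h1.2.1]
    simp only [rho_mul, e1, map_add, map_smul, e2, h2.2.1, e3, h3.2.1]
    match_scalars
    · ring
    · field_simp; ring
  let A0 : Subgroup G := M ⊓ (MulAction.stabilizer (V ≃ₗ[F] V) e).comap ρ
  obtain ⟨n, hn, hnm⟩ := ((sylIn_top S).mono (C := A0) (fun s hs =>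
      ⟨le_pgen hS3 S.isPGroup' hs, hf s hs⟩) le_top).frattini
    (B := M ⊓ (stabSub (Submodule.span F {e})).comap ρ) (b := m) (fun b hb n hn =>
      ⟨M.mul_mem (M.mul_mem hb.1 hn.1) (M.inv_mem hb.1), by
        obtain ⟨c, hc⟩ := Submodule.mem_span_singleton.1 ((Subgroup.inv_mem _ hb.2 e).1
          (Submodule.mem_span_singleton_self e))
        have h1 : ρ n e = e := hn.2
        change ρ (b * n * b⁻¹) e = e
        rw [rho_mul, rho_mul, ← hc, map_smul, h1, hc, rho_inv_right]⟩) ⟨hm, mem_stab_single hme⟩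
  have h1 : n * m ∈ K := hK _ _ hQ2 hS3 (fun _ hn _ hr => h.conj_mem hn hr) hC2 _
    (M.mul_mem hn.1 hm) hnm
  have h2 : ρ ((n * m)⁻¹ * g) e = e := by
    have h3 : ρ n e = e := hn.2
    have h4 : ρ (n * m) e = l • e := by rw [rho_mul, hme, map_smul, h3]
    rw [rho_mul, ← hl, ← h4, rho_inv_left]
  have h3 : (n * m)⁻¹ * g ∈ Subgroup.normalizer ((S : Subgroup G) : Set G) :=
    Subgroup.mul_mem _ (Subgroup.inv_mem _ (mem_normalizer_of_finite hnm)) hg'
  have h4 : (n * m)⁻¹ * g ∈ K := by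
    generalize (n * m)⁻¹ * g = k at h2 h3
    refine hK _ _ hQ1 hS2 (fun _ hn _ hr => h.conj_mem hn hr) hC1 k ?_
      fun s hs => (Subgroup.mem_normalizer_iff.1 h3 s).1 hs
    obtain ⟨q, hq1, hq2⟩ := h.map e f (ρ k f) he hff hef (by rw [h.form, hff])
      (by rw [← h2, h.form, hef])
    obtain ⟨j, hj⟩ := (isPElt_of_mem_unipRad (p := p) hq1).of_map h.inj
    have := Subgroup.mul_mem _ (mem_pgen (mem_stab_single (a := 1) (by rw [hq1.2.1, one_smul])) hj)
      (h.gen e f he hff hef (q⁻¹ * k) (by rw [rho_mul, h2, ← hq1.2.1, rho_inv_left, hq1.2.1])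
        (by rw [rho_mul, ← hq2, rho_inv_left]))
    rwa [mul_inv_cancel_left] at this
  have := K.mul_mem h1 h4
  rwa [mul_inv_cancel_left] at this

theorem isSimple_quot [Finite F] [FiniteDimensional F V] (h : Polar p B ρ) {H : Type*} [Group H]
    (π : G →* H) (hπ : Function.Surjective π) (hz : π.ker ≤ Subgroup.center G) (T : Sylow p H) :
    (groupFusionSystem (T : Subgroup H)).IsSimple p := by
  obtain ⟨S⟩ : Nonempty (Sylow p G) := inferInstance
  refine isSimple_of_surjective π hπ hz (fun g hg k hk => h.inj ?_) S (h.isSimple S) T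
  have key : ∀ e, e ≠ 0 → B e e = 0 → ρ g ∈ unipRad B e := fun e he0 he => by
    rw [← radW_span_singleton]
    refine h.mem_of_commute (fun x hx y hy => ?_) (by simpa using he0) ⟨k, hk⟩
      fun r _ => (Subgroup.mem_center_iff.1 (hz hg) r).symm
    obtain ⟨c, rfl⟩ := Submodule.mem_span_singleton.1 hx
    obtain ⟨d, rfl⟩ := Submodule.mem_span_singleton.1 hy
    rw [form_smul_left, form_smul_right, he, mul_zero, mul_zero]
  obtain ⟨e, -, he0, he, -⟩ := h.rank
  obtain ⟨f, hef, hff⟩ := h.exists_partner he0 he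
  have hfe : B f e ≠ 0 := fun h0 => one_ne_zero (hef.symm.trans (h.refl _ _ h0))
  have h1 := (key e he0 he).2.1
  ext x
  obtain ⟨c, hc⟩ := (key f (fun h0 => by simp [h0] at hef) hff).2.2 (x - (B f x / B f e) • e)
    (by simp [hfe])
  rw [map_sub, map_smul, h1] at hc
  have h2 : ρ g x = x + c • f := by linear_combination (norm := module) hc
  have h3 := h.form g e x
  rw [h1, h2, map_add, form_smul_right, hef, mul_one, add_eq_left] at h3
  simp [h2, h3]

end Polar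

end H95
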