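/- Special unitary groups of dimension at least four satisfy the axioms of `H95.Polar`. -/
import Cfsg.Agent.H95.Polar
import Cfsg.Agent.H59.Heis
import Cfsg.Agent.H59.SU

set_option autoImplicit false
open Cfsg H92 H59 Module

namespace H95

variable {F V : Type*} [Field F] [AddCommGroup V] [Module F V] {σ : F →+* F}
variable {B : V →ₛₗ[σ] V →ₗ[F] F} {p : ℕ} [Fact p.Prime] [CharP F p] [Finite F]
  [FiniteDimensional F V]

/-- Special unitary groups are generated by unipotent elements. -/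
theorem sisom_le_of_isPElt (h : IsHerm B) {D : Subgroup (V ≃ₗ[F] V)}
    (hD : ∀ g ∈ sisom B, IsPElt p g → g ∈ D) : sisom B ≤ D := by
  by_cases h3 : finrank F V = 3
  swap
  · rw [← h.tgrp_eq_sisom (Or.inl h3)]
    refine (Subgroup.closure_le _).2 ?_
    rintro g ⟨e, he, hg⟩
    exact hD g (axisGrp_le_sisom he hg) (isPElt_of_mem_unipRad (axisGrp_le_unipRad he hg))
  let D' := D ⊓ sisom B
  have hQ : ∀ {e g}, g ∈ sisom B → g ∈ unipRad B e → g ∈ D' := fun h1 h2 =>
    ⟨hD _ h1 (isPElt_of_mem_unipRad h2), h1⟩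
  have k1 : ∀ e f, B e e = 0 → B f f = 0 → B e f ≠ 0 → ∃ d ∈ D', d e = f := by
    intro e f he hf hef
    have H : IsHyp B e ((B e f)⁻¹ • f) :=
      ⟨h, he, by simp [hf], by rw [form_smul_right, inv_mul_cancel₀ hef]⟩
    obtain ⟨x, hx⟩ := (h.isHerm_hypForm H.ee H.ef).exists_self_ne_zero_top (by
      have := h.finrank_hypPerp H.ee H.ef; omega)
    obtain ⟨s, hs⟩ := h.exists_smul_norm_eq (v := x.1) hx (c := -B e f + σ (-B e f))
      (by rw [map_add, h.invol, add_comm])
    have hu1 : B e (s • x.1) = 0 := IsHyp.ew (s • x)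
    have hu2 : B ((B e f)⁻¹ • f) (s • x.1) = 0 := IsHyp.fw (s • x)
    obtain ⟨q, hq, hq1⟩ := h.exists_eichler H.ff hu2 hs.symm
    have hq2 : B e (q e) = B e f := by
      rw [hq1, H.fe, h.eq_zero_comm.1 hu1]
      simp only [map_sub, map_add, form_smul_right, he, hu1, H.ef]
      ring
    obtain ⟨r, hr, hr1, hr2⟩ := h.exists_unipRad_map (y := (B e f)⁻¹ • q e) H.ee H.ff H.ef
      (by rw [form_smul_left, form_smul_right, hq.1, he, mul_zero, mul_zero])
      (by rw [form_smul_right, hq2, inv_mul_cancel₀ hef])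
    refine ⟨r⁻¹ * q, D'.mul_mem (D'.inv_mem (hQ hr hr1))
      (hQ hq (h.mem_unipRad_of_eichler H.ff hu2 hq.1 hq1)), ?_⟩
    rw [map_smul] at hr2
    rw [LinearEquiv.mul_apply, ← smul_right_injective V (inv_ne_zero hef) hr2]
    exact r.symm_apply_apply f
  intro g hg
  obtain ⟨e, -, he0, he⟩ := h.exists_isotropic_mem (W := ⊤) (by rw [finrank_top]; omega)
  have he' : B (g e) (g e) = 0 := by rw [hg.1, he]
  obtain ⟨d, hd, hde⟩ : ∃ d ∈ D', d e = g e := by
    by_cases h0 : B e (g e) = 0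
    swap
    · exact k1 _ _ he he' h0
    obtain ⟨y, hy1, hy2⟩ := h.exists_ne_zero_ne_zero he0 (g.map_ne_zero_iff.2 he0)
    obtain ⟨w, hw1, hw2, a, b, hab⟩ := h.exists_isotropic_partner he hy1
    obtain ⟨d1, hd1, e1⟩ := k1 e w he hw2 (by rw [hw1]; exact one_ne_zero)
    obtain ⟨d2, hd2, e2⟩ := k1 (g e) w he' hw2 (by
      have hb : b ≠ 0 := fun h1 => by simp [hab, h1, he] at hw1
      simpa [hab, h.eq_zero_comm.1 h0, hb] using hy2)
    refine ⟨d2⁻¹ * d1, D'.mul_mem (D'.inv_mem hd2) hd1, ?_⟩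
    rw [LinearEquiv.mul_apply, e1, ← e2]
    exact d2.symm_apply_apply _
  have h1 : d⁻¹ * g ∈ sisom B := Subgroup.mul_mem _ (Subgroup.inv_mem _ hd.2) hg
  have h2 : (d⁻¹ * g) e = e := by rw [LinearEquiv.mul_apply, ← hde]; exact d.symm_apply_apply _
  suffices d⁻¹ * g ∈ D by simpa using D.mul_mem hd.1 this
  generalize d⁻¹ * g = k at h1 h2
  obtain ⟨f, hef, hf⟩ := h.exists_partner he he0
  obtain ⟨q, hq, hq1, hq2⟩ := h.exists_unipRad_map (y := k f) he hf hef (by rw [h1.1, hf])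
    (by rw [← h2, h1.1, hef])
  have h4 : q⁻¹ * k ∈ sisom B := Subgroup.mul_mem _ (Subgroup.inv_mem _ hq) h1
  obtain ⟨l, hl⟩ := (h.mem_range_extPerp (h.disjoint_span_hyp he (f := f) (by simp [hef]))
    ⟨_, h4.1⟩).2 (fun x hx => by
      obtain ⟨a, b, rfl⟩ := Submodule.mem_span_pair.1 hx
      have e1 : q⁻¹ e = e := (Subgroup.inv_mem _ hq1).2.1
      have e2 : q⁻¹ (k f) = f := by rw [← hq2]; exact q.symm_apply_apply _
      simp only [map_add, map_smul, LinearEquiv.mul_apply, h2, e1, e2])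
  have hl1 : l = 1 := by
    have e1 := h.det_extPerp (h.disjoint_span_hyp he (f := f) (by simp [hef])) l
    rw [hl, h4.2] at e1
    have e2 : finrank F (hypPerp B e f) = 1 := by have := h.finrank_hypPerp he hef; omega
    obtain ⟨x, hx0, hx⟩ := finrank_eq_one_iff'.1 e2
    obtain ⟨a, ha⟩ := hx (l.1 x)
    have e3 : ∀ y, l.1 y = a • y := fun y => by
      obtain ⟨b, rfl⟩ := hx y
      rw [map_smul, ← ha, smul_comm]
    have e4 := det_of_scalar e3
    rw [← e1, e2, pow_one, Units.val_one] at e4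
    ext y
    simp [e3, ← e4]
  rw [hl1, map_one] at hl
  have : q = k := inv_mul_eq_one.1 (congrArg Subtype.val hl).symm
  exact this ▸ (hQ hq hq1).1

theorem polar_su (h : IsHerm B) (hV : 4 ≤ finrank F V) : Polar p B (sisom B).subtype where
  inj := Subtype.val_injective
  refl _ _ := h.eq_zero_comm.1
  nondeg := h.nondeg
  isom g := g.2.1
  part _ _ := h.exists_isotropic_partner
  eich := ⟨1, one_ne_zero, fun e u he hu => by
    obtain ⟨a, ha⟩ := exists_trace_eq h.ne_id h.invol (h.self_fixed u)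
    obtain ⟨g, hg, hg1⟩ := h.exists_eichler he hu ha
    exact ⟨a, ⟨g, hg⟩, fun x => by rw [one_mul]; exact hg1 x⟩⟩
  transv e he := by
    obtain ⟨c, hc0, hc⟩ := exists_trace_zero_ne_zero h.ne_id h.invol
    obtain ⟨g, hg, hg1⟩ := h.exists_transv he hc
    exact ⟨c, hc0, ⟨g, axisGrp_le_sisom he hg⟩, hg1⟩
  map e f y he hf hef hy hey := by
    obtain ⟨g, hg, h1, h2⟩ := h.exists_unipRad_map he hf hef hy hey
    exact ⟨⟨g, hg⟩, h1, h2⟩
  trans e e' h0 h0' he he' := by
    obtain ⟨f, hef, hf⟩ := h.exists_partner he h0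
    obtain ⟨f', hef', hf'⟩ := h.exists_partner he' h0'
    obtain ⟨g, hg, h1, -⟩ := h.exists_sisom_hyp (by omega) he (hf.trans hf'.symm) he'
      (by simp [hef]) (hef.trans hef'.symm)
    exact ⟨⟨g, hg⟩, h1⟩
  gen e f he hf hef l h1 h2 := by
    have hd := h.disjoint_span_hyp he (f := f) (by simp [hef])
    obtain ⟨k, hk⟩ := (h.mem_range_extPerp hd ⟨_, l.2.1⟩).2 (fun x hx => by
      obtain ⟨a, b, rfl⟩ := Submodule.mem_span_pair.1 hx
      simp only [Subgroup.coe_subtype] at h1 h2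
      simp only [map_add, map_smul, h1, h2])
    have hk1 : k.1 ∈ sisom (hypForm B e f) := ⟨k.2, by
      have := h.det_extPerp hd k
      rw [hk, l.2.2] at this
      exact this.symm⟩
    obtain ⟨k', ⟨l', hl', e1⟩, e2⟩ := sisom_le_of_isPElt (p := p) (h.isHerm_hypForm he hef)
      (D := (((pgen p ((stabSub (Submodule.span F {e})).comap (sisom B).subtype)).map
        (sisom B).subtype).comap ((isom B).subtype.comp (h.extPerp hd))).map (Subgroup.subtype _))
      (fun g hg ⟨j, hj⟩ => ⟨⟨g, hg.1⟩, ⟨⟨_, (h.extPerp hd ⟨g, hg.1⟩).2,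
          (h.det_extPerp hd ⟨g, hg.1⟩).trans hg.2⟩, mem_pgen (k := j) (Polar.mem_stab_single (a := 1) (by
            rw [one_smul]
            exact (h.mem_range_extPerp hd _).1 ⟨_, rfl⟩ e (Submodule.subset_span (by simp))))
          (Subtype.ext (by
            have : (⟨g, hg.1⟩ : isom (hypForm B e f)) ^ p ^ j = 1 := Subtype.ext hj
            have := congrArg (h.extPerp hd) this
            rw [map_pow, map_one] at this
            exact (congrArg Subtype.val this :))), rfl⟩, rfl⟩) hk1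
    obtain rfl : k' = k := Subtype.ext e2
    obtain rfl : l' = l := Subtype.ext (e1.trans (congrArg Subtype.val hk))
    exact hl'
  irr e he0 he T hT hn := by
    rintro ⟨t, ht, x, hx, htx⟩
    obtain ⟨f, hef, hf⟩ := h.exists_partner he he0
    have H : IsHyp B e f := ⟨h, he, hf, hef⟩
    have hT' : ∀ t ∈ T, t.1 ∈ unipRad B e := fun t ht => hT ht
    have h1 : H.cu 1 = 0 := by
      simpa using H.cu_mul (Subgroup.one_mem _) (Subgroup.one_mem _)
    have hinv : ∀ g ∈ unipRad B e, H.cu g⁻¹ = -H.cu g := fun g hg => by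
      have := H.cu_mul hg (Subgroup.inv_mem _ hg)
      rw [mul_inv_cancel, h1] at this
      exact (neg_eq_of_add_eq_zero_right this.symm).symm
    let M : AddSubgroup (hypPerp B e f) :=
      { carrier := {u | ∃ t ∈ T, H.cu t.1 = u}
        add_mem' := by
          rintro _ _ ⟨a, ha, rfl⟩ ⟨b, hb, rfl⟩
          exact ⟨a * b, T.mul_mem ha hb, H.cu_mul (hT' a ha) (hT' b hb)⟩
        zero_mem' := ⟨1, T.one_mem, h1⟩
        neg_mem' := by
          rintro _ ⟨a, ha, rfl⟩
          exact ⟨a⁻¹, T.inv_mem ha, hinv _ (hT' a ha)⟩ }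
    have hdim := h.finrank_hypPerp he hef
    have hM : M = ⊤ := (h.isHerm_hypForm he hef).addSubgroup_eq_top_of_lam (Or.inl (by omega)) (by
      rintro _ ⟨s, k, hs, hk, hdet, rfl⟩ _ ⟨a, ha, rfl⟩
      obtain ⟨l, hl, e1, e2, e3⟩ := h.exists_levi he hf hef hs hk hdet
      refine ⟨_, hn ⟨l, hl⟩ ⟨s, e1⟩ a ha, Subtype.ext ?_⟩
      have := H.coe_cu_conj hl.1 hs e1 e2 (hT' a ha)
      rw [e3] at this
      exact this) fun h0 => by
        have : H.cu t.1 ∈ M := ⟨t, ht, rfl⟩
        rw [h0, AddSubgroup.mem_bot, ← H.mem_axisGrp_iff (hT' t ht)] at this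
        exact htx (axisGrp_apply_of_perp this hx)
    have hM' : ∀ u, ∃ t ∈ T, H.cu t.1 = u := fun u => (hM ▸ AddSubgroup.mem_top u : u ∈ M)
    have key : ∀ z : sisom B, z.1 ∈ unipRad B e → H.cu z.1 = 0 → z ∈ T := fun z hz hz0 => by
      have e1 := H.ca_add hz
      rw [hz0] at e1
      obtain ⟨b, hb⟩ := exists_sub_eq_of_trace_zero h.ne_id h.invol (c := H.ca z.1)
        (by simpa using e1)
      obtain ⟨u, hu⟩ := (h.isHerm_hypForm he hef).exists_self_ne_zero_top (by omega)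
      have hu' : B u.1 u.1 ≠ 0 := hu
      obtain ⟨a, ha, ea⟩ := hM' u
      obtain ⟨c, hc, ec⟩ := hM' ((b / B u.1 u.1) • u)
      have e2 : B u.1 ((b / B u.1 u.1) • u : hypPerp B e f) = b := by
        rw [Submodule.coe_smul, form_smul_right, div_mul_cancel₀ _ hu']
      have hca := Subgroup.mul_mem _ (hT' c hc) (hT' a ha)
      have e3 : z.1 * (c.1 * a.1) = a.1 * c.1 :=
        H.ext (Subgroup.mul_mem _ hz hca) (Subgroup.mul_mem _ (hT' a ha) (hT' c hc))
          (by rw [H.cu_mul hz hca, H.cu_mul (hT' c hc) (hT' a ha), H.cu_mul (hT' a ha) (hT' c hc),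
            hz0, zero_add, add_comm])
          (by
            rw [H.ca_mul hz hca, H.ca_mul (hT' c hc) (hT' a ha), H.ca_mul (hT' a ha) (hT' c hc),
              hz0, ea, ec, ← h.symm u.1, e2, ← hb]
            simp only [ZeroMemClass.coe_zero, map_zero, LinearMap.zero_apply]
            ring)
      have e4 : z = a * c * (c * a)⁻¹ := eq_mul_inv_of_mul_eq (Subtype.ext e3)
      exact e4 ▸ T.mul_mem (T.mul_mem ha hc) (T.inv_mem (T.mul_mem hc ha))
    intro g hg
    have hg' : g.1 ∈ unipRad B e := hg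
    obtain ⟨a, ha, ea⟩ := hM' (H.cu g.1)
    have := T.mul_mem ha (key (a⁻¹ * g) (Subgroup.mul_mem _ (Subgroup.inv_mem _ (hT' a ha)) hg') (by
      have := H.cu_mul (Subgroup.inv_mem _ (hT' a ha)) hg'
      rwa [hinv _ (hT' a ha), ea, neg_add_cancel] at this))
    rwa [mul_inv_cancel_left] at this
  rank := by
    obtain ⟨e, -, he0, he⟩ := h.exists_isotropic_mem (W := ⊤) (by rw [finrank_top]; omega)
    obtain ⟨f, hef, hf⟩ := h.exists_partner he he0
    obtain ⟨v, hv, hv0, hv1⟩ := h.exists_isotropic_mem (W := hypPerp B e f)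
      (by have := h.finrank_hypPerp he hef; omega)
    refine ⟨e, v, he0, he, hv1, (mem_perp_pair.1 hv).1, fun h1 => hv0 ?_⟩
    obtain ⟨c, rfl⟩ := Submodule.mem_span_singleton.1 h1
    have := (mem_perp_pair.1 hv).2
    rw [form_smul_right, ← h.symm, hef, map_one, mul_one] at this
    rw [this, zero_smul]

end H95
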