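/- Symplectic groups of dimension at least four satisfy the axioms of `H95.Polar`. -/
import Cfsg.Agent.H95.Polar
import Cfsg.Agent.H54.SpDecomp
import Cfsg.Agent.H54.SpSimple

set_option autoImplicit false
open Cfsg H92 H59 H54 Module

namespace H95

variable {F V : Type*} [Field F] [AddCommGroup V] [Module F V] [FiniteDimensional F V]
  {B : LinearMap.BilinForm F V} {p : ℕ}

theorem exists_eichler_alt (hB : B.Nondegenerate) (hA : B.IsAlt) {e u : V} (heu : B e u = 0)
    (a : F) : ∃ g : Isom B, ∀ x, g.1 x = x + (-1 * B u x) • e - B e x • u - (a * B e x) • e := by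
  refine ⟨isomOfLin hB (LinearMap.id - (B u).smulRight e - (B e).smulRight u -
    (a • B e).smulRight e) fun x y => ?_, fun x => ?_⟩
  · have h1 := hA.isRefl _ _ heu
    simp only [LinearMap.sub_apply, LinearMap.id_apply, LinearMap.smulRight_apply, map_sub,
      map_smul, LinearMap.smul_apply, smul_eq_mul, hA.self_eq_zero, heu, h1, ← hA.neg_eq x e,
      ← hA.neg_eq x u]
    rw [← hA.neg_eq e x, ← hA.neg_eq u x]
    ring
  · change x - B u x • e - B e x • u - (a * B e x) • e = _
    module

theorem exists_perp_of_lt {k : ℕ} (hk : k < finrank F V) (x : Fin k → V) :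
    ∃ v, v ≠ 0 ∧ ∀ i, B (x i) v = 0 := by
  obtain ⟨v, hv, hv0⟩ := (Submodule.ne_bot_iff _).1 (LinearMap.ker_ne_bot_of_finrank_lt
    (f := LinearMap.pi fun i => B (x i)) (by simpa using hk))
  exact ⟨v, hv0, fun i => congrFun hv i⟩

theorem polar_sp [Fact p.Prime] [CharP F p] (hB : B.Nondegenerate) (hA : B.IsAlt)
    (hV : 3 ≤ finrank F V) (h5 : 5 ≤ finrank F V ∨ ∃ a : F, a ≠ 0 ∧ a ≠ -1) :
    Polar p B (Isom B).subtype where
  inj := Subtype.val_injective
  refl := hA.isRefl
  nondeg := hB.1
  isom g := g.2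
  part e d _ hd := ⟨(B e d)⁻¹ • d, by simp [hd], hA _, 0, (B e d)⁻¹, by simp⟩
  eich := ⟨-1, by simp, fun e u _ hu => ⟨0, exists_eichler_alt hB hA hu 0⟩⟩
  transv e _ := by
    obtain ⟨g, hg⟩ := exists_eichler_alt hB hA (e := e) (u := 0) (by simp) (-1)
    exact ⟨1, one_ne_zero, g, fun x => by simp [hg]⟩
  map e f y he _ hef _ hey := by
    obtain ⟨g, hg⟩ := exists_eichler_alt hB hA (e := e) (u := f - y) (by simp [hef, hey])
      (-B (f - y) f)
    refine ⟨g, ⟨g.2, ?_, fun x hx => ⟨-1 * B (f - y) x, by simp [hg, hx]⟩⟩, ?_⟩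
    · simp [hg, he, ← hA.neg_eq e f, ← hA.neg_eq e y, hef, hey]
    · rw [Subgroup.coe_subtype, hg, hef]; module
  trans e e' h0 h0' _ _ := by
    obtain ⟨g, hg, -⟩ := isom_move_fixing hB hA ⊥ (x := e) (y := e') (by simpa) (by simpa) (by simp)
    exact ⟨g, hg⟩
  gen e f he hf hef l h1 h2 := by
    have hW : (B.restrict (Submodule.span F {e, f})).Nondegenerate :=
      (restrict_nondegenerate_iff hA.isRefl).2 fun u hu h => by
        obtain ⟨a, b, rfl⟩ := Submodule.mem_span_pair.1 hu
        have e1 := h e (Submodule.subset_span (by simp))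
        have e2 := h f (Submodule.subset_span (by simp))
        simp only [map_add, map_smul, LinearMap.add_apply, LinearMap.smul_apply, he, hf, hef,
          ← hA.neg_eq e f, smul_eq_mul, mul_zero, zero_add, add_zero, mul_one, mul_neg,
          neg_eq_zero] at e1 e2
        simp [e1, e2]
    have hr := range_isomOrthoHom_inr hA.isRefl hW
    obtain ⟨k, rfl⟩ : l ∈ ((isomOrthoHom hA.isRefl hW).comp (MonoidHom.inr _ _)).range := by
      rw [hr, mem_fixingSubgroup_iff]
      intro x hx
      obtain ⟨a, b, rfl⟩ := Submodule.mem_span_pair.1 hx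
      simp only [Subgroup.coe_subtype] at h1 h2
      simp only [Isom_smul_def, map_add, map_smul, h1, h2]
    have := isom_eq_top_of_tvV_mem (restrict_orthogonal_nondegenerate hB hA.isRefl hW)
      (restrict_isAlt hA _) ((pgen p ((stabSub (Submodule.span F {e})).comap
        (Isom B).subtype)).comap ((isomOrthoHom hA.isRefl hW).comp (MonoidHom.inr _ _)))
      fun v c => by
        obtain ⟨j, hj⟩ := isPElt_coe_iff.1 (isPElt_of_mem_unipRad (p := p) (e := v)
          (B := B.restrict (B.orthogonal (Submodule.span F {e, f})))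
          (g := (tvV (restrict_isAlt hA _) v c).1) ⟨(tvV (restrict_isAlt hA _) v c).2, by
            rw [← Isom_smul_def, tvV_smul, restrict_isAlt hA _ v, mul_zero, zero_smul, add_zero],
            fun x _ => ⟨_, tvV_smul _ v c x⟩⟩)
        refine mem_pgen (k := j) (Polar.mem_stab_single (a := 1) ?_) (by rw [← map_pow, hj, map_one])
        rw [one_smul]
        exact (mem_fixingSubgroup_iff _).1 (hr.le ⟨_, rfl⟩) e (Submodule.subset_span (by simp))
    exact (this ▸ Subgroup.mem_top k : k ∈ Subgroup.comap _ _)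
  irr e he0 he T hT hn := by
    rintro ⟨t, ht, x, hx, htx⟩
    obtain ⟨f, hef⟩ : ∃ f, B e f = 1 := by
      obtain ⟨d, hd⟩ : ∃ d, B e d ≠ 0 := by
        by_contra! hc
        exact he0 (hB.1 e hc)
      exact ⟨(B e d)⁻¹ • d, by simp [hd]⟩
    have hfe : B f e = -1 := by rw [← hA.neg_eq, hef]
    have hT' : ∀ t ∈ T, t.1 ∈ unipRad B e := fun t ht => hT ht
    have k0 : ∀ g ∈ unipRad B e, ∀ u, g f = f + u → B e u = 0 := fun g hg u hu => by
      have := hg.1 e f
      rwa [hg.2.1, hu, map_add, add_eq_left] at this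
    have k1 : ∀ g ∈ unipRad B e, ∀ u, g f = f + u → ∀ x, B e x = 0 → g x = x + B u x • e :=
      fun g hg u hu x hx => by
        obtain ⟨c, hc⟩ := hg.2.2 x hx
        have := hg.1 f x
        simp only [hu, hc, map_add, map_smul, LinearMap.add_apply, hfe,
          hA.isRefl _ _ (k0 g hg u hu), smul_eq_mul] at this
        rw [hc, show c = B u x by linear_combination -this]
    let Φ : V → Prop := fun u => ∃ t ∈ T, t.1 f = f + u
    have kmul : ∀ {u u'}, Φ u → Φ u' → Φ (u + u' + B u u' • e) := by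
      rintro u u' ⟨a, ha, ea⟩ ⟨b, hb, eb⟩
      refine ⟨a * b, T.mul_mem ha hb, ?_⟩
      rw [Subgroup.coe_mul, LinearEquiv.mul_apply, eb, map_add, ea,
        k1 _ (hT' a ha) u ea u' (k0 _ (hT' b hb) u' eb)]
      abel
    have ksub : ∀ {u} {c : F}, Φ u → Φ (u + c • e) → Φ (c • e) := by
      rintro u c ⟨a, ha, ea⟩ ⟨b, hb, eb⟩
      refine ⟨a⁻¹ * b, T.mul_mem (T.inv_mem ha) hb, a.1.injective ?_⟩
      rw [← LinearEquiv.mul_apply, ← Subgroup.coe_mul, mul_inv_cancel_left, eb, map_add, map_smul,
        ea, (hT' a ha).2.1, add_assoc]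
    obtain ⟨u, hu⟩ : ∃ u, t.1 f = f + u := ⟨t.1 f - f, by abel⟩
    have heu := k0 _ (hT' t ht) u hu
    have hu1 : u ∉ Submodule.span F {e, f} := fun h => by
      obtain ⟨a, b, rfl⟩ := Submodule.mem_span_pair.1 h
      have hb : b = 0 := by simpa [he, hef] using heu
      exact htx (by simpa [hb, hx] using k1 _ (hT' t ht) _ hu x hx)
    have k2 : ∀ w, w ≠ 0 → B e w = 0 → B f w = 0 → Φ (w + (-B f u) • e) := fun w hw0 h1 h2 => by
      obtain ⟨l, hl, hl1⟩ := isom_move_fixing hB hA _ (y := w + (-B f u) • e) hu1 (fun h => by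
        obtain ⟨a, b, hab⟩ := Submodule.mem_span_pair.1 h
        have e1 := congrArg (B e) hab
        have e2 := congrArg (B f) hab
        simp only [map_add, map_smul, he, hef, h1, h2, hfe, hA.self_eq_zero, smul_eq_mul] at e1 e2
        rw [show b = 0 by linear_combination e1, show a = -B f u by linear_combination -e2] at hab
        exact hw0 (by simpa using hab.symm)) fun y hy => by
          obtain ⟨a, b, rfl⟩ := Submodule.mem_span_pair.1 hy
          simp [he, h1, h2, hfe, heu]
      have e1 : l.1 e = e := hl1 e (Submodule.subset_span (by simp))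
      have e2 : l.1 f = f := hl1 f (Submodule.subset_span (by simp))
      refine ⟨_, hn l ⟨1, by rw [one_smul]; exact e1⟩ t ht, ?_⟩
      have e3 : l.1⁻¹ f = f := by rw [LinearEquiv.coe_inv, LinearEquiv.symm_apply_eq, e2]
      rw [Subgroup.coe_mul, Subgroup.coe_mul, LinearEquiv.mul_apply, LinearEquiv.mul_apply,
        Subgroup.coe_inv, e3, hu, map_add, e2, ← hl, Isom_smul_def]
    have k3 : ∀ w w', w ≠ 0 → w' ≠ 0 → w + w' ≠ 0 → B e w = 0 → B f w = 0 → B e w' = 0 →
        B f w' = 0 → Φ ((-B f u + B w w') • e) := fun w w' h0 h0' h1 h2 h3 h4 h5 => by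
      refine ksub (k2 _ h1 (by simp [h2, h4]) (by simp [h3, h5])) ?_
      convert kmul (k2 w h0 h2 h3) (k2 w' h0' h4 h5) using 1
      simp only [map_add, map_smul, LinearMap.add_apply, LinearMap.smul_apply, he, h4,
        hA.isRefl _ _ h2, smul_eq_mul]
      module
    obtain ⟨w, hw0, hw⟩ := exists_perp_of_lt (B := B) (k := 2) (by omega) ![e, f]
    have hw1 : B e w = 0 := hw 0
    have hw2 : B f w = 0 := hw 1
    obtain ⟨z, hz, hwz⟩ := exists_ortho_ne_zero hB hA.isRefl (Submodule.span F {e, f}) (x := w)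
      fun h => by
        obtain ⟨a, b, rfl⟩ := Submodule.mem_span_pair.1 h
        simp only [map_add, map_smul, he, hef, hfe, hA.self_eq_zero, smul_eq_mul] at hw1 hw2
        rw [show b = 0 by linear_combination hw1, show a = 0 by linear_combination -hw2] at hw0
        simp at hw0
    have hz1 := hz e (Submodule.subset_span (by simp))
    have hz2 := hz f (Submodule.subset_span (by simp))
    have k4 : Φ ((-B f u) • e) := by
      rcases h5 with h5 | ⟨a, ha0, ha1⟩
      · obtain ⟨y, hy0, hy⟩ := exists_perp_of_lt (B := B) (k := 4) (by omega) ![e, f, w, z]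
        have hy2 : B w y = 0 := hy 2
        have hy3 : B z y = 0 := hy 3
        simpa [hy2] using k3 w y hw0 hy0 (fun h => hwz (hA.isRefl _ _ (by
          simpa [hy3] using congrArg (B z) h))) hw1 hw2 (hy 0) (hy 1)
      · simpa [hA.self_eq_zero] using k3 w (a • w) hw0 (smul_ne_zero ha0 hw0) (fun h => by
          rw [show w + a • w = (a + 1) • w by module, smul_eq_zero, add_eq_zero_iff_eq_neg] at h
          exact h.elim ha1 hw0) hw1 hw2 (by simp [hw1]) (by simp [hw2])
    have k5 : ∀ c : F, Φ (c • e) := fun c => by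
      by_cases hc : c = 0
      · exact ⟨1, T.one_mem, by simp [hc]⟩
      have e1 : B w ((c / B w z) • z) = c := by simp [hwz]
      refine ksub k4 ?_
      have := k3 w ((c / B w z) • z) hw0 (fun h => hc (by rw [← e1, h, map_zero])) (fun h => hc (by
        have := congrArg (B w) h
        rwa [map_add, e1, hA.self_eq_zero, zero_add, map_zero] at this)) hw1 hw2 (by simp [hz1])
        (by simp [hz2])
      rwa [e1, add_smul] at this
    intro g hg
    have hg' : g.1 ∈ unipRad B e := hg
    obtain ⟨y, hy⟩ : ∃ y, g.1 f = f + y := ⟨g.1 f - f, by abel⟩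
    have hey := k0 _ hg' y hy
    obtain ⟨a, ha, ea⟩ : Φ y := by
      by_cases h0 : y + B f y • e = 0
      · convert k5 (-B f y) using 1
        linear_combination (norm := module) h0
      · convert kmul (k2 _ h0 (by simp [he, hey]) (by simp [hfe])) (k5 (B f u - B f y)) using 1
        simp only [map_add, map_smul, LinearMap.add_apply, LinearMap.smul_apply, he,
          hA.isRefl _ _ hey, smul_eq_mul]
        module
    have : g = a := Subtype.ext (LinearEquiv.ext fun x => by
      have h1 : B e (x - B e x • f) = 0 := by simp [hef]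
      have e1 := k1 _ hg' y hy _ h1
      rw [← k1 _ (hT' a ha) y ea _ h1, map_sub, map_sub, map_smul, map_smul, hy, ea] at e1
      exact sub_left_injective e1)
    exact this ▸ ha
  rank := by
    obtain ⟨e, he0, -⟩ := exists_perp_of_lt (B := B) (k := 0) (by omega) ![]
    obtain ⟨d, hd⟩ : ∃ d, B e d ≠ 0 := by
      by_contra! hc
      exact he0 (hB.1 e hc)
    obtain ⟨v, hv0, hv⟩ := exists_perp_of_lt (B := B) (k := 2) (by omega) ![e, d]
    refine ⟨e, v, he0, hA e, hA v, hv 0, fun h => hv0 ?_⟩
    obtain ⟨c, rfl⟩ := Submodule.mem_span_singleton.1 h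
    have h1 : B d (c • e) = 0 := hv 1
    rw [map_smul, smul_eq_mul, mul_eq_zero] at h1
    rw [h1.resolve_right fun h2 => hd (hA.isRefl _ _ h2), zero_smul]

end H95
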