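import Cfsg.Agent.H95.SGNum

/-! Tower SG, slot E1: the prime field. -/

set_option autoImplicit false

namespace H95.SG

open Finset H53.SG

universe v

theorem uniq {b : ℕ} (n : ℕ) (A B : ℕ → ℕ) (hA : ∀ i, A i < b) (hB : ∀ i, B i < b)
    (h : ∑ i ∈ range n, A i * b ^ i = ∑ i ∈ range n, B i * b ^ i) : ∀ i < n, A i = B i := by
  induction n generalizing A B with
  | zero => exact fun _ h => by omega
  | succ n ih =>
    rw [sum_low, sum_low] at h
    have k : A 0 = B 0 := by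
      have := congrArg (· % b) h
      simpa only [Nat.add_mul_mod_self_left, Nat.mod_eq_of_lt (hA 0), Nat.mod_eq_of_lt (hB 0)]
    intro i hi
    cases i
    exacts [k, ih (fun i => A (i + 1)) (fun i => B (i + 1)) (fun _ => hA _) (fun _ => hB _)
      (Nat.eq_of_mul_eq_mul_left (by have := hA 0; omega : 0 < b) (by omega)) _ (by omega)]

theorem val_modEq {p : ℕ} (hp : 1 ≤ p) {ι : Type*} (s : Finset ι) (A k : ι → ℕ) :
    ∑ i ∈ s, A i * p ^ k i ≡ ∑ i ∈ s, A i [MOD p - 1] := by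
  have : ∀ i, A i * p ^ k i ≡ A i [MOD p - 1] := fun i => by
    simpa using ((Nat.modEq_sub hp).pow (k i)).mul_left (A i)
  classical
  induction s using Finset.induction_on with
  | empty => rfl
  | insert a s ha ih => rw [sum_insert ha, sum_insert ha]; exact (this a).add ih

variable {p n : ℕ} [NeZero (1 * n)] {m m' : Mon 1 n}

theorem J0.sum (h : J0 p m) : ∑ t, m (false, t) + ∑ t, m (true, t) = n * (p - 1) := by
  rw [← sum_add_distrib]
  exact (sum_congr rfl fun t _ => h.eta t).trans (by simp)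

theorem J0.lev (hp : 2 ≤ p) (h : J0 p m) : ∃ L, 1 ≤ L ∧ L < n ∧ ∑ t, m (true, t) = L * (p - 1) := by
  have h1 := J0.sum h
  have h2 := h.dvd
  rw [pow_one, ← Nat.modEq_zero_iff_dvd] at h2
  obtain ⟨k, hk⟩ := Nat.modEq_zero_iff_dvd.1 ((val_modEq (by omega) _ _ _).symm.trans h2)
  obtain ⟨x, hx⟩ := h.x0
  obtain ⟨y, hy⟩ := h.y0
  have h3 := single_le_sum (f := fun t => m (false, t)) (fun _ _ => Nat.zero_le _) (mem_univ x)
  have h4 := single_le_sum (f := fun t => m (true, t)) (fun _ _ => Nat.zero_le _) (mem_univ y)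
  have h5 : k < n := lt_of_mul_lt_mul_left (a := p - 1) (by rw [mul_comm _ n]; omega) (Nat.zero_le _)
  have h6 : k ≠ 0 := by rintro rfl; omega
  exact ⟨n - k, by omega, by omega, by rw [Nat.sub_mul, mul_comm k]; omega⟩

theorem vc_eq (p : ℕ) (m : Mon 1 n) (k : Bool) :
    vc p m k = ∑ u ∈ range n, m (k, u) * p ^ u := by
  rw [vc, H53.SG.val, sum_zmod fun t u => m (k, t) * p ^ u, show range (1 * n) = range n by simp]

theorem J0.inj (hp : 2 ≤ p) (h : J0 p m) (h' : J0 p m') (e : vc p m true = vc p m' true) : m = m' := by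
  have k : ∀ t, m (true, t) = m' (true, t) := fun t => by
    rw [vc_eq, vc_eq] at e
    simpa using uniq n _ _ (fun i => by have := h.eta i; rw [eta] at this; omega)
      (fun i => by have := h'.eta i; rw [eta] at this; omega) e t.val (by simpa using t.val_lt)
  ext ⟨b, t⟩
  have := h.eta t
  have := h'.eta t
  have := k t
  cases b <;> simp only [eta] at * <;> omega

theorem J0.vc_lt (hp : 2 ≤ p) (h : J0 p m) : 0 < vc p m true ∧ vc p m true + 1 < p ^ n := by
  have pos : ∀ k, (∃ t, m (k, t) ≠ 0) → 0 < vc p m k := fun k ⟨t, ht⟩ =>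
    sum_pos' (fun _ _ => Nat.zero_le _) ⟨t, mem_univ _, by positivity⟩
  have h1 := geom (b := p) (by omega) n
  have h2 : vc p m false + vc p m true = (p - 1) * ∑ u ∈ range n, p ^ u := by
    rw [vc_eq, vc_eq, ← sum_add_distrib, mul_sum]
    exact sum_congr rfl fun u _ => by rw [← add_mul, ← h.eta u, eta]
  have := pos _ h.x0
  exact ⟨pos _ h.y0, by omega⟩

/-- The monomial with the digits `y` in the second copy. -/
noncomputable def mk (p n : ℕ) [NeZero (1 * n)] (y : ℕ → ℕ) : Mon 1 n :=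
  Finsupp.equivFunOnFinite.symm fun v => if v.1 then y v.2.val else p - 1 - y v.2.val

theorem mk_sum (y : ℕ → ℕ) (x : ℕ) :
    ∑ t, mk p n y (true, t) * x ^ t.val = ∑ u ∈ range n, y u * x ^ u := by
  rw [show range n = range (1 * n) by simp, ← sum_zmod fun _ u => y u * x ^ u]
  rfl

theorem mk_J0 (hp : 2 ≤ p) {y : ℕ → ℕ} (hy : ∀ u, y u < p) {L : ℕ} (h1 : 1 ≤ L) (h2 : L < n)
    (h : ∑ u ∈ range n, y u = L * (p - 1)) : J0 p (mk p n y) := by
  have e : ∀ t, eta (mk p n y) t = p - 1 := fun t => by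
    have := hy t.val
    change p - 1 - y t.val + y t.val = _
    omega
  have s := mk_sum (p := p) (n := n) y 1
  simp only [one_pow, mul_one, h] at s
  have s2 : ∑ t, mk p n y (false, t) + ∑ t, mk p n y (true, t) = n * (p - 1) := by
    rw [← sum_add_distrib]
    exact (sum_congr rfl fun t _ => e t).trans (by simp)
  have s3 : ∑ t, mk p n y (false, t) = (n - L) * (p - 1) := by rw [Nat.sub_mul]; omega
  refine ⟨e, exists_ne_zero_of_sum_ne_zero' ?_, exists_ne_zero_of_sum_ne_zero' ?_, ?_⟩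
  · rw [s3]; exact mul_ne_zero (by omega) (by omega)
  · rw [s]; exact mul_ne_zero (by omega) (by omega)
  · rw [pow_one, ← Nat.modEq_zero_iff_dvd]
    exact (val_modEq (by omega) _ _ _).trans (s3 ▸ Nat.modEq_zero_iff_dvd.2 (Dvd.intro_left _ rfl))
where
  exists_ne_zero_of_sum_ne_zero' {f : ZMod (1 * n) → ℕ} (h : ∑ t, f t ≠ 0) : ∃ t, f t ≠ 0 :=
    let ⟨t, _, k⟩ := exists_ne_zero_of_sum_ne_zero h; ⟨t, k⟩

theorem J0.finite : {m : Mon 1 n | J0 p m}.Finite :=
  (finite_toSet (Iic (Finsupp.equivFunOnFinite.symm fun _ => p))).subset fun m hm =>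
    mem_coe.2 (mem_Iic.2 fun ⟨b, t⟩ => by
      have := hm.eta t
      change m (b, t) ≤ p
      cases b <;> simp only [eta] at this <;> omega)

/-- The digits of `b_L + j d`. -/
def dig (μ n L j u : ℕ) : ℕ :=
  if u = 0 then (if j < L then μ * (n - L + j) + 1 else μ * (j - L))
  else if u = 1 then (if j < L then μ * (j + 1) - 1 else μ * (j + 1))
  else if u ≤ L then μ * (j + 1) else μ * j

omit [NeZero (1 * n)] in
theorem dig_sum {μ L j : ℕ} (hμ : 1 ≤ μ) (hn : 2 ≤ n) (h1 : 1 ≤ L) (h2 : L < n) (x : ℕ) :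
    ∑ u ∈ range n, dig μ n L j u * x ^ u + (if j < L then 0 else μ * n + 1) =
      ∑ u ∈ range n, dig μ n L 0 u * x ^ u + j * (μ * ∑ u ∈ range n, x ^ u) +
        if j < L then 0 else x := by
  obtain ⟨k, rfl⟩ : ∃ k, n = k + 2 := ⟨n - 2, by omega⟩
  have e : ∑ u ∈ range k, dig μ (k + 2) L j (u + 1 + 1) * x ^ (u + 1 + 1) =
      ∑ u ∈ range k, dig μ (k + 2) L 0 (u + 1 + 1) * x ^ (u + 1 + 1) +
        j * (μ * ∑ u ∈ range k, x ^ (u + 1 + 1)) := by
    rw [mul_sum, mul_sum, ← sum_add_distrib]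
    refine sum_congr rfl fun u _ => ?_
    simp only [dig, add_eq_zero, one_ne_zero, and_false, if_false, add_eq_right]
    split_ifs <;> ring
  simp only [sum_range_succ', e]
  generalize ∑ u ∈ range k, dig μ (k + 2) L 0 (u + 1 + 1) * x ^ (u + 1 + 1) = X
  obtain ⟨μ, rfl⟩ : ∃ k, μ = k + 1 := ⟨μ - 1, by omega⟩
  obtain ⟨r, hr⟩ : ∃ r, k + 2 = L + r := ⟨k + 2 - L, by omega⟩
  simp only [dig, hr, zero_add, one_ne_zero, if_true, if_false, Nat.add_sub_cancel_left,
    show 0 < L from h1, mul_one, Nat.add_sub_cancel]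
  split_ifs with e
  · rw [show (μ + 1) * (j + 1) - 1 = (μ + 1) * j + μ by rw [mul_add_one]; omega]; ring
  · obtain ⟨i, rfl⟩ : ∃ i, j = L + i := ⟨j - L, by omega⟩
    rw [Nat.add_sub_cancel_left]; ring

omit [NeZero (1 * n)] in
theorem dig_zero {μ L : ℕ} (hμ : 1 ≤ μ) (h1 : 1 ≤ L) (h2 : L < n) :
    ∑ u ∈ range n, dig μ n L 0 u = μ * n := by
  obtain ⟨k, rfl⟩ : ∃ k, n = k + 2 := ⟨n - 2, by omega⟩
  have e : ∑ u ∈ range k, dig μ (k + 2) L 0 (u + 1 + 1) = (L - 1) * μ := by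
    simp only [dig, add_eq_zero, one_ne_zero, and_false, if_false, add_eq_right, zero_add, mul_one,
      mul_zero]
    rw [← sum_filter, show filter (fun u => u + 1 + 1 ≤ L) (range k) = range (L - 1) by
      ext; simp; omega]
    simp
  rw [sum_range_succ', sum_range_succ', e]
  obtain ⟨L, rfl⟩ : ∃ k, L = k + 1 := ⟨L - 1, by omega⟩
  obtain ⟨μ, rfl⟩ : ∃ k, μ = k + 1 := ⟨μ - 1, by omega⟩
  obtain ⟨r, hr⟩ : ∃ r, k + 2 = L + 1 + r := ⟨k + 1 - L, by omega⟩
  simp only [dig, hr, Nat.add_sub_cancel_left]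
  simp
  ring

omit [NeZero (1 * n)] in
theorem dig_le {μ L j : ℕ} (hμ : 1 ≤ μ) (h2 : L < n) (hj : j < n) (u : ℕ) :
    dig μ n L j u ≤ μ * n := by
  have a1 := Nat.mul_le_mul_left μ (show j + 1 ≤ n from hj)
  have a2 := Nat.mul_le_mul_left μ (show j - L ≤ n by omega)
  have a3 := Nat.mul_le_mul_left μ hj.le
  unfold dig
  split_ifs with e1 e2 <;> try omega
  have := Nat.mul_le_mul_left μ (show n - L + j + 1 ≤ n by omega)
  rw [mul_add_one] at this
  omega

theorem jobE1 : JobE1.{v} := by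
  intro p e n g μ _ K _ _ _ c hp he hn n5 hK hg hgn hc hB
  subst he
  classical
  have p2 := hp.two_le
  obtain ⟨d, hd⟩ : ∃ d, d = μ * ∑ i ∈ range n, p ^ i := ⟨_, rfl⟩
  rw [← hd] at hB
  have d1 : g * d + 1 = p ^ n := by rw [hd, ← mul_assoc, mul_comm g, hg, geom (by omega)]
  have μ1 : 1 ≤ μ := Nat.pos_of_ne_zero (by rintro rfl; omega)
  have g1 : g ≠ 0 := by rintro rfl; omega
  obtain ⟨a, ha⟩ := IsCyclic.exists_ofOrder_eq_natCard (α := Kˣ)
  rw [Nat.card_units, Nat.card_eq_fintype_card, hK, one_mul, ← d1, Nat.add_sub_cancel] at ha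
  obtain ⟨ζ, hζ⟩ : ∃ ζ : K, ∀ k, ζ ^ k = 1 ↔ d ∣ k := ⟨(a ^ g : Kˣ), fun k => by
    rw [← Units.val_pow_eq_pow_val, Units.val_eq_one, ← pow_mul, ← orderOf_dvd_iff_pow_eq_one, ha,
      mul_dvd_mul_iff_left g1]⟩
  have z1 : ∀ i, (ζ ^ i) ^ d = 1 := fun i => by rw [← pow_mul, hζ]; exact Dvd.intro_left _ rfl
  have z2 : ∀ k, ∑ i ∈ range d, (ζ ^ i) ^ k = if d ∣ k then (d : K) else 0 := fun k => by
    simp only [← pow_mul, mul_comm _ k]
    simp only [pow_mul]
    split_ifs with h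
    · simp [(hζ k).2 h]
    · refine (mul_eq_zero.1 ?_).resolve_left (sub_ne_zero.2 (mt (hζ k).1 h))
      rw [mul_geom_sum, z1, sub_self]
  have d0 : (d : K) ≠ 0 := fun e => by
    have := congrArg (Nat.cast : ℕ → K) d1
    simp [e, CharP.cast_eq_zero, show n ≠ 0 by omega] at this
  simp only [finsum_mem_eq_finite_toFinset_sum _ J0.finite] at hB
  generalize hJ : (J0.finite (p := p) (n := n)).toFinset = J at hB
  replace hJ : ∀ m, m ∈ J ↔ J0 p m := fun m => by simp [← hJ]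
  let S : ℕ → K := fun b => ∑ m ∈ J with vc p m true % d = b % d, c m
  have hS : ∀ b b', p - 1 ∣ b → p - 1 ∣ b' → b < g * d → b' < g * d → ¬ d ∣ b → ¬ d ∣ b' →
      S b = S b' := by
    obtain ⟨β, hβ⟩ : ∃ β, ∀ t : K, t ^ d = 1 → t ^ (p - 1) ≠ 1 →
        ∑ m ∈ J, c m * t ^ vc p m true = β := by
      by_cases h : ∃ t : K, t ^ d = 1 ∧ t ^ (p - 1) ≠ 1
      · obtain ⟨t, h1, h2⟩ := h
        exact ⟨_, fun t' h3 h4 => hB t' t h3 h4 h1 h2⟩
      · exact ⟨0, fun t h1 h2 => (h ⟨t, h1, h2⟩).elim⟩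
    have k1 : ∀ b < g * d, ∑ i ∈ range d, (∑ m ∈ J, c m * (ζ ^ i) ^ vc p m true) *
        (ζ ^ i) ^ (g * d - b) = d * S b := fun b hb => by
      simp only [sum_mul, mul_assoc, ← pow_add]
      rw [sum_comm, mul_sum, sum_filter]
      refine sum_congr rfl fun m _ => ?_
      rw [← mul_sum, z2, mul_ite, mul_zero]
      refine if_congr ?_ (mul_comm _ _) rfl
      rw [← Nat.modEq_zero_iff_dvd]
      refine ⟨fun h => ?_, fun h => ?_⟩
      · have := h.add_right b
        rwa [add_assoc, Nat.sub_add_cancel hb.le, zero_add, Nat.ModEq, Nat.add_mul_mod_self_right] at this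
      · refine (Nat.ModEq.add_right _ h).trans ?_
        rw [Nat.add_sub_cancel' hb.le]
        exact Nat.modEq_zero_iff_dvd.2 (Dvd.intro_left _ rfl)
    have k2 : p - 1 ∣ g * d := ⟨_, by rw [hd, ← mul_assoc, mul_comm g, hg]⟩
    have k3 : ∀ b < g * d, ¬ d ∣ b → ∑ i ∈ range d, β * (ζ ^ i) ^ (g * d - b) = 0 := fun b hb h => by
      rw [← mul_sum, z2, if_neg fun e => h ?_, mul_zero]
      exact (Nat.dvd_add_right e).1 (by rw [Nat.sub_add_cancel hb.le]; exact Dvd.intro_left _ rfl)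
    intro b b' h1 h2 h3 h4 h5 h6
    refine mul_left_cancel₀ d0 ?_
    rw [← k1 b h3, ← k1 b' h4, ← sub_zero (∑ i ∈ range d, _ * _ ^ (g * d - b)),
      ← sub_zero (∑ i ∈ range d, _ * _ ^ (g * d - b')), ← sub_eq_zero]
    conv_lhs => congr; rw [← k3 b h3 h5]; rfl; rw [← k3 b' h4 h6]
    simp only [← sum_sub_distrib]
    refine sum_eq_zero fun i _ => ?_
    by_cases e : (ζ ^ i) ^ (p - 1) = 1
    · have k : ∀ r, p - 1 ∣ r → (ζ ^ i) ^ r = 1 := by rintro _ ⟨r, rfl⟩; rw [pow_mul, e, one_pow]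
      rw [k _ (Nat.dvd_sub k2 h1), k _ (Nat.dvd_sub k2 h2), sub_self]
    · rw [hβ _ (z1 i) e]; simp
  rcases hgn with rfl | rfl
  · have k : ∀ m, J0 p m → S (vc p m true) = c m ∧ p - 1 ∣ vc p m true ∧ vc p m true < 1 * d ∧
        ¬ d ∣ vc p m true := fun m hm => by
      obtain ⟨v1, v2⟩ := J0.vc_lt p2 hm
      obtain ⟨L, -, -, hL⟩ := J0.lev p2 hm
      refine ⟨sum_eq_single_of_mem m (by simp [hJ, hm]) fun m' h1 h2 => (h2 ?_).elim,
        Nat.modEq_zero_iff_dvd.1 ((val_modEq (by omega) _ _ _).trans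
          (hL ▸ Nat.modEq_zero_iff_dvd.2 (Dvd.intro_left _ rfl))), by omega,
        Nat.not_dvd_of_pos_of_lt v1 (by omega)⟩
      obtain ⟨h3, h4⟩ := mem_filter.1 h1
      obtain ⟨v3, v4⟩ := J0.vc_lt p2 ((hJ _).1 h3)
      rw [Nat.mod_eq_of_lt (by omega), Nat.mod_eq_of_lt (by omega)] at h4
      exact J0.inj p2 ((hJ _).1 h3) hm h4
    intro m m' h h'
    obtain ⟨a1, a2, a3, a4⟩ := k m h
    obtain ⟨b1, b2, b3, b4⟩ := k m' h'
    rw [← a1, ← b1, hS _ _ a2 b2 a3 b3 a4 b4]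
  let f : ℕ → K := fun L => if h : ∃ m, J0 p m ∧ ∑ t, m (true, t) = L * (p - 1) then c h.choose else 0
  have hf : ∀ m L, J0 p m → ∑ t, m (true, t) = L * (p - 1) → c m = f L := fun m L h1 h2 => by
    have h : ∃ m, J0 p m ∧ ∑ t, m (true, t) = L * (p - 1) := ⟨m, h1, h2⟩
    obtain ⟨h3, h4⟩ := h.choose_spec
    have := J0.sum h1
    have := J0.sum h3
    exact (hc _ _ h1 h3 (by omega)).trans (by simp only [f, dif_pos h])
  have key : ∀ L, 1 ≤ L → L < g → ∃ b, p - 1 ∣ b ∧ b < g * d ∧ ¬ d ∣ b ∧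
      S b = ∑ j ∈ range g, f (if j < L then j + 1 else j) := fun L h1 h2 => by
    have s1 : ∀ j < g, ∑ u ∈ range g, dig μ g L j u = (if j < L then j + 1 else j) * (p - 1) :=
      fun j hj => by
        have := dig_sum (j := j) μ1 (by omega) h1 h2 1
        simp only [one_pow, mul_one, dig_zero μ1 h1 h2, sum_const, card_range, smul_eq_mul, hg] at this
        split_ifs at this ⊢
        · rw [add_one_mul]; omega
        · omega
    have s2 : ∀ j < g, J0 p (mk p g (dig μ g L j)) := fun j hj =>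
      mk_J0 p2 (fun u => by have := dig_le (j := j) μ1 h2 hj u; omega) (by split_ifs <;> omega)
        (by split_ifs <;> omega) (s1 j hj)
    obtain ⟨b, hb⟩ : ∃ b, ∀ j, vc p (mk p g (dig μ g L j)) true = b + j * d :=
      ⟨∑ u ∈ range g, dig μ g L 0 u * p ^ u, fun j => by
        have := dig_sum (j := j) μ1 (by omega) h1 h2 p
        rw [← hd, hg, Nat.sub_add_cancel (by omega)] at this
        exact (mk_sum _ _).trans (add_right_cancel this)⟩
    have b1 := J0.vc_lt p2 (s2 0 (by omega))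
    have b2 := (J0.vc_lt p2 (s2 (g - 1) (by omega))).2
    rw [hb, zero_mul, add_zero] at b1
    rw [hb, Nat.sub_one_mul] at b2
    have b3 : d ≤ g * d := Nat.le_mul_of_pos_left _ (by omega)
    have b4 : b < d := by omega
    refine ⟨b, ?_, by omega, Nat.not_dvd_of_pos_of_lt b1.1 b4, (sum_bij
      (fun j _ => mk p g (dig μ g L j)) (fun j hj => ?_) (fun i _ j _ e => ?_) (fun m hm => ?_)
      fun j hj => (hf _ _ (s2 j (mem_range.1 hj)) ?_).symm).symm⟩
    · have := val_modEq (p := p) (by omega) (range g) (dig μ g L 0) id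
      rw [s1 0 (by omega), show ∑ i ∈ range g, dig μ g L 0 i * p ^ id i = b by
        simpa using (mk_sum _ _).symm.trans (hb 0)] at this
      exact Nat.modEq_zero_iff_dvd.1 (this.trans (Nat.modEq_zero_iff_dvd.2 (Dvd.intro_left _ rfl)))
    · exact mem_filter.2 ⟨(hJ _).2 (s2 j (mem_range.1 hj)), by rw [hb, Nat.add_mul_mod_self_right]⟩
    · have := hb i
      rw [e, hb] at this
      exact Nat.eq_of_mul_eq_mul_right (by omega : 0 < d) (by omega)
    · obtain ⟨h3, h4⟩ := mem_filter.1 hm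
      have v := (J0.vc_lt p2 ((hJ _).1 h3)).2
      have lt : vc p m true / d < g := Nat.div_lt_of_lt_mul (by rw [mul_comm]; omega)
      refine ⟨_, mem_range.2 lt, J0.inj p2 (s2 _ lt) ((hJ _).1 h3) ?_⟩
      rw [hb, ← Nat.mod_eq_of_lt b4, ← h4, Nat.mod_add_div']
    · simpa [s1 j (mem_range.1 hj)] using mk_sum (p := p) (n := g) (dig μ g L j) 1
  have step : ∀ L, 1 ≤ L → L < g → f L = f 1 := fun L h1 h2 => by
    induction L, h1 using Nat.le_induction with
    | base => rfl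
    | succ L h1 ih =>
      obtain ⟨b, a1, a2, a3, a4⟩ := key L h1 (by omega)
      obtain ⟨b', b1, b2, b3, b4⟩ := key (L + 1) (by omega) h2
      have e := hS _ _ a1 b1 a2 b2 a3 b3
      rw [a4, b4, ← add_sum_erase _ _ (mem_range.2 (by omega : L < g)),
        ← add_sum_erase _ _ (mem_range.2 (by omega : L < g)), if_neg (lt_irrefl _),
        if_pos (Nat.lt_succ_self _), sum_congr rfl (g := fun j => f (if j < L + 1 then j + 1 else j))
          fun j hj => by have := (mem_erase.1 hj).1; congr 1; split_ifs <;> omega] at e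
      rw [← add_right_cancel e, ih (by omega)]
  intro m m' h h'
  obtain ⟨L, a1, a2, a3⟩ := J0.lev p2 h
  obtain ⟨L', b1, b2, b3⟩ := J0.lev p2 h'
  rw [hf m L h a3, hf m' L' h' b3, step L a1 a2, step L' b1 b2]

end H95.SG
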