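import Cfsg.Agent.H53.SGSpec

/-! Tower SG, slot NUM: carries and separation of weights. -/

set_option autoImplicit false

namespace H95.SG

open Finset H53.SG

theorem sum_zmod {M : Type*} [AddCommMonoid M] {N : ℕ} [NeZero N] (f : ZMod N → ℕ → M) :
    ∑ t, f t t.val = ∑ u ∈ range N, f u u :=
  sum_bij' (fun t _ => t.val) (fun u _ => (u : ZMod N)) (fun t _ => mem_range.2 t.val_lt)
    (fun _ _ => mem_univ _) (fun t _ => ZMod.natCast_zmod_val t)
    (fun u hu => ZMod.val_cast_of_lt (mem_range.1 hu)) fun t _ => by rw [ZMod.natCast_zmod_val]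

theorem sum_low (b N : ℕ) (A : ℕ → ℕ) :
    ∑ u ∈ range (N + 1), A u * b ^ u = A 0 + b * ∑ u ∈ range N, A (u + 1) * b ^ u := by
  rw [sum_range_succ', mul_sum, add_comm]
  simp only [pow_zero, mul_one, pow_succ, add_right_inj]
  exact sum_congr rfl fun _ _ => by ring

theorem carry {b : ℕ} (N : ℕ) (η δ : ℕ → ℕ) (a c : ℕ) (h1 : ∀ u, η u ≤ 2 * (b - 1))
    (h2 : ∀ u, δ u < b) (ha : a ≤ 1)
    (h : ∑ u ∈ range N, η u * b ^ u + a = ∑ u ∈ range N, δ u * b ^ u + c * b ^ N) :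
    ∃ w : ℕ → ℕ, w 0 = a ∧ w N = c ∧ (∀ t ≤ N, w t ≤ 1) ∧ ∀ t < N, η t + w t = δ t + b * w (t + 1) := by
  induction N generalizing η δ a with
  | zero => exact ⟨fun _ => a, rfl, by simpa using h, fun _ _ => ha, fun _ h => by omega⟩
  | succ N ih =>
    rw [sum_low, sum_low, pow_succ] at h
    generalize hX : ∑ u ∈ range N, η (u + 1) * b ^ u = X at h
    generalize hY : ∑ u ∈ range N, δ (u + 1) * b ^ u = Y at h
    have k1 := h1 0
    have k2 := h2 0
    obtain ⟨a', k3, k4⟩ : ∃ a' ≤ 1, η 0 + a = δ 0 + b * a' := by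
      have k : (η 0 + a) % b = δ 0 := by
        rw [← Nat.mod_eq_of_lt k2, ← Nat.add_mul_mod_self_left _ b X,
          ← Nat.add_mul_mod_self_left (δ 0) b (Y + c * b ^ N)]
        congr 1
        linarith
      exact ⟨(η 0 + a) / b, Nat.le_of_lt_succ (Nat.div_lt_of_lt_mul (by omega)), by
        rw [← k, Nat.mod_add_div]⟩
    obtain ⟨w, w1, w2, w3, w4⟩ := ih (fun u => η (u + 1)) (fun u => δ (u + 1)) a' (fun _ => h1 _)
      (fun _ => h2 _) k3 (Nat.eq_of_mul_eq_mul_left (by omega : 0 < b) (by rw [hX, hY]; linarith))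
    refine ⟨fun t => t.casesOn a w, rfl, w2, fun t ht => ?_, fun t ht => ?_⟩ <;> cases t
    exacts [ha, w3 _ (by omega), k4.trans (by rw [← w1]), w4 _ (by omega)]

theorem geom {b : ℕ} (hb : 1 ≤ b) (N : ℕ) : (b - 1) * ∑ u ∈ range N, b ^ u + 1 = b ^ N := by
  obtain ⟨c, rfl⟩ : ∃ c, b = c + 1 := ⟨b - 1, by omega⟩
  rw [Nat.add_sub_cancel, mul_comm]
  exact geom_sum_mul_add c N

/-- The carries for a multiple of `d = μ ∑ q ^ i`; `δ j` are the digits of `j d`. -/
theorem carry' {b N g d : ℕ} (hb : 2 ≤ b) (hd : g * d + 1 = b ^ N) (η : ℕ → ℕ) (δ : ℕ → ℕ → ℕ)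
    (h1 : ∀ u, η u ≤ 2 * (b - 1)) (h0 : ∃ u < N, η u ≠ 0) (h2 : ∀ j ≤ g, ∀ u, δ j u < b)
    (h3 : ∀ j ≤ g, ∑ u ∈ range N, δ j u * b ^ u = j * d) (h : d ∣ ∑ u ∈ range N, η u * b ^ u) :
    ∃ j, 1 ≤ j ∧ j ≤ g ∧ ∃ w : ℕ → ℕ, w N = w 0 ∧ (∀ t ≤ N, w t ≤ 1) ∧
      ∀ t < N, η t + w t = δ j t + b * w (t + 1) := by
  obtain ⟨j, hj⟩ := h
  obtain ⟨u, hu, u0⟩ := h0
  have k1 : 0 < ∑ u ∈ range N, η u * b ^ u := sum_pos' (fun _ _ => Nat.zero_le _)
    ⟨u, mem_range.2 hu, by positivity⟩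
  have k2 : ∑ u ∈ range N, η u * b ^ u ≤ d * (2 * g) := by
    have := geom (b := b) (by omega) N
    calc _ ≤ ∑ u ∈ range N, 2 * (b - 1) * b ^ u := sum_le_sum fun u _ => Nat.mul_le_mul_right _ (h1 u)
      _ = _ := by rw [← mul_sum]; linarith
  rw [hj] at k1 k2
  have k3 := Nat.le_of_mul_le_mul_left k2 (Nat.pos_of_mul_pos_right k1)
  have k4 := Nat.pos_of_mul_pos_left k1
  by_cases e : j ≤ g
  · obtain ⟨w, w1, w2, w3⟩ := carry N η (δ j) 0 0 h1 (h2 j e) (by omega) (by rw [hj, h3 j e]; ring)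
    exact ⟨j, k4, e, w, w2.trans w1.symm, w3⟩
  · obtain ⟨i, rfl⟩ : ∃ i, j = i + g := ⟨j - g, by omega⟩
    obtain ⟨w, w1, w2, w3⟩ := carry N η (δ i) 1 1 h1 (h2 i (by omega)) le_rfl
      (by rw [hj, h3 i (by omega), ← hd]; ring)
    exact ⟨i, by omega, by omega, w, w2.trans w1.symm, w3⟩

theorem sum_digits (x b k : ℕ) : ∑ s ∈ range k, x / b ^ s % b * b ^ s = x % b ^ k := by
  induction k with
  | zero => simp [Nat.mod_one]
  | succ k ih => rw [sum_range_succ, ih, Nat.mod_pow_succ, mul_comm]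

theorem sum_blocks (e n : ℕ) (F : ℕ → ℕ) :
    ∑ u ∈ range (e * n), F u = ∑ i ∈ range n, ∑ s ∈ range e, F (e * i + s) := by
  induction n with
  | zero => simp
  | succ n ih => rw [mul_add_one, sum_range_add, ih, sum_range_succ]

theorem le_val {b : ℕ} (hb : 1 ≤ b) (n : ℕ) (A : ℕ → ℕ) :
    ∑ i ∈ range n, A i ≤ ∑ i ∈ range n, A i * b ^ i ∧
      ∑ i ∈ range n, A i * b ^ i ≤ (∑ i ∈ range n, A i) * b ^ (n - 1) :=
  ⟨sum_le_sum fun i _ => Nat.le_mul_of_pos_right _ (by positivity), sum_mul _ A _ ▸ sum_le_sum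
    fun i hi => Nat.mul_le_mul_left _ (Nat.pow_le_pow_right hb (by have := mem_range.1 hi; omega))⟩

theorem uniq2 {b : ℕ} (hb : 2 ≤ b) (n : ℕ) (A B : ℕ → ℕ)
    (h1 : ∑ i ∈ range n, A i = ∑ i ∈ range n, B i) (h2 : ∑ i ∈ range n, A i ≤ 2)
    (h : ∑ i ∈ range n, A i * b ^ i = ∑ i ∈ range n, B i * b ^ i) : ∀ i < n, A i = B i := by
  induction n generalizing A B with
  | zero => exact fun _ h => by omega
  | succ n ih =>
    rw [sum_low, sum_low] at h
    rw [sum_range_succ'] at h2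
    rw [sum_range_succ', sum_range_succ'] at h1
    have k : A 0 = B 0 := by
      obtain ⟨a1, a2⟩ := le_val (b := b) (by omega) n fun i => A (i + 1)
      obtain ⟨b1, b2⟩ := le_val (b := b) (by omega) n fun i => B (i + 1)
      generalize ∑ i ∈ range n, A (i + 1) * b ^ i = X at *
      generalize ∑ i ∈ range n, B (i + 1) * b ^ i = Y at *
      generalize ∑ i ∈ range n, A (i + 1) = S at *
      generalize ∑ i ∈ range n, B (i + 1) = T at *
      rcases lt_trichotomy X Y with e | e | e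
      · have : b * (X + 1) ≤ b * Y := Nat.mul_le_mul_left _ e
        obtain rfl : S = 0 := by nlinarith
        obtain rfl : X = 0 := by simpa using a2
        nlinarith
      · rw [e] at h; omega
      · have : b * (Y + 1) ≤ b * X := Nat.mul_le_mul_left _ e
        obtain rfl : T = 0 := by nlinarith
        obtain rfl : Y = 0 := by simpa using b2
        nlinarith
    intro i hi
    cases i
    exacts [k, ih (fun i => A (i + 1)) (fun i => B (i + 1)) (by omega) (by omega)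
      (Nat.eq_of_mul_eq_mul_left (by omega : 0 < b) (by omega)) _ (by omega)]

theorem sep1 {q n : ℕ} (hq : 2 ≤ q) (hn : 3 ≤ n) (A B : ℕ → ℕ)
    (h1 : ∑ i ∈ range n, A i = ∑ i ∈ range n, B i) (h2 : ∑ i ∈ range n, A i ≤ 2)
    (h : ∑ i ∈ range n, A i * q ^ i ≡ ∑ i ∈ range n, B i * q ^ i [MOD q ^ n - 1]) :
    ∀ i < n, A i = B i := by
  refine uniq2 hq n A B h1 h2 ?_
  obtain ⟨a1, a2⟩ := le_val (b := q) (by omega) n A
  obtain ⟨b1, b2⟩ := le_val (b := q) (by omega) n B
  rw [← h1] at b1 b2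
  have k : 2 * q ^ (n - 1) ≤ q ^ n := by
    rw [show q ^ n = q * q ^ (n - 1) by rw [← pow_succ']; congr 1; omega]
    exact Nat.mul_le_mul_right _ hq
  have k2 : 2 ≤ q ^ (n - 1) := hq.trans (Nat.le_self_pow (by omega) q)
  refine h.eq_of_abs_lt (abs_sub_lt_iff.2 ?_)
  generalize ∑ i ∈ range n, A i = S at *
  interval_cases S <;> omega

theorem sepn {q n μ : ℕ} (hq : μ * n + 1 = q) (hn : 3 ≤ n) (hμ : 6 ≤ μ * (n - 1)) (A B : ℕ → ℕ)
    (h1 : ∑ i ∈ range n, A i = ∑ i ∈ range n, B i) (h2 : ∑ i ∈ range n, A i ≤ 6)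
    (h : ∑ i ∈ range n, A i * q ^ i ≡ ∑ i ∈ range n, B i * q ^ i [MOD μ * ∑ i ∈ range n, q ^ i]) :
    ∀ i < n, A i = B i := by
  have m1 : μ * (n - 1) + μ = μ * n := by rw [← mul_add_one]; congr 1; omega
  have m2 : 1 ≤ μ := Nat.pos_of_ne_zero (by rintro rfl; simp at hμ)
  have a1 : ∀ i < n, A i ≤ 6 := fun i hi =>
    (single_le_sum (fun _ _ => Nat.zero_le _) (mem_range.2 hi)).trans h2
  have b1 : ∀ i < n, B i ≤ 6 := fun i hi =>
    (single_le_sum (fun _ _ => Nat.zero_le _) (mem_range.2 hi)).trans (h1 ▸ h2)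
  have g := geom (b := q) (by omega) n
  rw [show q - 1 = μ * n by omega] at g
  let η : ℕ → ℕ := fun i => if i < n then A i + (μ * n - B i) else 0
  have e1 : ∀ i < n, η i + B i = A i + μ * n := fun i hi => by
    have := b1 i hi
    simp only [η, if_pos hi]; omega
  obtain ⟨j, j1, j2, w, w1, w2, w3⟩ := carry' (b := q) (N := n) (g := n)
    (d := μ * ∑ i ∈ range n, q ^ i) (by omega) (by linarith) η (fun j _ => μ * j)
    (fun u => by
      by_cases e : u < n
      · have := e1 u e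
        have := a1 u e
        omega
      · simp [η, e])
    ⟨0, by omega, by have := e1 0 (by omega); have := b1 0 (by omega); omega⟩
    (fun j hj _ => by have := Nat.mul_le_mul_left μ hj; omega)
    (fun j _ => by rw [← mul_sum]; ring) (by
      have e2 : ∑ i ∈ range n, η i * q ^ i + ∑ i ∈ range n, B i * q ^ i =
          μ * (∑ i ∈ range n, q ^ i) * n + ∑ i ∈ range n, A i * q ^ i := by
        rw [← sum_add_distrib, mul_right_comm, mul_sum, ← sum_add_distrib]
        exact sum_congr rfl fun i hi => by rw [← add_mul, e1 i (mem_range.1 hi)]; ring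
      exact (Nat.modEq_zero_iff_dvd).1 (Nat.ModEq.add_right_cancel h.symm (by
        rw [e2, zero_add]; exact Nat.modEq_iff_dvd.2 ⟨-n, by push_cast; ring⟩)))
  have s1 : ∑ i ∈ range n, w (i + 1) = ∑ i ∈ range n, w i := by
    have := sum_range_succ' w n
    rw [sum_range_succ] at this
    omega
  have s2 := sum_congr (rfl : range n = _) fun i hi => e1 i (mem_range.1 hi)
  have s3 := sum_congr (rfl : range n = _) fun i hi => w3 i (mem_range.1 hi)
  simp only [sum_add_distrib, sum_const, card_range, smul_eq_mul, ← mul_sum, s1] at s2 s3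
  generalize hW : ∑ i ∈ range n, w i = W at s1 s3
  have s4 : n = j + W := Nat.eq_of_mul_eq_mul_left (by omega : 0 < μ * n) (by nlinarith)
  by_cases e : ∀ i < n, w (i + 1) ≤ w i
  · have k := (sum_eq_sum_iff_of_le fun i hi => e i (mem_range.1 hi)).1 (s1.trans hW.symm)
    have k2 : ∀ i ≤ n, w i = w 0 := fun i hi => by
      induction i with
      | zero => rfl
      | succ i ih => rw [k i (mem_range.2 hi), ih (by omega)]
    rw [sum_congr rfl fun i hi => k2 i (mem_range.1 hi).le, sum_const, card_range, smul_eq_mul] at hW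
    have k3 : w 0 = 0 := by
      have := w2 0 (by omega)
      interval_cases w 0 <;> omega
    intro i hi
    have k4 := w3 i hi
    have := e1 i hi
    rw [k2 i hi.le, k2 (i + 1) hi, k3, show j = n by rw [k3] at hW; omega] at k4
    omega
  exfalso
  push Not at e
  obtain ⟨u, hu, e⟩ := e
  have k : ∑ i ∈ range n, μ * j * w (i + 1) < ∑ i ∈ range n, A i := by
    have k0 : ∀ i < n, μ * j * w (i + 1) + w (i + 1) ≤ A i + w i := fun i hi => by
      have := w3 i hi
      have := e1 i hi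
      have := w2 (i + 1) hi
      interval_cases w (i + 1) <;> omega
    refine sum_lt_sum (fun i hi => ?_) ⟨u, mem_range.2 hu, by have := k0 u hu; omega⟩
    have := k0 i (mem_range.1 hi)
    have := w2 i (mem_range.1 hi).le
    have := w2 (i + 1) (mem_range.1 hi)
    interval_cases w (i + 1) <;> omega
  rw [← mul_sum, s1] at k
  have k2 : w (u + 1) ≤ W := s1 ▸ single_le_sum (f := fun i => w (i + 1)) (fun _ _ => Nat.zero_le _)
    (mem_range.2 hu)
  have k3 : n - 1 ≤ j * W := by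
    obtain ⟨j, rfl⟩ : ∃ i, j = i + 1 := ⟨j - 1, by omega⟩
    obtain ⟨W, rfl⟩ : ∃ i, W = i + 1 := ⟨W - 1, by omega⟩
    have : (j + 1) * (W + 1) = j * W + j + W + 1 := by ring
    omega
  have := Nat.mul_le_mul_left μ k3
  rw [mul_assoc] at k
  omega

theorem cl_val {e n : ℕ} [NeZero (e * n)] (t : ZMod (e * n)) : (cl t).val = t.val % e := by
  haveI : NeZero e := ⟨left_ne_zero_of_mul (NeZero.ne (e * n))⟩
  rw [← ZMod.val_natCast, ← cl_natCast (n := n), ZMod.natCast_zmod_val]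

theorem sum_class {e n : ℕ} [NeZero (e * n)] (s : ZMod e) (α : ZMod (e * n) → ℕ)
    (h : ∀ t, α t ≠ 0 → cl t = s) (x : ℕ) : ∑ t, α t * x ^ t.val =
      x ^ s.val * ∑ i ∈ range n, α (e * i + s.val : ℕ) * (x ^ e) ^ i := by
  haveI : NeZero e := ⟨left_ne_zero_of_mul (NeZero.ne (e * n))⟩
  rw [sum_zmod fun t u => α t * x ^ u, sum_blocks, mul_sum]
  refine sum_congr rfl fun i _ => ?_
  rw [sum_eq_single_of_mem s.val (mem_range.2 s.val_lt) fun r hr h0 => ?_, pow_add, pow_mul]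
  · ring
  refine mul_eq_zero_of_left (by_contra fun e' => h0 ?_) _
  rw [← h _ e', cl_natCast, ZMod.val_natCast, Nat.mul_add_mod, Nat.mod_eq_of_lt (mem_range.1 hr)]

theorem jobNum : JobNum := by
  intro p e n g μ _ hp hg
  haveI : NeZero e := ⟨left_ne_zero_of_mul (NeZero.ne (e * n))⟩
  have p2 := hp.two_le
  have q2 : 2 ≤ p ^ e := p2.trans (Nat.le_self_pow (NeZero.ne e) p)
  have hd : g * (μ * ∑ i ∈ range n, (p ^ e) ^ i) + 1 = p ^ (e * n) := by
    rw [← mul_assoc, mul_comm g, hg, geom (by omega), pow_mul]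
  refine ⟨fun η h1 ⟨t, ht⟩ h => ?_, fun r hn hr s α β hα hβ h1 h2 h => ?_⟩
  · rw [H53.SG.val, sum_zmod fun t u => η t * p ^ u] at h
    have lt : ∀ j ≤ g, μ * j < p ^ e := fun j hj => by have := Nat.mul_le_mul_left μ hj; omega
    obtain ⟨j, j1, j2, w, w1, w2, w3⟩ := carry' p2 hd (fun u => η u)
      (fun j u => μ * j / p ^ (u % e) % p) (fun _ => h1 _) ⟨t.val, t.val_lt, by simpa using ht⟩
      (fun _ _ _ => Nat.mod_lt _ hp.pos) (fun j hj => by
        rw [sum_blocks, ← mul_assoc, mul_comm j, mul_sum]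
        refine sum_congr rfl fun i _ => ?_
        conv_rhs => rw [← Nat.mod_eq_of_lt (lt j hj), ← sum_digits, sum_mul]
        exact sum_congr rfl fun r hr => by
          rw [Nat.mul_add_mod, Nat.mod_eq_of_lt (mem_range.1 hr), pow_add, pow_mul]; ring) h
    refine ⟨fun t => μ * j / p ^ (cl t).val % p, fun t => w t.val, ⟨fun t => w2 _ t.val_lt.le,
      fun _ => Nat.mod_lt _ hp.pos, fun _ _ e => by rw [e], fun t => ?_⟩, fun g1 t => ?_⟩
    · have := w3 _ t.val_lt
      rw [ZMod.natCast_zmod_val, ← cl_val] at this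
      rw [this, show t + 1 = ((t.val + 1 : ℕ) : ZMod (e * n)) by simp, ZMod.val_natCast]
      rcases (Nat.succ_le_of_lt t.val_lt).lt_or_eq with k | k
      · rw [Nat.mod_eq_of_lt k]
      · rw [show t.val + 1 = e * n from k, Nat.mod_self, w1]
    · obtain rfl : j = g := by omega
      have k := sum_digits (μ * j) p e
      rw [Nat.mod_eq_of_lt (lt j le_rfl)] at k
      have k2 := geom (b := p) (by omega) e
      rw [mul_sum] at k2
      replace k : ∑ s ∈ range e, μ * j / p ^ s % p * p ^ s = ∑ s ∈ range e, (p - 1) * p ^ s := by omega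
      exact Nat.eq_of_mul_eq_mul_right (by positivity) ((sum_eq_sum_iff_of_le fun s _ =>
        Nat.mul_le_mul_right _ (Nat.le_sub_one_of_lt (Nat.mod_lt _ hp.pos))).1 k _
          (mem_range.2 (cl t).val_lt))
  rw [H53.SG.val, H53.SG.val, sum_class s α hα, sum_class s β hβ] at h
  replace h := Nat.ModEq.cancel_left_of_coprime (Nat.Coprime.pow_right _ (Nat.Coprime.of_dvd_left
    (Dvd.intro_left g rfl) (Nat.Coprime.of_dvd_right (dvd_pow_self p (NeZero.ne (e * n))) (by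
      rw [← hd]; simp)))) h
  have a1 := sum_class s α hα 1
  have a2 := sum_class s β hβ 1
  simp only [one_pow, mul_one, one_mul] at a1 a2
  rw [a1] at h2
  rw [a1, a2] at h1
  have key : ∀ i < n, α (e * i + s.val : ℕ) = β (e * i + s.val : ℕ) := by
    rcases hr with ⟨rfl, rfl⟩ | ⟨rfl, rfl, hμ⟩
    · refine sep1 q2 hn _ _ h1 h2 ?_
      rwa [← pow_mul, ← hd, one_mul, Nat.add_sub_cancel]
    · exact sepn (by omega) hn hμ _ _ h1 h2 h
  funext t
  by_cases e1 : cl t = s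
  · have := key (t.val / e) (Nat.div_lt_of_lt_mul t.val_lt)
    rwa [← e1, cl_val, Nat.div_add_mod, ZMod.natCast_zmod_val] at this
  · rw [not_not.1 (mt (hα t) e1), not_not.1 (mt (hβ t) e1)]

end H95.SG
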