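/- The fusion system of `SL_n(q)`, `n ≥ 3`, in defining characteristic is simple. -/
import Cfsg.Agent.H95.Polar
import Cfsg.Agent.H57.Unitri
import Cfsg.Agent.H57.SLGen
import Cfsg.Agent.H57.Transv
import Cfsg.Agent.S2579

set_option autoImplicit false
open Cfsg H92 H59 H57 Matrix Matrix.SpecialLinearGroup

namespace H95

variable {F : Type*} [Field F] {n : ℕ}

/-- The unitriangular group is generated by the elementary transvections it contains. -/
theorem unitriSL_le {T : Subgroup (SpecialLinearGroup (Fin n) F)}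
    (hT : ∀ (i j : Fin n) (h : i < j) (c : F), SpecialLinearGroup.transvection h.ne c ∈ T) :
    unitriSL n F ≤ T := by
  classical
  intro u hu
  induction hk : (Finset.univ.filter fun x : Fin n × Fin n => x.1 < x.2 ∧ u.1 x.1 x.2 ≠ 0).card
    using Nat.strong_induction_on generalizing u with | _ k ih => ?_
  by_cases h0 : (Finset.univ.filter
    fun x : Fin n × Fin n => x.1 < x.2 ∧ u.1 x.1 x.2 ≠ 0).Nonempty
  swap
  · obtain rfl : u = 1 := Subtype.ext (by
      ext i j
      rcases lt_trichotomy i j with h | rfl | h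
      · rw [Matrix.SpecialLinearGroup.coe_one, one_apply_ne h.ne]
        by_contra h1
        exact h0 ⟨(i, j), by simp [h, h1]⟩
      · simpa using hu.2 i
      · rw [Matrix.SpecialLinearGroup.coe_one, one_apply_ne h.ne']; exact hu.1 h)
    exact T.one_mem
  obtain ⟨⟨i, j⟩, hij, hmax⟩ := Finset.exists_max_image _ (fun x : Fin n × Fin n => x.2) h0
  simp only [Finset.mem_filter, Finset.mem_univ, true_and] at hij hmax
  have hrow : ∀ s, s ≠ j → u.1 j s = 0 := fun s hs => by
    rcases lt_or_gt_of_ne hs with h | h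
    · exact hu.1 h
    · by_contra h1
      exact absurd (hmax (j, s) ⟨h, h1⟩) (not_le.2 h)
  have he : ∀ r s, (SpecialLinearGroup.transvection hij.1.ne (-u.1 i j) * u).1 r s =
      if r = i ∧ s = j then 0 else u.1 r s := fun r s => by
    rw [Matrix.SpecialLinearGroup.coe_mul, transvection_coe, add_mul, one_mul, Matrix.add_apply]
    by_cases hr : r = i
    · subst hr
      rw [single_mul_apply_same]
      by_cases hs : s = j
      · subst hs; simp [show u.1 s s = 1 from hu.2 s]
      · simp [hs, hrow s hs]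
    · rw [single_mul_apply_of_ne _ _ _ _ _ hr]; simp [hr]
  refine (T.mul_mem_cancel_left (hT i j hij.1 (-u.1 i j))).1
    (ih _ (hk ▸ Finset.card_lt_card ⟨fun x hx => ?_, fun h => ?_⟩)
    (Subgroup.mul_mem _ (transvection_mem_unitriSL hij.1 (-u.1 i j)) hu) rfl)
  · simp only [Finset.mem_filter, Finset.mem_univ, true_and, he] at hx ⊢
    exact ⟨hx.1, fun h => hx.2 (by simp [h])⟩
  · have := @h (i, j) (by simpa using hij)
    simp only [Finset.mem_filter, he] at this
    simp at this

/-- elements trivial on `W` and on `V / W` -/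
def radL {V : Type*} [AddCommGroup V] [Module F V] (W : Submodule F V) :
    Subgroup (V ≃ₗ[F] V) := radW (0 : V →ₛₗ[RingHom.id F] V →ₗ[F] F) W

theorem mem_radL {V : Type*} [AddCommGroup V] [Module F V] {W : Submodule F V}
    {g : V ≃ₗ[F] V} : g ∈ radL W ↔ (∀ w ∈ W, g w = w) ∧ ∀ x, g x - x ∈ W :=
  ⟨fun h => ⟨h.2.1, fun x => h.2.2 x fun _ _ => rfl⟩,
    fun h => ⟨fun _ _ => rfl, h.1, fun x _ => h.2 x⟩⟩

/-- span of the first `k` basis vectors -/
def firstSub (F : Type*) [Field F] (n k : ℕ) : Submodule F (Fin n → F) where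
  carrier := {x | ∀ i : Fin n, k ≤ i → x i = 0}
  add_mem' ha hb i hi := by simp [ha i hi, hb i hi]
  zero_mem' _ _ := rfl
  smul_mem' c x hx i hi := by simp [hx i hi]

theorem mem_stab_first {k : ℕ} {g : SpecialLinearGroup (Fin n) F}
    (hg : ∀ i j : Fin n, k ≤ i → (j : ℕ) < k → g.1 i j = 0) :
    g ∈ (stabSub (firstSub F n k)).comap SpecialLinearGroup.toLin' :=
  mem_stabSub_iff_mapsTo.2 fun x hx i hi => by
    change ∑ j, g.1 i j * x j = 0
    refine Finset.sum_eq_zero fun j _ => ?_
    rcases le_or_gt k j with h | h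
    · rw [hx j h, mul_zero]
    · rw [hg i j hi h, zero_mul]

theorem mem_rad_first {k : ℕ} {g : SpecialLinearGroup (Fin n) F}
    (hg : ∀ i j : Fin n, k ≤ i ∨ (j : ℕ) < k → g.1 i j = (1 : Matrix (Fin n) (Fin n) F) i j) :
    g ∈ (radL (firstSub F n k)).comap SpecialLinearGroup.toLin' := by
  refine mem_radL.2 ⟨fun x hx => ?_, fun x i hi => ?_⟩
  · change g.1 *ᵥ x = x
    conv_rhs => rw [← one_mulVec x]
    ext i
    simp only [mulVec, dotProduct]
    refine Finset.sum_congr rfl fun j _ => ?_
    rcases le_or_gt k j with h | h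
    · simp [hx j h]
    · rw [hg i j (Or.inr h)]
  · change (g.1 *ᵥ x) i - x i = 0
    rw [sub_eq_zero]
    conv_rhs => rw [← one_mulVec x]
    simp only [mulVec, dotProduct]
    exact Finset.sum_congr rfl fun j _ => by rw [hg i j (Or.inl hi)]

theorem toLin'_inj : Function.Injective (SpecialLinearGroup.toLin' (n := Fin n) (R := F)) :=
  SpecialLinearGroup.toLin'_injective

theorem isSimple_sl [Fintype F] (p : ℕ) [Fact p.Prime] [CharP F p] (m : ℕ) :
    (groupFusionSystem (sylowUnitriSL (m + 3) F p :
      Subgroup (SpecialLinearGroup (Fin (m + 3)) F))).IsSimple p := by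
  have htv : ∀ (i j : Fin (m + 3)) (h : i ≠ j) (c : F), c ≠ 0 →
      IsTransvection (SpecialLinearGroup.transvection h c).1 := fun i j h c hc =>
    isTransvection_iff.2 ⟨Pi.single i c, Pi.single j 1, by simpa, by simp, by simp [h.symm], by
      rw [transvection_coe, single_eq_vecMulVec]⟩
  have hp : ∀ (i j : Fin (m + 3)) (h : i ≠ j) (c : F),
      SpecialLinearGroup.transvection h c ^ p ^ 1 = 1 := fun i j h c => by
    have : ∀ k : ℕ, SpecialLinearGroup.transvection h c ^ k =
        SpecialLinearGroup.transvection h (k * c) := fun k => by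
      induction k with
      | zero => simp [transvection_coeff_zero]
      | succ k ih => rw [pow_succ, ih, ← transvection_add]; congr 1; push_cast; ring
    rw [pow_one, this, CharP.cast_eq_zero, zero_mul, transvection_coeff_zero]
  have h01 : (0 : Fin (m + 3)) < 1 := Fin.zero_lt_one
  refine isSimple_group _ (fun h => ?_) (fun T hT hT1 => ?_) fun K hK1 _ hK g hg => ?_
  · have h1 := transvection_mem_unitriSL h01 (1 : F)
    rw [← coe_sylowUnitriSL p, h, Subgroup.mem_bot] at h1
    have := congrFun (congrFun (congrArg Subtype.val h1) 0) 1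
    simp [transvection_coe] at this
  · obtain ⟨z, hz, hz1, hz2⟩ := hT.exists_central (sylowUnitriSL (m + 3) F p).isPGroup' hT1
    obtain ⟨c, rfl⟩ := eq_transvection_of_commute_unitri (m := m + 1) (hT.1 hz) fun i j h =>
      (hz2 _ (transvection_mem_unitriSL h 1)).symm
    have hc : c ≠ 0 := fun h => by
      rw [h, transvection_coeff_zero, orderOf_one] at hz1
      exact (Fact.out : p.Prime).one_lt.ne hz1
    refine unitriSL_le fun i j h d => ?_
    by_cases hd : d = 0
    · rw [hd, transvection_coeff_zero]; exact T.one_mem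
    exact hT.mem_of_isConj hz (transvection_mem_unitriSL h d)
      (Cfsg.Agent.S2579.result (by omega) _ _ (htv _ _ _ c hc) (htv _ _ _ d hd))
  have hdiag : ∀ d : SpecialLinearGroup (Fin (m + 3)) F, (∀ i j, j < i → d.1 i j = 0) →
      ∀ s ∈ unitriSL (m + 3) F, d * s * d⁻¹ ∈ unitriSL (m + 3) F := fun d hd s hs => by
    have := conj_mem_unitriGL (g := toGL d) (u := toGL s) (fun i j h => hd i j h) hs
    rwa [← map_inv, ← map_mul, ← map_mul] at this
  have key : ∀ (k : ℕ), 0 < k → k < m + 3 → ∀ (i j : Fin (m + 3)) (h : i ≠ j),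
      ((i : ℕ) < k ↔ (j : ℕ) < k) → ∀ a (ha : a ≠ 0), diag2n h a ha ∈ K := by
    intro k hk0 hk i j h hij a ha
    have hU : unitriSL (m + 3) F ≤ (stabSub (firstSub F (m + 3) k)).comap toLin' := fun s hs =>
      mem_stab_first fun r t h1 h2 => hs.1 (show t < r from Fin.lt_def.2 (by omega))
    have hN : ∀ a ∈ (stabSub (firstSub F (m + 3) k)).comap toLin',
        ∀ r ∈ (radL (firstSub F (m + 3) k)).comap (toLin' (n := Fin (m + 3))),
        a * r * a⁻¹ ∈ (radL (firstSub F (m + 3) k)).comap toLin' := fun a ha r hr => by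
      have := conj_mem_radW (n := toLin' a) (fun _ _ => rfl) ha hr
      rwa [← map_inv, ← map_mul, ← map_mul] at this
    have ht : ∀ (r t : Fin (m + 3)) (h : r ≠ t) (c : F), ((r : ℕ) < k ↔ (t : ℕ) < k) →
        SpecialLinearGroup.transvection h c ∈
          pgen p ((stabSub (firstSub F (m + 3) k)).comap toLin') := fun r t h c h1 =>
      mem_pgen (mem_stab_first fun a b h2 h3 => by
        rw [transvection_coe, Matrix.add_apply, one_apply_ne (by rintro rfl; omega),
          single_apply_of_ne, add_zero]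
        rintro ⟨rfl, rfl⟩
        omega) (hp r t h c)
    refine hK _ _ (sylIn_le_of_norm (sylIn_top _) (isPGroup_iff_isPElt.2 fun r hr =>
      (isPElt_of_mem_radW hr).of_map toLin'_inj) le_top fun a ha => hN a (hU ha)) hU hN
      (fun s hs hc => mem_rad_first ?_) _ ?_ (hdiag _ fun r t h => by
        rw [diag2n_coe, diagonal_apply_ne _ h.ne'])
    · have h1 : ∀ r t : Fin (m + 3), (r : ℕ) < k → k ≤ t →
          s.1 * single r t 1 = single r t 1 * s.1 := fun r t h1 h2 => by
        have := congrArg Subtype.val (hc (SpecialLinearGroup.transvection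
          (show r ≠ t by rintro rfl; omega) 1) (mem_rad_first fun a b h3 => by
            rw [transvection_coe, Matrix.add_apply, single_apply_of_ne, add_zero]
            rintro ⟨rfl, rfl⟩
            omega))
        simp only [Matrix.SpecialLinearGroup.coe_mul, transvection_coe, mul_add, add_mul, mul_one,
          one_mul] at this
        exact add_left_cancel this
      intro r t h2
      by_cases hrt : r = t
      · subst hrt; rw [one_apply_eq]; exact hs.2 r
      rw [one_apply_ne hrt]
      rcases h2 with h2 | h2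
      · have := congrFun (congrFun (h1 0 r hk0 h2) 0) t
        rw [single_mul_apply_same, one_mul, mul_single_apply_of_ne _ _ _ _ _ (Ne.symm hrt)] at this
        exact this.symm
      · have := congrFun (congrFun (h1 t (Fin.last _) h2 (by simp; omega)) r) (Fin.last _)
        rwa [mul_single_apply_same, mul_one, single_mul_apply_of_ne _ _ _ _ _ hrt] at this
    · rw [diag2n_eq_prod]
      exact Subgroup.mul_mem _ (Subgroup.mul_mem _ (Subgroup.mul_mem _ (ht _ _ _ _ hij)
        (ht _ _ _ _ hij.symm)) (ht _ _ _ _ hij)) (Subgroup.mul_mem _ (Subgroup.mul_mem _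
        (ht _ _ _ _ hij) (ht _ _ _ _ hij.symm)) (ht _ _ _ _ hij))
  have hup : ∀ i j, j < i → g.1 i j = 0 := upper_of_conj_single fun r s h => by
    have h1 := (Subgroup.mem_normalizer_iff''.1 (mem_normalizer_of_finite hg) _).1
      (transvection_mem_unitriSL h (1 : F))
    refine ⟨_, fun a b h => h1.1 h, h1.2, ?_⟩
    change (SpecialLinearGroup.transvection h.ne 1 * g).1 = (g * (g⁻¹ * _ * g)).1
    rw [← mul_assoc, mul_inv_cancel_left]
  have hdet : ∏ i, g.1 i i = 1 := by
    rw [← det_of_isUpperTriangular (fun i j h => hup i j h)]; exact g.2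
  have hne : ∀ i, g.1 i i ≠ 0 := fun i =>
    (Finset.prod_ne_zero_iff (f := fun i => g.1 i i)).1 (by rw [hdet]; exact one_ne_zero) i
      (Finset.mem_univ i)
  have hD : det (diagonal fun i => (g.1 i i)⁻¹) = 1 := by
    rw [det_diagonal, Finset.prod_inv_distrib, hdet, inv_one]
  have h1 : (⟨_, hD⟩ : SpecialLinearGroup (Fin (m + 3)) F) ∈ K := by
    rw [diag_eq_diag2n_prod 1]
    refine Subgroup.noncommProd_mem K _ fun i _ => ?_
    split_ifs with hi
    · by_cases h0 : i = 0
      · exact key (m + 2) (by omega) (by omega) _ _ _ (by simp [h0]) _ _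
      · exact key 1 (by omega) (by omega) _ _ _ (by simpa using h0) _ _
    · exact K.one_mem
  have h2 : g * ⟨_, hD⟩ ∈ K := hK1 ⟨fun i j h => by
    change (g.1 * diagonal fun i => (g.1 i i)⁻¹ : Matrix _ _ F) i j = 0
    rw [mul_diagonal, hup i j h, zero_mul], fun i => by
    change (g.1 * diagonal fun i => (g.1 i i)⁻¹ : Matrix _ _ F) i i = 1
    rw [mul_diagonal, mul_inv_cancel₀ (hne i)]⟩
  exact (K.mul_mem_cancel_right h1).1 h2

end H95
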