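import Cfsg.Agent.H95.SzC
import Cfsg.Agent.H95.Five
import Cfsg.Agent.H81.Cover
/-! Subgroups of index `416` in the point stabiliser of the sporadic Suzuki group. -/
set_option autoImplicit false
set_option maxRecDepth 100000
namespace H95.SzI
open H71 H81 H88 SzZ Subgroup Pointwise

section general
variable {Γ : Type*} [Group Γ]

theorem card_le_of_cover {C : Subgroup Γ} {a : Γ} {o : ℕ} (ho : 0 < o) (ha : a ^ o = 1)
    (V : List Γ) (h : ∀ c ∈ C, ∃ v ∈ V, c * v⁻¹ ∈ zpowers a) : Nat.card C ≤ o * V.length := by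
  let f : Fin o × Fin V.length → Γ := fun x => a ^ (x.1 : ℕ) * V.get x.2
  have h1 : (C : Set Γ) ⊆ Set.range f := fun c hc => by
    obtain ⟨v, hv, hz⟩ := h c hc
    obtain ⟨j, hj, e⟩ := exists_pow_of_zpowers ho ha hz
    obtain ⟨i, rfl⟩ := List.get_of_mem hv
    exact ⟨(⟨j, hj⟩, i), by simp only [f]; rw [← e]; simp⟩
  calc Nat.card C = (C : Set Γ).ncard := (Nat.card_coe_set_eq _)
    _ ≤ (Set.range f).ncard := Set.ncard_le_ncard h1 (Set.finite_range f)
    _ ≤ Nat.card (Fin o × Fin V.length) := by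
        rw [← Nat.card_coe_set_eq]; exact Finite.card_range_le f
    _ = o * V.length := by simp

theorem card_cent_le {H : Subgroup Γ} [Finite H] {g z z' : Γ} {k : ℕ} (hg : g ∈ H)
    (e : g * z = z' ^ k * g) :
    Nat.card (centralizer {z'} ⊓ H : Subgroup Γ) ≤ Nat.card (centralizer {z} ⊓ H : Subgroup Γ) := by
  have : Finite (centralizer {z} ⊓ H : Subgroup Γ) :=
    Finite.of_injective _ (inclusion_injective inf_le_right)
  refine Nat.card_le_card_of_injective
    (fun c => (⟨g⁻¹ * c * g, ?_, H.mul_mem (H.mul_mem (H.inv_mem hg) c.2.2) hg⟩ :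
      (centralizer {z} ⊓ H : Subgroup Γ))) fun c d hcd => ?_
  · have h1 : Commute (c : Γ) (z' ^ k) :=
      (show Commute (c : Γ) z' from mem_centralizer_singleton_iff.1 c.2.1).pow_right k
    refine mem_centralizer_singleton_iff.2 ?_
    have h2 : z = g⁻¹ * z' ^ k * g := by rw [mul_assoc, ← e]; simp
    rw [h2]
    calc g⁻¹ * c * g * (g⁻¹ * z' ^ k * g) = g⁻¹ * (c * z' ^ k) * g := by group
      _ = g⁻¹ * (z' ^ k * c) * g := by rw [h1.eq]
      _ = _ := by group
  · have := congrArg Subtype.val hcd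
    exact Subtype.ext (by simpa using this)

end general

theorem p5 : π 30 ^ 5 = 1 := by
  simpa [pow_succ, mul_assoc] using one_of (w := [30, 30, 30, 30, 30]) (by decide +kernel)
theorem q5 : π 32 ^ 5 = 1 := by
  simpa [pow_succ, mul_assoc] using one_of (w := [32, 32, 32, 32, 32]) (by decide +kernel)
theorem pq : Commute (π 30) (π 32) := by
  show _ * _ = _ * _
  simpa using eq_of (u := [30, 32]) (w := [32, 30]) (by decide +kernel)

/-- a Sylow `5`-subgroup -/
noncomputable def ι : E25 →* Equiv.Perm ℕ := zz (π 30) (π 32) p5 q5 pq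

/-- the word of an element of the Sylow subgroup -/
def pw2 (a b : ℕ) : List ℕ := List.replicate a 30 ++ List.replicate b 32

theorem evw_rep (l k : ℕ) : evw π (List.replicate k l) = π l ^ k := by simp [evw]

theorem ι_eq (x : E25) : ι x = evw π (pw2 x.toAdd.1.val x.toAdd.2.val) := by
  rw [pw2, evw_append, evw_rep, evw_rep]; rfl

theorem ι_inj : Function.Injective ι := by
  refine (injective_iff_map_eq_one _).2 fun x hx => ?_
  have key : ∀ a < 5, ∀ b < 5, a = 0 ∧ b = 0 ∨
      Nat.testBit (wapp A (pw2 a b) (Nat.shiftLeft 1 2)) 2 = false := by decide +kernel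
  rcases key _ (ZMod.val_lt x.toAdd.1) _ (ZMod.val_lt x.toAdd.2) with ⟨h1, h2⟩ | h
  · rw [ZMod.val_eq_zero] at h1 h2
    exact Multiplicative.toAdd.injective (Prod.ext h1 h2)
  · exact absurd (by rw [← ι_eq, hx]; rfl) (apply_ne h)

/-- words of the six generators -/
def W (i : Fin 6) : List ℕ := pw2 (e25 i).toAdd.1.val (e25 i).toAdd.2.val
/-- letters of order five in the six centralisers -/
def U (i : Fin 6) : ℕ := 38 + 2 * i

theorem ι_W (i : Fin 6) : ι (e25 i) = evw π (W i) := ι_eq _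

theorem range_le {K : Subgroup (Equiv.Perm ℕ)} (h1 : π 30 ∈ K) (h2 : π 32 ∈ K) : ι.range ≤ K := by
  rintro _ ⟨x, rfl⟩
  exact mul_mem (pow_mem h1 _) (pow_mem h2 _)

theorem U_H (i : Fin 6) : π (U i) ∈ H1 := new_H _ (by revert i; decide)

theorem U_comm (i : Fin 6) : Commute (π (U i)) (ι (e25 i)) := by
  have key : ∀ i : Fin 6, isId A 11 1792 ((U i :: W i) ++ winv 54 (W i ++ [U i])) = true := by
    decide +kernel
  have := eq_of (key i)
  rw [ι_W]
  show _ * _ = _ * _
  simpa using this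

theorem U_pow (i : Fin 6) : π (U i) ^ 5 = 1 := by
  have key : ∀ i : Fin 6, isId A 11 1792 (List.replicate 5 (U i)) = true := by decide +kernel
  rw [← evw_rep]; exact one_of (key i)

theorem U_not (i : Fin 6) : π (U i) ∉ ι.range := by
  rintro ⟨x, hx⟩
  have key : ∀ i : Fin 6, ∀ a < 5, ∀ b < 5,
      Nat.beq (wapp A (pw2 a b) 4) (wapp A [U i] 4) = false := by decide +kernel
  exact ne_of (key i _ (ZMod.val_lt x.toAdd.1) _ (ZMod.val_lt x.toAdd.2))
    (by rw [← ι_eq, hx]; simp)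

theorem cent_p : Nat.card (centralizer {π 30} ⊓ H1 : Subgroup (Equiv.Perm ℕ)) ≤ 300 := by
  have h := card_le_of_cover (C := centralizer {π 30} ⊓ H1) (by norm_num : 0 < 5) p5
    (SzC.Vp.map ev) fun c hc => by
      have e : SzC.lnp.p = π 30 := (pi_net 30).symm
      obtain ⟨v, hv, h⟩ := SzC.centp c hc.2 (by
        rw [e]; exact mem_centralizer_singleton_iff.1 hc.1)
      exact ⟨_, List.mem_map_of_mem hv, e ▸ h⟩
  have hl : (SzC.Vp.map ev).length = 60 := by rw [List.length_map]; rfl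
  rw [hl] at h
  exact h

theorem cent_r : Nat.card (centralizer {π 36} ⊓ H1 : Subgroup (Equiv.Perm ℕ)) ≤ 300 := by
  have r5 : π 36 ^ 5 = 1 := by rw [← evw_rep]; exact one_of (by decide +kernel)
  have h := card_le_of_cover (C := centralizer {π 36} ⊓ H1) (by norm_num : 0 < 5) r5
    (SzC.Vr.map ev) fun c hc => by
      have e : SzC.lnr.p = π 36 := (pi_net 36).symm
      obtain ⟨v, hv, h⟩ := SzC.centr c hc.2 (by
        rw [e]; exact mem_centralizer_singleton_iff.1 hc.1)
      exact ⟨_, List.mem_map_of_mem hv, e ▸ h⟩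
  have hl : (SzC.Vr.map ev).length = 60 := by rw [List.length_map]; rfl
  rw [hl] at h
  exact h

theorem cent_step {u w : List ℕ} {k : ℕ}
    (h : isId A 11 1792 ((34 :: u) ++ winv 54 (pw w k ++ [34])) = true) :
    Nat.card (centralizer {evw π w} ⊓ H1 : Subgroup (Equiv.Perm ℕ)) ≤
      Nat.card (centralizer {evw π u} ⊓ H1 : Subgroup (Equiv.Perm ℕ)) := by
  refine card_cent_le (k := k) (new_H 34 (by decide)) ?_
  have := eq_of h
  rw [evw_append, evw_pw] at this
  simpa using this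

theorem cent_all (i : Fin 6) :
    Nat.card (centralizer {ι (e25 i)} ⊓ H1 : Subgroup (Equiv.Perm ℕ)) ≤ 300 := by
  have h0 : Nat.card (centralizer {evw π (W 0)} ⊓ H1 : Subgroup (Equiv.Perm ℕ)) ≤ 300 := by
    have : evw π (W 0) = π 30 := by
      simpa using eq_of (u := W 0) (w := [30]) (by decide +kernel)
    rw [this]; exact cent_p
  have h3 : Nat.card (centralizer {evw π (W 3)} ⊓ H1 : Subgroup (Equiv.Perm ℕ)) ≤ 300 := by
    have : evw π (W 3) = π 36 := by
      simpa using eq_of (u := W 3) (w := [36]) (by decide +kernel)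
    rw [this]; exact cent_r
  have h1 := (cent_step (u := W 0) (w := W 1) (k := 1) (by decide +kernel)).trans h0
  have h2 := (cent_step (u := W 1) (w := W 2) (k := 4) (by decide +kernel)).trans h1
  have h4 := (cent_step (u := W 3) (w := W 4) (k := 3) (by decide +kernel)).trans h3
  have h5 := (cent_step (u := W 4) (w := W 5) (k := 2) (by decide +kernel)).trans h4
  rw [ι_W]
  fin_cases i
  exacts [h0, h1, h2, h3, h4, h5]

theorem no13 {M : Subgroup (Equiv.Perm ℕ)} (hc : Nat.card M = 604800) {w : List ℕ}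
    (hw : evw π w ∈ M) (h1 : isId A 11 1792 (pw w 13) = true)
    (h2 : Nat.testBit (wapp A w (Nat.shiftLeft 1 1)) 1 = false) : False := by
  have := Fact.mk (by norm_num : Nat.Prime 13)
  have ho : orderOf (evw π w) = 13 :=
    orderOf_eq_prime (by rw [← evw_pw]; exact one_of h1) fun e => apply_ne h2 (by rw [e]; rfl)
  have := orderOf_dvd_natCard M hw
  rw [ho, hc] at this
  norm_num at this

theorem eq_J {M : Subgroup (Equiv.Perm ℕ)} (hM : M ≤ H1) (hc : Nat.card M = 604800)
    (hP : ι.range ≤ M) : M = J1 := by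
  have hfin : Finite M := Nat.finite_of_card_ne_zero (by rw [hc]; norm_num)
  obtain ⟨s, hs, h⟩ := five_local (H := H1) ι_inj (by rw [card_H]; norm_num)
    (by rw [card_H]; norm_num) cent_all
    (fun i => ⟨_, U_H i, U_comm i, U_pow i, U_not i⟩) hM hc hP
  have hU : ∀ i ∈ s, π (U i) ∈ M := fun i hi => h i hi _ (U_H i) (U_comm i) (U_pow i)
  have hp : π 30 ∈ M := hP ⟨e25 0, by
    rw [ι_W]; simpa using eq_of (u := W 0) (w := [30]) (by decide +kernel)⟩
  have hq : π 32 ∈ M := hP ⟨e25 1, by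
    rw [ι_W]; simpa using eq_of (u := W 1) (w := [32]) (by decide +kernel)⟩
  have fin : J1 ≤ M → M = J1 := fun hle =>
    (Subgroup.eq_of_le_of_card_ge hle (by rw [hc, card_J])).symm
  have two : ∀ {a b : ℕ}, π a ∈ M → π b ∈ M → linv 54 (a + 1) = a → linv 54 (b + 1) = b →
      ∀ l ∈ [30, 31, 32, 33, a, a + 1, b, b + 1], π l ∈ M := fun ha hb e1 e2 l hl => by
    simp only [List.mem_cons, List.not_mem_nil, or_false] at hl
    rcases hl with rfl | rfl | rfl | rfl | rfl | rfl | rfl | rfl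
    exacts [hp, inv_mem' hp, hq, inv_mem' hq, ha, inv_mem' (e1.symm ▸ ha), hb,
      inv_mem' (e2.symm ▸ hb)]
  have cases : ∀ s : Finset (Fin 6), 3 ≤ s.card → (0 ∈ s ∧ 1 ∈ s) ∨ (0 ∈ s ∧ 2 ∈ s) ∨
      (1 ∈ s ∧ 2 ∈ s) ∨ (3 ∈ s ∧ 4 ∈ s) ∨ (3 ∈ s ∧ 5 ∈ s) ∨ (4 ∈ s ∧ 5 ∈ s) := by decide +kernel
  rcases cases s hs with ⟨a, b⟩ | ⟨a, b⟩ | ⟨a, b⟩ | ⟨a, b⟩ | ⟨a, b⟩ | ⟨a, b⟩
  · exact fin (J_le_of okJ0 rfl (two (a := 38) (b := 40) (hU _ a) (hU _ b) rfl rfl))
  · exact fin (J_le_of okJ1 rfl (two (a := 38) (b := 42) (hU _ a) (hU _ b) rfl rfl))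
  · exact fin (J_le_of okJ2 rfl (two (a := 40) (b := 42) (hU _ a) (hU _ b) rfl rfl))
  · exact (no13 hc (w := [46, 44, 30])
      (mul_mem (hU _ b) (mul_mem (hU _ a) (mul_mem hp (one_mem _)))) (by decide +kernel)
      (by decide +kernel)).elim
  · exact (no13 hc (w := [49, 44, 30])
      (mul_mem (inv_mem' (l := 49) (hU _ b)) (mul_mem (hU _ a) (mul_mem hp (one_mem _))))
      (by decide +kernel) (by decide +kernel)).elim
  · exact (no13 hc (w := [48, 46, 30])
      (mul_mem (hU _ b) (mul_mem (hU _ a) (mul_mem hp (one_mem _)))) (by decide +kernel)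
      (by decide +kernel)).elim

/-- **Subgroups of index `416`** of the point stabiliser are conjugate to `J1`. -/
theorem index416 {M : Subgroup (Equiv.Perm ℕ)} (hM : M ≤ H1) (hc : Nat.card M = 604800) :
    ∃ g ∈ H1, MulAut.conj g • M = J1 := by
  have hfin : Finite M := Nat.finite_of_card_ne_zero (by rw [hc]; norm_num)
  have := Fact.mk (by norm_num : Nat.Prime 5)
  obtain ⟨Q, hQ⟩ := Sylow.exists_subgroup_card_pow_prime (G := M) 5 (n := 2)
    (by rw [hc]; norm_num)
  have hP : ι.range ∈ Syl H1 :=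
    range_syl ι_inj (range_le (new_H 30 (by decide)) (new_H 32 (by decide)))
  have hQ' : Q.map M.subtype ∈ Syl H1 :=
    ⟨(map_subtype_le Q).trans hM, by
      rw [card_map_of_injective M.subtype_injective, hQ]; rfl⟩
  obtain ⟨g, hg, e⟩ := syl_conj (by rw [card_H]; norm_num) hQ' hP
  refine ⟨g, hg, eq_J ?_ ?_ ?_⟩
  · intro x hx
    rw [mem_pointwise_smul_iff_inv_smul_mem] at hx
    have h1 : g⁻¹ * x * g ∈ H1 := by simpa using hM hx
    have := mul_mem (mul_mem hg h1) (inv_mem hg)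
    simpa [mul_assoc] using this
  · rw [← hc]
    exact Nat.card_congr (equivSMul (MulAut.conj g) M).symm.toEquiv
  · rw [← e]
    exact pointwise_smul_le_pointwise_smul_iff.2 (map_subtype_le Q)

end H95.SzI
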