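import Cfsg.Agent.H95.SzI
import Cfsg.Agent.H95.SzO
import Cfsg.Agent.H95.Suz3L
/-! Recognition of the sporadic Suzuki group from its rank three action. -/
set_option autoImplicit false
set_option maxRecDepth 100000
namespace H95.SzM
open H71 H81 H88 SzZ Subgroup Pointwise

section general

theorem aut_of_norm {J G : Type*} [Group J] [Group G] [Finite J] {ψ : J →* G}
    (hψ : Function.Injective ψ) {s : G} (h : ∀ z, s * ψ z * s⁻¹ ∈ ψ.range) :
    ∃ σ : MulAut J, ∀ z, ψ (σ z) = s * ψ z * s⁻¹ := by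
  let χ : J →* G := (MulAut.conj s).toMonoidHom.comp ψ
  let φ : J →* J := (MonoidHom.ofInjective hψ).symm.toMonoidHom.comp (χ.codRestrict _ h)
  have hφ : ∀ g, ψ (φ g) = s * ψ g * s⁻¹ := fun g =>
    MonoidHom.apply_ofInjective_symm hψ ⟨χ g, h g⟩
  have hi : Function.Injective φ := fun a b e => by
    have := congrArg ψ e
    rw [hφ, hφ] at this
    exact hψ (by simpa using this)
  exact ⟨MulEquiv.ofBijective φ (Finite.injective_iff_bijective.1 hi), hφ⟩

theorem equiv_of_pair {D G X : Type*} [Group D] [Group G] [Group X] [Finite D] [Finite G]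
    [IsSimpleGroup X] (f : D →* G) (g : D →* X) (hg : Function.Surjective g)
    (hfg : ∀ d, f d = 1 → g d = 1 → d = 1) (hc : Nat.card G = Nat.card X)
    (hD : Nat.card D ≤ 3 * Nat.card X) (h4 : 4 ≤ Nat.card f.range) : Nonempty (G ≃* X) := by
  have hX : Finite X := Finite.of_surjective g hg
  rcases (Subgroup.Normal.map (MonoidHom.normal_ker f) g hg).eq_bot_or_eq_top with h | h
  · have hf : Function.Injective f := (injective_iff_map_eq_one f).2 fun d hd =>
      hfg d hd (by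
        have : g d ∈ f.ker.map g := ⟨d, hd, rfl⟩
        rwa [h, mem_bot] at this)
    have h1 : Nat.card D ≤ Nat.card G := Nat.card_le_card_of_injective f hf
    have h2 : Nat.card X ≤ Nat.card D := Nat.card_le_card_of_surjective g hg
    exact ⟨(MulEquiv.ofBijective f (hf.bijective_of_nat_card_le (by omega))).symm.trans
      (MulEquiv.ofBijective g (hg.bijective_of_nat_card_le (by omega)))⟩
  · exfalso
    have h1 : Nat.card X ≤ Nat.card f.ker := by
      rw [← card_top (G := X), ← h]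
      exact Nat.card_le_card_of_surjective _ (g.subgroupMap_surjective f.ker)
    have h2 := f.ker.card_mul_index
    rw [index_ker] at h2
    have h3 : 0 < Nat.card X := Nat.card_pos
    have h5 : Nat.card X * 4 ≤ Nat.card f.ker * Nat.card f.range := Nat.mul_le_mul h1 h4
    omega

end general

/-- an element of order seven -/
noncomputable def Y : H1 := ⟨π 50, new_H _ (by decide)⟩
/-- an element of order three -/
noncomputable def E : H1 := ⟨π 14, new_H _ (by decide)⟩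
/-- an involution interchanging the points `1` and `2` -/
noncomputable def Z : H1 := ⟨π 26, new_H _ (by decide)⟩

theorem y7 : π 50 ^ 7 = 1 := by rw [← SzI.evw_rep]; exact one_of (by decide +kernel)
theorem Y7 : Y ^ 7 = 1 := Subtype.ext y7
theorem Y_ne : Y ≠ 1 := fun h => apply_ne (w := [50]) (i := 4) (j := 4) (by decide +kernel) (by
  have : π 50 = 1 := congrArg Subtype.val h
  simp [this])
theorem Y1 : (Y : Equiv.Perm ℕ) 1 = 1 := fixes (l := 50) (by decide +kernel)
theorem Y2 : (Y : Equiv.Perm ℕ) 2 = 2 := fixes (l := 50) (by decide +kernel)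
theorem E1 : (E : Equiv.Perm ℕ) 1 = 1 := fixes (l := 14) (by decide +kernel)
theorem E2 : (E : Equiv.Perm ℕ) 2 = 2 := fixes (l := 14) (by decide +kernel)
theorem Z1 : (Z : Equiv.Perm ℕ) 1 = 2 := fixes (l := 26) (by decide +kernel)
theorem Z2 : (Z : Equiv.Perm ℕ) 2 = 1 := fixes (l := 26) (by decide +kernel)
theorem ZZ : Z * Z = 1 := 
  Subtype.ext (by simpa [Z] using one_of (w := [26, 26]) (by decide +kernel))
theorem T0 : π 28 0 = 1 := fixes (by decide +kernel)
theorem T1 : π 28 1 = 0 := fixes (by decide +kernel)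
theorem T2 : π 28 2 = 2 := fixes (by decide +kernel)
theorem TT : π 28 * π 28 = 1 := by simpa using one_of (w := [28, 28]) (by decide +kernel)
theorem ZT : ((Z : Equiv.Perm ℕ) * π 28) ^ 3 = 1 := by
  simpa [pow_succ, mul_assoc, Z] using one_of (w := [26, 28, 26, 28, 26, 28]) (by decide +kernel)

theorem fix_YE (h : H1) (h1 : (Y : Equiv.Perm ℕ) (h.1 1) = h.1 1)
    (h2 : (E : Equiv.Perm ℕ) (h.1 1) = h.1 1) : h.1 1 = 1 ∨ h.1 1 = 2 := by
  have hm : h.1 1 ∈ Set.Ico 1 417 := orb_H ▸ ⟨h.1, h.2, rfl⟩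
  have key : allLt (fun i => Nat.ble i 2 ||
      (!Nat.testBit (wapp A [50] (Nat.shiftLeft 1 i)) i ||
        !Nat.testBit (wapp A [14] (Nat.shiftLeft 1 i)) i)) 417 = true := by decide +kernel
  have := of_allLt key _ hm.2
  simp only [Bool.or_eq_true, Nat.ble_eq, Bool.not_eq_true'] at this
  rcases this with h3 | h3 | h3
  · have := hm.1; omega
  · exact absurd (by simpa [Y] using h1) (apply_ne h3)
  · exact absurd (by simpa [E] using h2) (apply_ne h3)

theorem cent_Y (g : H1) (hg : g * Y = Y * g) : ∃ j < 7,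
    ∃ w ∈ [[], [52, 52], [52, 50, 50, 50, 50]], g.1 = evw π (List.replicate j 50 ++ w) := by
  have e : SzC.lny.p = π 50 := (pi_net 50).symm
  have e' : SzC.lnv.p = π 52 := (pi_net 52).symm
  obtain ⟨v, hv, h⟩ := SzC.centy g.1 g.2 (by rw [e]; exact congrArg Subtype.val hg)
  rw [e] at h
  obtain ⟨j, hj, h⟩ := exists_pow_of_zpowers (by norm_num) y7 h
  rw [mul_inv_eq_iff_eq_mul] at h
  have hV : SzC.Vy = [[], [SzC.lnv, SzC.lnv], [SzC.lnv, SzC.lny, SzC.lny, SzC.lny, SzC.lny]] := rfl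
  rw [hV] at hv
  simp only [List.mem_cons, List.not_mem_nil, or_false] at hv
  refine ⟨j, hj, ?_⟩
  rcases hv with rfl | rfl | rfl
  · exact ⟨[], by simp, by rw [h, evw_append, SzI.evw_rep]; rfl⟩
  · exact ⟨[52, 52], by simp, by rw [h, evw_append, SzI.evw_rep]; simp [e']⟩
  · exact ⟨[52, 50, 50, 50, 50], by simp, by rw [h, evw_append, SzI.evw_rep]; simp [e, e']⟩

theorem cent_swap (g : H1) (hg : g * Y = Y * g) (h1 : g.1 1 = 2) (h2 : g.1 2 = 1) : False := by
  obtain ⟨j, hj, w, hw, e⟩ := cent_Y g hg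
  have key : ∀ j < 7, ∀ w ∈ [[], [52, 52], [52, 50, 50, 50, 50]],
      Nat.testBit (wapp A (List.replicate j 50 ++ w) (Nat.shiftLeft 1 1)) 2 = false ∨
      Nat.testBit (wapp A (List.replicate j 50 ++ w) (Nat.shiftLeft 1 2)) 1 = false := by
    decide +kernel
  rcases key j hj w hw with h | h
  · exact apply_ne h (e ▸ h1)
  · exact apply_ne h (e ▸ h2)

theorem cent_triv (g : H1) (hg : g * Y = Y * g) (hg' : g * E = E * g) (h1 : g.1 1 = 1) :
    g = 1 := by
  obtain ⟨j, hj, w, hw, e⟩ := cent_Y g hg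
  have key : ∀ j < 7, ∀ w ∈ [[], [52, 52], [52, 50, 50, 50, 50]], (j = 0 ∧ w = []) ∨
      Nat.testBit (wapp A (List.replicate j 50 ++ w) (Nat.shiftLeft 1 1)) 1 = false ∨
      Nat.beq (wapp A ((List.replicate j 50 ++ w) ++ [14]) 8)
        (wapp A (14 :: (List.replicate j 50 ++ w)) 8) = false := by
    decide +kernel
  rcases key j hj w hw with ⟨rfl, rfl⟩ | h | h
  · exact Subtype.ext e
  · exact absurd (e ▸ h1) (apply_ne h)
  · refine absurd ?_ (ne_of h)
    rw [evw_append, evw_cons, evw_cons, ← e]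
    simpa [E] using congrArg Subtype.val hg'

theorem conj_β {β : Equiv.Perm ℕ} (hβ : β = 1 ∨ β = π 28) (w : H1) (h1 : w.1 1 = 1) :
    ∃ z : H1, z.1 = β * w * β⁻¹ ∧ w.1 = β * z * β⁻¹ ∧ z.1 1 = 1 ∧ (w.1 2 = 2 → z.1 2 = 2) := by
  rcases hβ with rfl | rfl
  · exact ⟨w, by simp, by simp, h1, id⟩
  · have hi : (π 28)⁻¹ = π 28 := inv_eq_of_mul_eq_one_right TT
    have h0 : w.1 0 = 0 := w.2.1
    refine ⟨⟨π 28 * w * (π 28)⁻¹, ?_, S.mul_mem (S.mul_mem t_S w.2.2) (S.inv_mem t_S)⟩, rfl, ?_, ?_, ?_⟩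
    · exact mem_st.2 (by simp [hi, T0, T1, h1])
    · show _ = π 28 * (π 28 * w * (π 28)⁻¹) * (π 28)⁻¹
      rw [← mul_assoc, ← mul_assoc, TT, one_mul, mul_assoc, hi, TT, mul_one]
    · simp [hi, T0, T1, h0]
    · intro h2; simp [hi, T2, h2]

/-- the setting: a group acting with point stabiliser `H1` -/
structure Ctx {G Ω : Type*} [Group G] [MulAction G Ω] (φ : H1 →* G) (a b : Ω) : Prop where
  inj : Function.Injective φ
  sa : ∀ g : G, g • a = a ↔ g ∈ φ.range
  sb : ∀ h : H1, φ h • b = b ↔ h.1 1 = 1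
  tri : ∀ x, ∀ h : H1, h ^ 7 = 1 → h ≠ 1 → φ h • x = x → x = a ∨ ∃ k, x = φ k • b
  ex : ∃ g : G, g • a = b

section ctx
variable {G Ω : Type*} [Group G] [MulAction G Ω] {φ : H1 →* G} {a b : Ω}

theorem Ctx.fa (C : Ctx φ a b) (h : H1) : φ h • a = a := (C.sa _).2 ⟨h, rfl⟩

theorem Ctx.eq_iff (C : Ctx φ a b) (h k : H1) : φ h • b = φ k • b ↔ h.1 1 = k.1 1 := by
  rw [← inv_smul_eq_iff, ← mul_smul, ← map_inv, ← map_mul, eq_comm, eq_comm (a := b), C.sb,
    Subgroup.coe_mul, Equiv.Perm.mul_apply, Subgroup.coe_inv, Equiv.Perm.inv_eq_iff_eq, eq_comm]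

theorem Ctx.ne (C : Ctx φ a b) : b ≠ a := fun e => by
  have := (C.sb Z).1 (e ▸ C.fa Z)
  rw [Z1] at this
  omega

theorem Ctx.swap (C : Ctx φ a b) : ∃ t : G, t • a = b ∧ t • b = a := by
  obtain ⟨g, hg⟩ := C.ex
  obtain ⟨h, hh⟩ := (C.sa (g⁻¹ * φ Y * g)).1 (by
    rw [mul_smul, mul_smul, hg, (C.sb Y).2 Y1, ← hg, inv_smul_smul])
  have h7 : h ^ 7 = 1 := C.inj (by
    rw [map_pow, hh, map_one, show g⁻¹ * φ Y * g = g⁻¹ * φ Y * g⁻¹⁻¹ by simp, conj_pow, ← map_pow,
      Y7]; simp)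
  have h1 : h ≠ 1 := fun e => Y_ne (C.inj (by
    rw [e, map_one, eq_comm, mul_assoc, inv_mul_eq_one, eq_comm, mul_eq_right] at hh
    rw [hh, map_one]))
  rcases C.tri (g⁻¹ • a) h h7 h1 (by
    rw [hh, mul_smul, mul_smul, smul_inv_smul, C.fa]) with e | ⟨k, e⟩
  · exact absurd (by rw [← hg, ← e, smul_inv_smul]; exact e.symm) C.ne
  · exact ⟨g * φ k, by rw [mul_smul, C.fa, hg], by rw [mul_smul, ← e, smul_inv_smul]⟩

theorem Ctx.norm (C : Ctx φ a b) : ∃ t : G, t • a = b ∧ t • b = a ∧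
    ∃ β : Equiv.Perm ℕ, (β = 1 ∨ β = π 28) ∧
      ∀ z z' : H1, z.1 1 = 1 → z'.1 = β * z * β⁻¹ → t * φ z * t⁻¹ = φ z' := by
  obtain ⟨t, h1, h2⟩ := C.swap
  let ψ : J1 →* G := φ.comp (inclusion inf_le_right)
  obtain ⟨σ, hσ⟩ := aut_of_norm (ψ := ψ) (C.inj.comp (inclusion_injective _)) (s := t) fun z => by
    have hb : ψ z • b = b := (C.sb _).2 z.2.1
    have ha : ψ z • a = a := C.fa _
    obtain ⟨h, hh⟩ := (C.sa (t * ψ z * t⁻¹)).1 (by
      rw [mul_smul, mul_smul, ← h2, inv_smul_smul, hb])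
    have : φ h • b = b := by
      rw [hh, mul_smul, mul_smul, ← h1, inv_smul_smul, ha]
    exact ⟨⟨h.1, (C.sb h).1 this, h.2⟩, hh⟩
  have key : ∃ g ∈ J1, ∃ β : Equiv.Perm ℕ, (β = 1 ∨ β = π 28) ∧
      ∀ z : J1, ((σ z : J1) : Equiv.Perm ℕ) = g * β * z * (g * β)⁻¹ := by
    obtain ⟨g, hg, h | h⟩ := SzO.autJ σ
    · exact ⟨g, hg, 1, Or.inl rfl, by simpa using h⟩
    · exact ⟨g, hg, _, Or.inr rfl, h⟩
  obtain ⟨g, hg, β, hβ, h⟩ := key
  let g' : H1 := ⟨g, hg.2⟩
  refine ⟨(φ g')⁻¹ * t, ?_, ?_, β, hβ, fun z z' hz e => ?_⟩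
  · rw [mul_smul, h1, inv_smul_eq_iff, (C.sb g').2 hg.1]
  · rw [mul_smul, h2, inv_smul_eq_iff, C.fa]
  · have e1 := hσ ⟨z.1, hz, z.2⟩
    have e2 := h ⟨z.1, hz, z.2⟩
    have e3 : inclusion inf_le_right (σ ⟨z.1, hz, z.2⟩) = g' * z' * g'⁻¹ := Subtype.ext (by
      rw [coe_inclusion, e2, Subgroup.coe_mul, Subgroup.coe_mul, Subgroup.coe_inv, e]
      simp only [g']; group)
    have e4 : φ g' * φ z' * (φ g')⁻¹ = t * φ z * t⁻¹ := by
      rw [← map_inv, ← map_mul, ← map_mul, ← e3]; exact e1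
    calc _ = (φ g')⁻¹ * (t * φ z * t⁻¹) * φ g' := by group
      _ = _ := by rw [← e4]; group

theorem Ctx.fc (C : Ctx φ a b) (z : H1) : φ z • φ Z • b = φ Z • b ↔ z.1 2 = 2 := by
  rw [← mul_smul, ← map_mul, C.eq_iff, Subgroup.coe_mul, Equiv.Perm.mul_apply, Z1]

theorem Ctx.fix_c (C : Ctx φ a b) {t : G} (h1 : t • a = b) (h2 : t • b = a) {β : Equiv.Perm ℕ}
    (hβ : β = 1 ∨ β = π 28)
    (h : ∀ z z' : H1, z.1 1 = 1 → z'.1 = β * z * β⁻¹ → t * φ z * t⁻¹ = φ z') :
    t • φ Z • b = φ Z • b := by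
  have key : ∀ w : H1, w.1 1 = 1 → w.1 2 = 2 → φ w • t • φ Z • b = t • φ Z • b := fun w w1 w2 => by
    obtain ⟨z, -, e, z1, z2⟩ := conj_β hβ w w1
    rw [← h z w z1 e, mul_smul, mul_smul, inv_smul_smul, (C.fc z).2 (z2 w2)]
  rcases C.tri _ Y Y7 Y_ne (key Y Y1 Y2) with e | ⟨k, e⟩
  · rw [← h2, smul_left_cancel_iff, C.sb, Z1] at e
    omega
  · have f : ∀ w : H1, w.1 1 = 1 → w.1 2 = 2 → w.1 (k.1 1) = k.1 1 := fun w w1 w2 => by
      have := key w w1 w2
      rwa [e, ← mul_smul, ← map_mul, C.eq_iff] at this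
    rcases fix_YE k (f Y Y1 Y2) (f E E1 E2) with e' | e'
    · rw [(C.sb k).2 e'] at e
      have : φ Z • b = a := (smul_left_cancel_iff t).1 (e.trans h1.symm)
      rw [← C.fa Z, smul_left_cancel_iff] at this
      exact absurd this C.ne
    · rw [e, C.eq_iff, e', Z1]

theorem Ctx.rels (C : Ctx φ a b) : ∃ t : G, t * t = 1 ∧ (φ Z * t) ^ 3 = 1 ∧
    ∀ z z' : H1, z.1 1 = 1 → z'.1 = π 28 * z * (π 28)⁻¹ → t * φ z * t⁻¹ = φ z' := by
  obtain ⟨t, h1, h2, β, hβ, h⟩ := C.norm
  have h3 := C.fix_c h1 h2 hβ h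
  have hZ : φ Z • φ Z • b = b := by rw [← mul_smul, ← map_mul, ZZ, map_one, one_smul]
  -- the cube of `φ Z * t`
  have m1 : (φ Z * t) • a = φ Z • b := by rw [mul_smul, h1]
  have m2 : (φ Z * t) • b = a := by rw [mul_smul, h2, C.fa]
  have m3 : (φ Z * t) • φ Z • b = b := by rw [mul_smul, h3, hZ]
  obtain ⟨u, hu⟩ := (C.sa ((φ Z * t) ^ 3)).1 (by
    rw [pow_succ, pow_two, mul_smul, mul_smul, m1, m3, m2])
  have u1 : u.1 1 = 1 := (C.sb u).1 (by rw [hu, pow_succ, pow_two, mul_smul, mul_smul, m2, m1, m3])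
  have u2 : u.1 2 = 2 := (C.fc u).1 (by rw [hu, pow_succ, pow_two, mul_smul, mul_smul, m3, m2, m1])
  have step : ∀ w : H1, w.1 1 = 1 → w.1 2 = 2 → ∃ w' : H1, w'.1 1 = 1 ∧ w'.1 2 = 2 ∧
      w'.1 = (Z * β) * w * (Z * β)⁻¹ ∧ (φ Z * t) * φ w * (φ Z * t)⁻¹ = φ w' := fun w w1 w2 => by
    obtain ⟨z, e, -, z1, z2⟩ := conj_β hβ w w1
    have hi : Z⁻¹ = Z := inv_eq_of_mul_eq_one_right ZZ
    refine ⟨Z * z * Z⁻¹, ?_, ?_, ?_, ?_⟩
    · simp [hi, Z1, Z2, z2 w2]
    · simp [hi, Z1, Z2, z1]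
    · rw [Subgroup.coe_mul, Subgroup.coe_mul, Subgroup.coe_inv, e]; group
    · rw [map_mul, map_mul, map_inv, ← h w z w1 e]; group
  have cube : ∀ w : H1, w.1 1 = 1 → w.1 2 = 2 →
      u.1 * w * u.1⁻¹ = (Z * β) ^ 3 * w * ((Z * β) ^ 3)⁻¹ := fun w w1 w2 => by
    obtain ⟨w', a1, a2, a3, a4⟩ := step w w1 w2
    obtain ⟨w'', b1, b2, b3, b4⟩ := step w' a1 a2
    obtain ⟨w''', -, -, c3, c4⟩ := step w'' b1 b2
    have : u * w * u⁻¹ = w''' := C.inj (by
      rw [map_mul, map_mul, map_inv, hu, ← c4, ← b4, ← a4, pow_succ, pow_two]; group)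
    have := congrArg Subtype.val this
    rw [Subgroup.coe_mul, Subgroup.coe_mul, Subgroup.coe_inv] at this
    rw [this, c3, b3, a3, pow_succ, pow_two]; group
  rcases hβ with rfl | rfl
  · exfalso
    have hz : (Z : Equiv.Perm ℕ) * Z = 1 := congrArg Subtype.val ZZ
    have hy := cube Y Y1 Y2
    rw [mul_one, pow_succ, pow_two, hz, one_mul] at hy
    refine cent_swap (u⁻¹ * Z) (Subtype.ext ?_) ?_ ?_
    · simp only [Subgroup.coe_mul, Subgroup.coe_inv]
      calc _ = u.1⁻¹ * ((Z : Equiv.Perm ℕ) * Y * (Z : Equiv.Perm ℕ)⁻¹) * Z := by group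
        _ = _ := by rw [← hy]; group
    · rw [Subgroup.coe_mul, Equiv.Perm.mul_apply, Z1, Subgroup.coe_inv, Equiv.Perm.inv_eq_iff_eq, u2]
    · rw [Subgroup.coe_mul, Equiv.Perm.mul_apply, Z2, Subgroup.coe_inv, Equiv.Perm.inv_eq_iff_eq, u1]
  · have cu : ∀ w : H1, w.1 1 = 1 → w.1 2 = 2 → u * w = w * u := fun w w1 w2 => by
      have := cube w w1 w2
      rw [ZT, one_mul, inv_one, mul_one, mul_inv_eq_iff_eq_mul] at this
      exact Subtype.ext this
    have hu1 := cent_triv u (cu Y Y1 Y2) (cu E E1 E2) u1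
    obtain ⟨k, hk⟩ := (C.sa (t * t)).1 (by rw [mul_smul, h1, h2])
    have k1 : k.1 1 = 1 := (C.sb k).1 (by rw [hk, mul_smul, h2, h1])
    have ck : ∀ w : H1, w.1 1 = 1 → k * w = w * k := fun w w1 => by
      obtain ⟨z, e, e', z1, -⟩ := conj_β (Or.inr rfl) w w1
      apply C.inj
      rw [map_mul, map_mul, hk, ← mul_inv_eq_iff_eq_mul]
      calc _ = t * (t * φ w * t⁻¹) * t⁻¹ := by group
        _ = _ := by rw [h w z w1 e, h z w z1 e']
    have hk1 := cent_triv k (ck Y Y1) (ck E E1) k1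
    exact ⟨t, by rw [← hk, hk1, map_one], by rw [← hu, hu1, map_one], h⟩

end ctx

/-- translation of the letters -/
def tr (l : ℕ) : ℕ := [14, 15, 16, 18, 20, 22, 24, 26, 28].getD l 54

theorem pi54 : π 54 = 1 := by simpa using one_of (w := [54]) (by decide +kernel)

theorem tr_ge {l : ℕ} (h : 9 ≤ l) : tr l = 54 := List.getD_eq_default _ _ h

theorem evw_tr (w : List ℕ) : evw (fun l => π (tr l)) w = evw π (w.map tr) := by
  simp [evw, Function.comp_def]

theorem satP : Sat 2 9 Suz3L.R fun l => π (tr l) := by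
  refine ⟨fun l => ?_, pi54, fun r hr => ?_⟩
  · by_cases h : l < 9
    · have key : ∀ l < 9, isId A 11 1792 [tr (linv 2 l), tr l] = true := by decide +kernel
      exact eq_inv_of_mul_eq_one_left (by simpa using one_of (key l h))
    · rw [linv_eq, if_pos (by omega), tr_ge (by omega), pi54, inv_one]
  · have key : allL (fun r => isId A 11 1792 (r.map tr)) Suz3L.R = true := by decide +kernel
    rw [evw_tr]; exact one_of (of_allL key r hr)

theorem tr_H {l : ℕ} (h : l ≠ 8) : π (tr l) ∈ H1 := by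
  by_cases h' : l < 9
  · have key : ∀ l < 9, l ≠ 8 → l = 1 ∨ tr l ∈ defH.map Prod.fst := by decide
    rcases key l h' h with rfl | hm
    · exact inv_mem' (new_H 14 (by decide))
    · exact new_H _ hm
  · rw [tr_ge (by omega), pi54]; exact one_mem _

open Classical in
/-- the letters in `H1` -/
noncomputable def vH (l : ℕ) : H1 := if h : l = 8 then 1 else ⟨π (tr l), tr_H h⟩

theorem vH_val {l : ℕ} (h : l ≠ 8) : (vH l).1 = π (tr l) := by rw [vH, dif_neg h]

theorem genS : gen (fun l => π (tr l)) Suz3L.S = S := by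
  refine le_antisymm (gen_le fun l _ => ?_) (S_le fun l hl => ?_)
  · by_cases h : l = 8
    · subst h; exact t_S
    · exact (tr_H h).2
  · have key : ∀ l ∈ [14, 15, 16, 18, 20, 22, 24, 26, 28], ∃ k ∈ Suz3L.S, tr k = l := by decide
    obtain ⟨k, hk, rfl⟩ := key l hl
    exact mem_gen (fun l => π (tr l)) hk

section ctx2
variable {G Ω : Type*} [Group G] [MulAction G Ω] {φ : H1 →* G} {a b : Ω}

theorem Ctx.sat (C : Ctx φ a b) : ∃ v : ℕ → G, Sat 2 9 Suz3L.R v ∧ ∀ l, l ≠ 8 → v l = φ (vH l) := by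
  obtain ⟨t, h1, h2, h⟩ := C.rels
  let v : ℕ → G := fun l => if l = 8 then t else φ (vH l)
  have hv : ∀ l, l ≠ 8 → v l = φ (vH l) := fun l hl => if_neg hl
  have h8 : v 8 = t := if_pos rfl
  have hti : t⁻¹ = t := inv_eq_of_mul_eq_one_right h1
  have hTi : (π 28)⁻¹ = π 28 := inv_eq_of_mul_eq_one_right TT
  have hw : ∀ w : List ℕ, 8 ∉ w → ∃ z : H1, evw v w = φ z ∧ z.1 = evw (fun l => π (tr l)) w := by
    intro w hw
    induction w with
    | nil => exact ⟨1, by simp, rfl⟩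
    | cons l w ih =>
      obtain ⟨z, e1, e2⟩ := ih fun h => hw (List.mem_cons_of_mem _ h)
      have hl : l ≠ 8 := fun h => hw (h ▸ List.mem_cons_self)
      exact ⟨vH l * z, by rw [evw_cons, e1, hv l hl, map_mul],
        by rw [evw_cons, Subgroup.coe_mul, e2, vH_val hl]⟩
  have h4 : ∀ l l', l ≠ 8 → l' ≠ 8 → maps A [tr l] 1 1 = true →
      isId A 11 1792 [28, tr l, 28, tr l'] = true → t * (v l * (t * v l')) = 1 := by
    intro l l' hl hl' m e
    have e1 := h (vH l) (vH l')⁻¹ (by rw [vH_val hl]; exact fixes m) (by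
      rw [Subgroup.coe_inv, vH_val hl, vH_val hl', hTi, inv_eq_iff_mul_eq_one, mul_eq_one_comm]
      simpa [mul_assoc] using one_of e)
    rw [hti, map_inv, eq_inv_iff_mul_eq_one] at e1
    rw [hv l hl, hv l' hl', ← e1]; simp only [mul_assoc]
  refine ⟨v, ⟨fun l => ?_, ?_, fun r hr => ?_⟩, hv⟩
  · by_cases hl : l = 8
    · subst hl; exact h8.trans (h8 ▸ hti.symm)
    · have hl' : linv 2 l ≠ 8 := by
        rw [linv_eq]; split_ifs with h2
        · exact hl
        · have : l = 0 ∨ l = 1 := by omega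
          rcases this with rfl | rfl <;> decide
      rw [hv _ hl, hv _ hl', ← map_inv]
      congr 1
      exact Subtype.ext (by rw [Subgroup.coe_inv, vH_val hl, vH_val hl']; exact satP.hv l)
  · rw [hv 9 (by decide), ← map_one φ]
    exact congrArg φ (Subtype.ext ((vH_val (by decide)).trans pi54))
  · have key : ∀ r ∈ Suz3L.R, 8 ∉ r ∨ r = [8, 2, 8, 2] ∨ r = [8, 3, 8, 3] ∨ r = [8, 4, 8, 5] ∨
        r = [0, 8, 0, 8] ∨ r = [6, 8, 6, 8] ∨ r = [7, 8, 7, 8, 7, 8] := by decide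
    rcases key r hr with h8' | rfl | rfl | rfl | rfl | rfl | rfl
    · obtain ⟨z, e1, e2⟩ := hw r h8'
      rw [satP.hR r hr] at e2
      rw [e1, show z = 1 from Subtype.ext e2, map_one]
    · simpa [h8] using h4 2 2 (by decide) (by decide) (by decide +kernel) (by decide +kernel)
    · simpa [h8] using h4 3 3 (by decide) (by decide) (by decide +kernel) (by decide +kernel)
    · simpa [h8] using h4 4 5 (by decide) (by decide) (by decide +kernel) (by decide +kernel)
    · have := h4 0 0 (by decide) (by decide) (by decide +kernel) (by decide +kernel)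
      rw [mul_eq_one_comm] at this
      simpa [h8, mul_assoc] using this
    · have := h4 6 6 (by decide) (by decide) (by decide +kernel) (by decide +kernel)
      rw [mul_eq_one_comm] at this
      simpa [h8, mul_assoc] using this
    · have e : v 7 = φ Z := by
        rw [hv 7 (by decide)]; congr 1
      simpa [h8, e, pow_succ, mul_assoc] using h2

theorem Ctx.equiv [Finite G] (C : Ctx φ a b) (hc : Nat.card G = 448345497600) :
    Nonempty (G ≃* Cfsg.Spor.Suz) := by
  obtain ⟨v, hs, hv⟩ := C.sat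
  let v' : ℕ → Equiv.Perm ℕ := fun l => π (tr l)
  have hp := hs.pair satP
  let HH : Subgroup (G × Equiv.Perm ℕ) := (φ.prod H1.subtype).range
  have hfin : Finite HH := Finite.of_surjective _ (φ.prod H1.subtype).rangeRestrict_surjective
  have hH : ∀ l ∈ Suz3L.HL, pairVal v v' l ∈ HH := fun l hl => by
    have hl8 : l ≠ 8 := by revert l; decide
    exact ⟨vH l, Prod.ext (hv l hl8).symm (vH_val hl8)⟩
  have hD : ival 0 5346 < 2 ^ 5346 := by
    apply Nat.lt_pow_two_of_testBit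
    intro i hi
    by_contra hc
    have := (testBit_ival 0 5346 i).mp (by simpa using hc)
    omega
  obtain ⟨f1, f2⟩ := (Suz3L.done hp.hv hp.he (fun r hr => hp.hR r (by simpa [Suz3L.RH] using hr))
    hH).card_le hD
  have f3 : Nat.card HH ≤ 251596800 := by
    rw [← card_H]
    exact Nat.card_le_card_of_surjective _ (φ.prod H1.subtype).rangeRestrict_surjective
  have eS : S ≃* Cfsg.Spor.Suz := (MonoidHom.ofInjective Suz.inj).symm
  have := Suz.simple
  let g : gen (pairVal v v') Suz3L.S →* Cfsg.Spor.Suz :=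
    ((MulEquiv.subgroupCongr genS).trans eS).toMonoidHom.comp (pairSnd v v' Suz3L.S)
  let f : gen (pairVal v v') Suz3L.S →* G := (MonoidHom.fst _ _).comp (Subgroup.subtype _)
  refine equiv_of_pair f g (((MulEquiv.subgroupCongr genS).trans eS).surjective.comp pairSnd_surj)
    (fun d h1 h2 => ?_) (hc.trans Suz.card.symm) ?_ ?_
  · have h3 : pairSnd v v' Suz3L.S d = 1 :=
      (map_eq_one_iff _ ((MulEquiv.subgroupCongr genS).trans eS).injective).1 h2
    exact Subtype.ext (Prod.ext h1 (congrArg Subtype.val h3))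
  · rw [Suz.card]
    exact f2.trans (by omega)
  · have hy : φ Y ∈ f.range := by
      have m : ∀ l ∈ Suz3L.S, v l ∈ f.range := fun l hl => ⟨⟨_, mem_gen (pairVal v v') hl⟩, rfl⟩
      have e : Y = vH 5 * (vH 4 * vH 3) := Subtype.ext (by
        rw [Subgroup.coe_mul, Subgroup.coe_mul, vH_val (by decide), vH_val (by decide),
          vH_val (by decide)]
        simpa [Y, tr] using eq_of (u := [50]) (w := [22, 20, 18]) (by decide +kernel))
      rw [e, map_mul, map_mul, ← hv 5 (by decide), ← hv 4 (by decide), ← hv 3 (by decide)]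
      exact mul_mem (m 5 (by decide)) (mul_mem (m 4 (by decide)) (m 3 (by decide)))
    have := Fact.mk (by norm_num : Nat.Prime 7)
    have ho : orderOf (φ Y) = 7 := orderOf_eq_prime (by rw [← map_pow, Y7, map_one])
      fun e => Y_ne (C.inj (by rw [e, map_one]))
    have := Nat.le_of_dvd Nat.card_pos (orderOf_dvd_natCard _ hy)
    omega

end ctx2

section main
variable {G Ω : Type*} [Group G] [MulAction G Ω]

theorem card_stab (φ : H1 →* G) (x : Ω) :
    Nat.card ((MulAction.stabilizer G x).comap φ) * (Set.range fun h => φ h • x).ncard =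
      251596800 := by
  let _ : MulAction H1 Ω := MulAction.compHom Ω φ
  have h1 := (MulAction.stabilizer H1 x).card_mul_index
  rw [MulAction.index_stabilizer, card_H] at h1
  exact h1

theorem ctx_of [Finite Ω] [MulAction.IsPretransitive G Ω] (hΩ : Nat.card Ω = 1782) {φ : H1 →* G}
    (hφ : Function.Injective φ) {a b c : Ω} (ha : ∀ g : G, g • a = a ↔ g ∈ φ.range)
    (hb : (Set.range fun h => φ h • b).ncard = 416)
    (hc : (Set.range fun h => φ h • c).ncard = 1365) : ∃ b', Ctx φ a b' := by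
  have hb' := card_stab φ b
  rw [hb] at hb'
  obtain ⟨g, hg, e⟩ := SzI.index416
    (M := ((MulAction.stabilizer G b).comap φ).map H1.subtype) (map_subtype_le _)
    (by rw [card_map_of_injective H1.subtype_injective]; omega)
  let g' : H1 := ⟨g, hg⟩
  have orb : ∀ {x y : Ω}, y ∈ (Set.range fun h => φ h • x) →
      (Set.range fun h => φ h • y) = Set.range fun h => φ h • x := by
    rintro x _ ⟨k, rfl⟩
    ext z
    constructor
    · rintro ⟨h, rfl⟩
      exact ⟨h * k, by simp [mul_smul]⟩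
    · rintro ⟨h, rfl⟩
      exact ⟨h * k⁻¹, by simp [mul_smul]⟩
  have self : ∀ x : Ω, x ∈ (Set.range fun h => φ h • x) := fun x => ⟨1, by simp⟩
  have oa : (Set.range fun h => φ h • a) = {a} := by
    ext z
    exact ⟨fun ⟨h, e⟩ => e ▸ (ha _).2 ⟨h, rfl⟩, fun e => e ▸ self a⟩
  have all : ∀ x, x = a ∨ x ∈ (Set.range fun h => φ h • b) ∨ x ∈ (Set.range fun h => φ h • c) := by
    have d1 : Disjoint (Set.range fun h => φ h • b) (Set.range fun h => φ h • c) :=
      Set.disjoint_left.2 fun x h1 h2 => by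
        rw [← orb h1, orb h2, hc] at hb; omega
    have d2 : a ∉ (Set.range fun h => φ h • b) ∪ (Set.range fun h => φ h • c) := by
      rintro (h | h)
      · rw [← orb h, oa, Set.ncard_singleton] at hb; omega
      · rw [← orb h, oa, Set.ncard_singleton] at hc; omega
    have : insert a ((Set.range fun h => φ h • b) ∪ (Set.range fun h => φ h • c)) = Set.univ :=
      Set.eq_of_subset_of_ncard_le (Set.subset_univ _) (by
        rw [Set.ncard_insert_of_notMem d2, Set.ncard_union_eq d1, hb, hc, Set.ncard_univ, hΩ])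
    intro x
    have hx : x ∈ insert a ((Set.range fun h => φ h • b) ∪ (Set.range fun h => φ h • c)) :=
      this ▸ Set.mem_univ x
    exact hx
  refine ⟨φ g' • b, hφ, ha, fun h => ?_, fun x h h7 h1 hx => ?_, MulAction.exists_smul_eq G _ _⟩
  · have : h.1 ∈ J1 ↔ h.1 1 = 1 := ⟨fun m => m.1, fun m => ⟨m, h.2⟩⟩
    rw [← this, ← e, mem_pointwise_smul_iff_inv_smul_mem]
    have e1 : (MulAut.conj g)⁻¹ • h.1 = H1.subtype (g'⁻¹ * h * g') := by simp [g']
    rw [e1, mem_map_iff_mem H1.subtype_injective, mem_comap, MulAction.mem_stabilizer_iff, map_mul,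
      map_mul, map_inv, mul_smul, mul_smul, inv_smul_eq_iff]
  · rcases all x with e | ⟨k, rfl⟩ | hx'
    · exact Or.inl e
    · exact Or.inr ⟨k * g'⁻¹, by simp [mul_smul]⟩
    · exfalso
      have h2 := card_stab φ x
      rw [orb hx', hc] at h2
      have := Fact.mk (by norm_num : Nat.Prime 7)
      have h3 := orderOf_dvd_natCard ((MulAction.stabilizer G x).comap φ) (x := h) hx
      rw [orderOf_eq_prime h7 h1] at h3
      omega

/-- **Recognition of the sporadic Suzuki group.** -/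
theorem recognize [Finite Ω] [MulAction.IsPretransitive G Ω] (hΩ : Nat.card Ω = 1782) {a b c : Ω}
    (e : H1 ≃* MulAction.stabilizer G a)
    (hb : (MulAction.orbit (MulAction.stabilizer G a) b).ncard = 416)
    (hc : (MulAction.orbit (MulAction.stabilizer G a) c).ncard = 1365) :
    Nonempty (G ≃* Cfsg.Spor.Suz) := by
  let φ : H1 →* G := (MulAction.stabilizer G a).subtype.comp e.toMonoidHom
  have ho : ∀ x : Ω, (Set.range fun h => φ h • x) = MulAction.orbit (MulAction.stabilizer G a) x :=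
    fun x => Set.ext fun z => ⟨fun ⟨h, hz⟩ => ⟨e h, hz⟩, fun ⟨h, hz⟩ => ⟨e.symm h, by
      simp only [φ, MonoidHom.comp_apply, MulEquiv.coe_toMonoidHom, MulEquiv.apply_symm_apply]
      exact hz⟩⟩
  obtain ⟨b', C⟩ := ctx_of (φ := φ) (a := a) (b := b) (c := c) hΩ
    ((subtype_injective _).comp e.injective)
    (fun g => ⟨fun h => ⟨e.symm ⟨g, h⟩, by simp [φ]⟩, fun ⟨h, hg⟩ => hg ▸ (e h).2⟩)
    (by rw [ho, hb]) (by rw [ho, hc])
  have h1 := (MulAction.stabilizer G a).card_mul_index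
  rw [MulAction.index_stabilizer_of_transitive, ← Nat.card_congr e.toEquiv, card_H, hΩ] at h1
  have : Finite G := Nat.finite_of_card_ne_zero (by omega)
  exact C.equiv (by omega)

end main

end H95.SzM
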