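/- C7-O4 tower: rigidity of unipotent elements (slot RIG3). -/
import Cfsg.Agent.H60.WrO4Kit
import Cfsg.Agent.H89.WrRig1

set_option autoImplicit false

namespace H95.Wr4
open Cfsg Cfsg.Geo Matrix H19 H60.Wr Module
open scoped MatrixGroups

universe u

variable {F : Type u} [Field F] {t : ℕ} {y : GG 4 t F} {i j l m : Fin t} {B : Frm (Fin 4) F}

/-- A cubic element does not move a factor to three further factors. -/
theorem four (h3 : ((y : EE 4 t F) - 1) ^ 3 = 0) (n1 : Nm (y ^ 1) i j) (n2 : Nm (y ^ 2) i l)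
    (n3 : Nm (y ^ 3) i m) (e1 : i ≠ j) (e2 : i ≠ l) (e3 : i ≠ m) (f1 : j ≠ l) (f2 : j ≠ m)
    (f3 : l ≠ m) : False := by
  let ε : Mk 4 F := ro (Pi.single 0 1) (Pi.single 0 1)
  have b1 : (1 - ε) * ε = 0 := by simp [ε, sub_mul, ro_mul_ro]
  have b2 : ε ≠ 0 := ro_ne_zero (by simp) (by simp)
  have b3 : 1 - ε ≠ 0 := fun e => by
    simpa [ε, vecMulVec_apply, Pi.single_apply] using congrFun (congrFun e 1) 1
  have c : ∀ (n : ℕ) (k : Fin t), Nm (y ^ n) i k → ∃ a : Mk 4 F, a ≠ 0 ∧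
      em k a * ((y : EE 4 t F) ^ n * em i ε) = 0 := fun n k hk => by
    obtain ⟨a, ha⟩ := hk (1 - ε)
    refine ⟨a, fun e => ?_, ?_⟩
    · rw [e, map_zero, map_eq_zero_iff _ (cj _).injective] at ha
      exact b3 (em_eq_zero.1 ha)
    · rw [← ha, ← Units.val_pow_eq_pow_val, ← mul_assoc, cj_mul_self, mul_assoc, ← map_mul, b1,
        map_zero, mul_zero]
  obtain ⟨p, p0, p1⟩ := c 1 j n1
  obtain ⟨q, q0, q1⟩ := c 2 l n2
  obtain ⟨r, r0, r1⟩ := c 3 m n3
  have c4 : em j p * (em l q * (em m r * em i ε)) = (0 : EE 4 t F) := by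
    have k : (1 : EE 4 t F) = (y : EE 4 t F) ^ 3 - 3 * (y : EE 4 t F) ^ 2 + 3 * (y : EE 4 t F) ^ 1 := by
      rw [← sub_eq_zero, ← neg_eq_zero, ← h3]; noncomm_ring
    rw [← one_mul (em i ε), k, show (3 : EE 4 t F) = 1 + 1 + 1 by norm_num]
    simp only [add_mul, sub_mul, one_mul, mul_add, mul_sub, r1, mul_zero]
    rw [(Commute.left_comm (em_comm f3 q r) _), q1, ← mul_assoc (em _ q) (em _ r) (_ ^ 1 * _),
      Commute.left_comm ((InC.em f1 q).mul (InC.em f2 r) p), p1]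
    simp
  rcases T2 ((InC.em f1 q).mul ((InC.em f2 r).mul (InC.em e1.symm ε))) c4 with k | k
  · exact p0 k
  rcases T2 ((InC.em f3 r).mul (InC.em e2.symm ε)) k with k | k
  · exact q0 k
  rcases T2 (InC.em e3.symm ε) k with k | k
  · exact r0 k
  · exact b2 (em_eq_zero.1 k)

/-- One triple from each free orbit of the rotation. -/
def S : Finset (Fin 4 × Fin 4 × Fin 4) := Finset.univ.filter fun s =>
  16 * s.1.1 + 4 * s.2.1.1 + s.2.2.1 < 16 * s.2.2.1 + 4 * s.1.1 + s.2.1.1 ∧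
    16 * s.1.1 + 4 * s.2.1.1 + s.2.2.1 < 16 * s.2.1.1 + 4 * s.2.2.1 + s.1.1

theorem S_card : S.card = 20 := by decide +kernel

theorem S_rot : ∀ s ∈ S, ∀ r ∈ S, s ≠ (r.2.2, r.1, r.2.1) ∧ s ≠ (r.2.1, r.2.2, r.1) := by
  decide +kernel

/-- An element of order three permuting three factors has a large norm map. -/
theorem three (h3 : y ^ 3 = 1) (n1 : Nm y i j) (n2 : Nm y j l) (e1 : i ≠ j) (e2 : i ≠ l)
    (f1 : j ≠ l) : 4 ^ (t - 1) < (1 + (y : EE 4 t F) + (y : EE 4 t F) * y).rank := by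
  let E : Fin 4 → Mk 4 F := fun s => ro (Pi.single s 1) (Pi.single s 1)
  have E1 : ∀ s r, E s * E r = if s = r then E s else 0 := fun s r => by
    rw [ro_mul_ro]; split_ifs with e <;> simp [e, E, Pi.single_apply]
  have E3 : ∀ s, finrank F (rg (E s)) = 1 := fun s => by
    rw [rg_ro (by simp), finrank_span_singleton (by simp)]
  choose E' hE' using fun s => n1 (E s)
  choose E'' hE'' using fun s => n2 (E' s)
  have back : ∀ s, cj y (em l (E'' s)) = em i (E s) := fun s => by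
    rw [← hE'', ← hE', ← cj_mul, ← cj_mul, ← pow_two, ← pow_succ, h3, cj_one]
  have E4 : ∀ s r, E' s * E' r = if s = r then E' s else 0 := fun s r => by
    rw [← em_inj (i := j), map_mul, ← hE', ← hE', ← map_mul, ← map_mul, E1]
    split_ifs <;> simp [hE']
  have E5 : ∀ s r, E'' s * E'' r = if s = r then E'' s else 0 := fun s r => by
    rw [← em_inj (i := l), map_mul, ← hE'', ← hE'', ← map_mul, ← map_mul, E4]
    split_ifs <;> simp [hE'']
  let T : Fin 4 × Fin 4 × Fin 4 → EE 4 t F := fun s =>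
    em i (E s.1) * (em j (E' s.2.1) * em l (E'' s.2.2))
  have T1 : ∀ s r, T s * T r = if s = r then T s else 0 := by
    rintro ⟨a, b, c⟩ ⟨a', b', c'⟩
    simp only [T]
    rw [em_mul_mul _ _ _ ((InC.em e1 _).mul (InC.em e2 _)), em_mul_mul _ _ _ (InC.em f1 _),
      ← map_mul, E1, E4, E5]
    by_cases h1 : a = a' <;> by_cases h2 : b = b' <;> by_cases h3 : c = c' <;> simp [h1, h2, h3]
  have T3 : ∀ s, cj y (T s) = T (s.2.2, s.1, s.2.1) := by
    rintro ⟨a, b, c⟩
    simp only [T, map_mul, hE', hE'', back]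
    rw [← mul_assoc]
    exact (((InC.em e1 _).mul (InC.em e2 _)) _).symm
  have T4 : ∀ s, (T s).rank * 16 = 4 ^ (t - 1) := by
    rintro ⟨a, b, c⟩
    have k1 := rank_em_mul ((InC.em e1 (E' b)).mul (InC.em e2 (E'' c))) (E a)
    have k2 := rank_em_mul (InC.em f1 (E'' c)) (E' b)
    have k3 := finrank_rg_cj y (em l (E'' c))
    rw [back, rank_em_ro i (by simp) (by simp)] at k3
    rw [rank_of_cj (hE' b), E3, one_mul, ← k3] at k2
    rw [E3, one_mul] at k1
    change finrank F (rg (em i (E a) * (em j (E' b) * em l (E'' c)))) * 16 = _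
    omega
  have p1 : (∑ s ∈ S, T s).rank * 16 = 20 * 4 ^ (t - 1) := by
    rw [H89.Wr.rank_sum T T1, Finset.sum_mul, Finset.sum_congr rfl fun s _ => T4 s,
      Finset.sum_const, S_card, smul_eq_mul]
  have p2 : (∑ s ∈ S, T s) * ∑ s ∈ S, T s = ∑ s ∈ S, T s := by
    rw [Finset.sum_mul_sum]
    exact Finset.sum_congr rfl fun a ha => by simp [T1, ha]
  have p3 : (∑ s ∈ S, T s) * cj y (∑ s ∈ S, T s) = 0 := by
    rw [map_sum, Finset.sum_mul_sum]
    exact Finset.sum_eq_zero fun s hs => Finset.sum_eq_zero fun r hr => by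
      rw [T3, T1, if_neg (S_rot s hs r hr).1]
  have p4 : (∑ s ∈ S, T s) * cj y (cj y (∑ s ∈ S, T s)) = 0 := by
    rw [map_sum, map_sum, Finset.sum_mul_sum]
    exact Finset.sum_eq_zero fun s hs => Finset.sum_eq_zero fun r hr => by
      rw [T3, T3, T1, if_neg (S_rot s hs r hr).2]
  generalize ∑ s ∈ S, T s = π at p1 p2 p3 p4
  have p5 : π * (1 + (y : EE 4 t F) + (y : EE 4 t F) * y) * π = π := by
    have q1 : (y : EE 4 t F) * π = cj y π * y := (cj_mul_self y π).symm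
    have q2 : (y : EE 4 t F) * cj y π = cj y (cj y π) * y := (cj_mul_self y _).symm
    rw [mul_add, mul_add, add_mul, add_mul, mul_one, p2, mul_assoc π (y : EE 4 t F), q1,
      ← mul_assoc, p3, zero_mul, add_zero, mul_assoc π, mul_assoc (y : EE 4 t F), q1,
      ← mul_assoc (y : EE 4 t F), q2, ← mul_assoc, ← mul_assoc, p4, zero_mul, zero_mul, add_zero]
  have p6 : π.rank ≤ (1 + (y : EE 4 t F) + (y : EE 4 t F) * y).rank := by
    conv_lhs => rw [← p5]
    exact (rank_mul_le_left _ _).trans (rank_mul_le_right _ _)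
  have : 0 < 4 ^ (t - 1) := by positivity
  omega

theorem nm_all [Finite F] (h2 : (2 : F) ≠ 0) (hT : y ∈ TT 4 t F)
    (h3 : ((y : EE 4 t F) - 1) ^ 3 = 0)
    (hr : finrank F (rg (((y : EE 4 t F) - 1) ^ 2)) ≤ 4 ^ (t - 1)) (i : Fin t) : Nm y i i := by
  obtain ⟨σ, hσ⟩ := exists_perm hT
  have a1 : ∀ n : ℕ, Nm (y ^ n) i ((σ ^ n) i) := fun n => by
    induction n with
    | zero => exact fun a => ⟨a, by simp⟩
    | succ n ih => rw [pow_succ', pow_succ']; exact (hσ _).mul ih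
  obtain ⟨p, hp⟩ := CharP.exists F
  haveI := Fintype.ofFinite F
  have pp := CharP.char_is_prime F p
  haveI : Fact p.Prime := ⟨pp⟩
  have p2 : p ≠ 2 := by
    rintro rfl
    exact h2 (by exact_mod_cast CharP.cast_eq_zero F 2)
  have a2 : y ^ p = 1 := Units.ext (by
    have : ((y : EE 4 t F) - 1) ^ p = 0 := pow_eq_zero_of_le (by have := pp.two_le; omega) h3
    rwa [sub_pow_char_of_commute _ (Commute.one_right _), one_pow, sub_eq_zero] at this)
  have a3 : (σ ^ p) i = i := Nm.unique (by decide) (a2 ▸ a1 p) fun a => ⟨a, by simp⟩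
  by_contra h0
  have e1 : i ≠ σ i := fun e => h0 (by simpa only [← e] using hσ i)
  have per : ∀ q : ℕ, q.Prime → p ≠ q → (σ ^ q) i ≠ i := fun q hq h e => by
    have := (show Function.IsPeriodicPt σ p i from a3).gcd (show Function.IsPeriodicPt σ q i from e)
    rw [(Nat.coprime_primes pp hq).2 h] at this
    exact e1 this.symm
  have e2 : i ≠ σ (σ i) := (per 2 Nat.prime_two p2).symm
  have f1 : σ i ≠ σ (σ i) := σ.injective.ne e1
  by_cases p3 : p = 3
  · subst p3
    have k := three a2 (hσ i) (hσ _) e1 e2 f1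
    have c3 : (3 : EE 4 t F) = 0 := by exact_mod_cast CharP.cast_eq_zero (EE 4 t F) 3
    rw [show 1 + (y : EE 4 t F) + (y : EE 4 t F) * y = ((y : EE 4 t F) - 1) ^ 2 + 3 * y by
      noncomm_ring, c3, zero_mul, add_zero] at k
    exact absurd hr (not_le.2 k)
  · have e3 : i ≠ σ (σ (σ i)) := (per 3 Nat.prime_three p3).symm
    exact four h3 (a1 1) (a1 2) (a1 3) e1 e2 e3 f1 (σ.injective.ne e2) (σ.injective.ne f1)

theorem sq_exp {R : Type*} [Ring R] {X d : R} (h : Commute d X) : ((1 + X) * d - 1) ^ 2 =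
    X ^ 2 * d ^ 2 + X * (2 * d * (d - 1)) + (d - 1) ^ 2 := by
  simp only [show (2 : R) = 1 + 1 by norm_num, pow_succ, pow_zero, mul_add, add_mul, mul_sub,
    sub_mul, mul_one, one_mul, mul_assoc, h.eq, h.left_comm]
  abel

theorem cube {R : Type*} [Ring R] {X d : R} (h : Commute d X) : ((1 + X) * d - 1) ^ 3 =
    (d - 1) ^ 3 + X * (3 * d * (d - 1) ^ 2) + X ^ 2 * (3 * d ^ 2 * (d - 1)) + X ^ 3 * d ^ 3 := by
  simp only [show (3 : R) = 1 + 1 + 1 by norm_num, pow_succ, pow_zero, mul_add, add_mul, mul_sub,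
    sub_mul, mul_one, one_mul, mul_assoc, h.eq, h.left_comm]
  abel

theorem inC_pow {c : EE 4 t F} (h : InC j c) (n : ℕ) : InC j (c ^ n) :=
  fun a => (Commute.pow_right (h a) n).eq

theorem inC_two : InC j (2 : EE 4 t F) := fun _ => (Commute.ofNat_right _ _).eq

/-- A quadratic isometry normalising a factor centralises it. -/
theorem quad [Finite F] (H : O4L B) (hy : y ∈ (B.pow t).Iso) (h2 : ((y : EE 4 t F) - 1) ^ 2 = 0)
    (hl : Nm y l l) : InC l (y : EE 4 t F) := by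
  obtain ⟨w, hw, v, hv, d, hd, h⟩ := unip_split H hy ⟨2, h2⟩ hl
  have O := H.toO4
  by_cases hm : v ∈ F ∙ w
  · rwa [h, O.eu_one hw hm, map_one, one_mul]
  exfalso
  have b2 := O.eu_sq hw.2 hv
  have b3 := O.eu_cube hw.2 hv
  rw [← add_sub_cancel 1 (eu B w v)] at h
  generalize eu B w v - 1 = β at h b2 b3
  have b4 : β ^ 2 ≠ 0 := b2 ▸ smul_ne_zero (neg_ne_zero.2 (O.nz hw hv hm)) (rf_ne_zero hw.1 hw.1)
  have x3 : (em l β : EE 4 t F) ^ 3 = 0 := by rw [← map_pow, b3, map_zero]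
  rw [h, map_add, map_one, sq_exp (hd β).symm] at h2
  have k : ∀ X, InC l X → (em l β : EE 4 t F) ^ 2 * X = 0 → X = 0 := fun X hX e =>
    (T2 hX (by rwa [map_pow])).resolve_left b4
  have k1 := k _ (inC_pow (hd.sub InC.one) 2) (by
    have := congrArg (fun Z => (em l β : EE 4 t F) ^ 2 * Z) h2
    beta_reduce at this
    rwa [mul_add, mul_add, ← mul_assoc _ (em l β), ← pow_succ, x3, ← mul_assoc _ (_ ^ 2), ← pow_add,
      pow_succ _ 3, x3, zero_mul, zero_mul, zero_mul, add_zero, zero_add, mul_zero] at this)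
  rw [k1, add_zero] at h2
  have k2 := k _ ((inC_two.mul hd).mul (hd.sub InC.one)) (by
    have := congrArg ((em l β : EE 4 t F) * ·) h2
    beta_reduce at this
    rwa [mul_add, ← mul_assoc, ← pow_succ', x3, zero_mul, zero_add, ← mul_assoc, ← pow_two,
      mul_zero] at this)
  rw [k2, mul_zero, add_zero] at h2
  exact (d ^ 2).ne_zero (k _ (inC_pow hd 2) h2)

theorem jobO4Rig3 : JobO4Rig3.{u} := by
  intro F _ _ t B y H ht hT hy h3 hr
  have O := H.toO4
  have hN := nm_all O.two hT h3 hr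
  by_contra! h0
  refine h0 ⟨0, ht⟩ ((sc_of_inC fun j => ?_).inA _)
  obtain ⟨w, hw, v, hv, d, hd, h⟩ := unip_split H hy ⟨3, h3⟩ (hN j)
  by_cases hm : v ∈ F ∙ w
  · rwa [h, O.eu_one hw hm, map_one, one_mul]
  exfalso
  obtain ⟨s, hs, es⟩ := in_Iso_of (O.adj_eu_mul hw.2 hv)
  have ed : d = (emG j s)⁻¹ * y := by
    rw [eq_inv_mul_iff_mul_eq]
    exact Units.ext (by rw [h, ← es]; rfl)
  have dI : d ∈ (B.pow t).Iso := ed ▸ mul_mem (inv_mem (emG_mem_Iso hs j)) hy
  have dN : ∀ l, Nm d l l := fun l => ed ▸ (InA.nm (g := emG j s) (InA.em j _) l).inv.mul (hN l)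
  suffices k : ((d : EE 4 t F) - 1) ^ 2 = 0 from
    h0 j (h ▸ (InA.em j _).mul ((sc_of_inC fun l => quad H dI k (dN l)).inA j))
  have n0 := O.nz hw hv hm
  obtain ⟨w', hw', h1⟩ := H.hyp w hw
  obtain ⟨v', R⟩ := H.frv w hw w' hw' h1 (v - B.f v w' • w)
    (fun e => hm (Submodule.mem_span_singleton.2 ⟨_, (sub_eq_zero.1 e).symm⟩))
    (by rw [B.sub_left, B.smul_left, hv, hw.2, mul_zero, sub_zero])
    (by rw [B.sub_left, B.smul_left, h1, mul_one, sub_self])
  have vv' : B.f v v' = 0 := by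
    have := R.vu
    rwa [B.sub_left, B.smul_left, R.wu, mul_zero, sub_zero] at this
  have b1 : ∀ x, (eu B w v - 1) *ᵥ x =
      (B.f x v • w - B.f x w • v) - (B.f v v / 2 * B.f x w) • w := fun x => by
    rw [sub_mulVec, eu_mulVec4, one_mulVec]; abel
  have b2 := O.eu_sq hw.2 hv
  have b3 := O.eu_cube hw.2 hv
  rw [← add_sub_cancel 1 (eu B w v)] at h
  generalize eu B w v - 1 = β at h b1 b2 b3
  have b4 : β ^ 2 ≠ 0 := b2 ▸ smul_ne_zero (neg_ne_zero.2 n0) (rf_ne_zero hw.1 hw.1)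
  have x3 : (em j β : EE 4 t F) ^ 3 = 0 := by rw [← map_pow, b3, map_zero]
  have ce := hd.sub InC.one
  rw [h, map_add, map_one, cube (hd β).symm, x3, zero_mul, add_zero] at h3
  have k1 : ((d : EE 4 t F) - 1) ^ 3 = 0 := (T2 (inC_pow ce 3) (by
    have := congrArg (fun Z => (em j β : EE 4 t F) ^ 2 * Z) h3
    beta_reduce at this
    rwa [mul_add, mul_add, ← mul_assoc _ (em j β), ← pow_succ, x3, ← mul_assoc _ (_ ^ 2), ← pow_add,
      pow_succ _ 3, x3, zero_mul, zero_mul, zero_mul, add_zero, add_zero, mul_zero,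
      ← map_pow] at this)).resolve_left b4
  rw [h, map_add, map_one, sq_exp (hd β).symm, ← map_pow] at hr
  have key : ∀ a a' b b' : Fin 4 → F, em j (rf B a a') * ((em j (β ^ 2) * (d : EE 4 t F) ^ 2 +
      em j β * (2 * (d : EE 4 t F) * ((d : EE 4 t F) - 1)) + ((d : EE 4 t F) - 1) ^ 2) * em j (rf B b b')) = em j (rf B a b') *
        (B.f (β ^ 2 *ᵥ b) a' • (d : EE 4 t F) ^ 2 + B.f (β *ᵥ b) a' • (2 * (d : EE 4 t F) * ((d : EE 4 t F) - 1)) +
          B.f b a' • ((d : EE 4 t F) - 1) ^ 2) := fun a a' b b' => by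
    rw [← mul_assoc, ct_spec, ct_add, ct_add, ct_em_mul (inC_pow hd 2),
      ct_em_mul ((inC_two.mul hd).mul ce), ct_of_inC (inC_pow ce 2), ph_dot, ph_dot, ph_dot]
  generalize em j (β ^ 2) * (d : EE 4 t F) ^ 2 + em j β * (2 * (d : EE 4 t F) * ((d : EE 4 t F) - 1)) + ((d : EE 4 t F) - 1) ^ 2 = Z
    at hr key
  have e1 := H89.Wr.mul_eq_zero_of_rank (n := Z) (X := em j (rf B w' w)) (D := em j (rf B v' v'))
    (hr.trans (by
      have k := key w w' w' w
      have u : IsUnit (1 + 2 * ((d : EE 4 t F) - 1)) := IsNilpotent.isUnit_one_add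
        ⟨3, by rw [(Commute.ofNat_left _ _).mul_pow, k1, mul_zero]⟩
      obtain ⟨u, hu⟩ := d.isUnit.mul u
      rw [b2, b1, smul_mulVec, rf_mulVec, R.w'w O, hw'.2, zero_smul, add_zero] at k
      simp only [B.smul_left, B.sub_left, h1, O.sy w' v, mul_one, one_mul, sub_self, zero_sub] at k
      rw [show -B.f v v • (d : EE 4 t F) ^ 2 + -(B.f v v / 2) • (2 * (d : EE 4 t F) * ((d : EE 4 t F) - 1)) =
          -B.f v v • (u : EE 4 t F) by
        rw [hu, mul_assoc, two_mul, ← two_smul F, smul_smul,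
          show -(B.f v v / 2) * 2 = -B.f v v by have := O.two; field_simp, ← smul_add]
        congr 1
        noncomm_ring] at k
      rw [← H89.Wr.rank_em_ro j hw.1 (ph_ne_zero (B := B) hw.1)]
      have k2 : (em j (rf B w w) : EE 4 t F) = em j (rf B w w') * (Z * em j (rf B w' w)) *
          ((-B.f v v)⁻¹ • ((u⁻¹ : GG 4 t F) : EE 4 t F)) := by
        rw [k, mul_assoc, smul_mul_smul_comm, mul_inv_cancel₀ (neg_ne_zero.2 n0), one_smul,
          Units.mul_inv, mul_one]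
      conv_lhs => rw [k2]
      exact (rank_mul_le_left _ _).trans (rank_mul_le_right _ _)))
    (by
      rw [key, b2, b1, smul_mulVec, rf_mulVec]
      simp only [B.smul_left, B.sub_left, R.wu, R.w'u, vv', mul_zero, sub_self, zero_smul, add_zero])
  have e2 := key v' v' v' v'
  rw [← mul_assoc, e1, zero_mul, b2, b1, smul_mulVec, rf_mulVec] at e2
  simp only [B.smul_left, B.sub_left, R.wu, vv', mul_zero, sub_self, zero_smul, zero_add] at e2
  have v0 : v' ≠ 0 := fun e => R.uu (by rw [e]; simp)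
  exact (smul_eq_zero.1 ((T2 ((inC_pow ce 2).smul _) e2.symm).resolve_left
    (rf_ne_zero v0 v0))).resolve_left R.uu

end H95.Wr4
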