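/- C7-O3 tower: rigidity of involutions (slots RIG2, FL). -/
import Cfsg.Agent.H60.WrO3Spec
import Cfsg.Agent.H89.WrRig1

set_option autoImplicit false

namespace H95.Wr
open Cfsg Cfsg.Geo Matrix H19 H60.Wr Module
open scoped MatrixGroups

universe u

section
variable {F : Type*} [Field F] {ι : Type} [Fintype ι] [DecidableEq ι] {X : Matrix ι ι F}

theorem rk_eq (X : Matrix ι ι F) : finrank F (rg X) = X.rank := rfl

/-- The projection onto the fixed space of an involution. -/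
noncomputable def pr (X : Matrix ι ι F) : Matrix ι ι F := (2 : F)⁻¹ • (1 + X)

theorem pr_mul (h2 : (2 : F) ≠ 0) (h : X * X = 1) : pr X * pr X = pr X := by
  simp only [pr, smul_mul_smul_comm, mul_add, add_mul, h, mul_one, one_mul]
  match_scalars <;> field_simp <;> norm_num

theorem pr_neg (h : X * X = 1) : pr X * pr (-X) = 0 := by
  simp only [pr, smul_mul_smul_comm, mul_add, add_mul, mul_neg, h, mul_one, one_mul]
  module

theorem neg_pr (h : X * X = 1) : pr (-X) * pr X = 0 := by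
  simpa using pr_neg (X := -X) (by simpa using h)

theorem rank_pr (h2 : (2 : F) ≠ 0) (h : X * X = 1) :
    (pr X).rank + (pr (-X)).rank = Fintype.card ι := by
  rw [← H89.Wr.rank_add_idem (pr_mul h2 h) (pr_mul h2 (by simpa using h)) (pr_neg h) (neg_pr h),
    ← rank_one (R := F)]
  congr 1
  simp only [pr]
  match_scalars <;> field_simp <;> norm_num

theorem eq_of_rank_pr (h2 : (2 : F) ≠ 0) (h : (pr X).rank = 0) : X = -1 := by
  have : pr X = 0 := ext_mulVec fun v => by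
    rw [zero_mulVec]
    exact (Submodule.finrank_eq_zero.1 h ▸ ⟨v, rfl⟩ : pr X *ᵥ v ∈ (⊥ : Submodule F (ι → F)))
  exact eq_neg_of_add_eq_zero_right ((smul_eq_zero.1 this).resolve_left (inv_ne_zero h2))

end

variable {F : Type u} [Field F] {t : ℕ} {y : GG 3 t F} {i j l : Fin t}

theorem rank_mul3 {c : EE 3 t F} (hc : InC i c) (b : Mk 3 F) :
    (em i b * c).rank * 3 = b.rank * c.rank := rank_em_mul hc b

theorem inC_pr {c : EE 3 t F} (hc : InC i c) : InC i (pr c) := (InC.one.add hc).smul _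

theorem CI.sq (h : CI y) : (y : EE 3 t F) * y = 1 := by rw [← Units.val_mul, h.1, Units.val_one]

theorem CI.rank (h2 : (2 : F) ≠ 0) (h : CI y) : ∃ m ≤ 3, (pr (y : EE 3 t F)).rank = m * 3 ^ (t - 1) ∧
    (pr (-y : EE 3 t F)).rank = (3 - m) * 3 ^ (t - 1) := by
  have h0 := rank_pr h2 (CI.sq h)
  obtain ⟨-, g, i, b, e⟩ := h
  have h1 := rank_mul3 (i := i) InC.one (pr b)
  have h3 : pr (y : EE 3 t F) = cj g (em i (pr b)) := by simp [pr, e]
  rw [mul_one, rank_one, ← H89.Wr.rank_cj g, ← h3] at h1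
  simp only [Fintype.card_fun, Fintype.card_fin, ← pow_pred_mul i 3] at h0 h1
  have h4 : (pr b).rank ≤ 3 := by simpa using rank_le_card_width (pr b)
  refine ⟨_, h4, ?_⟩
  interval_cases (pr b).rank <;> omega

theorem hm (a a' : Mk 3 F) (x x' : EE 3 t F) (hx : InC l x) :
    em l a * x * (em l a' * x') = em l (a * a') * (x * x') := by
  rw [map_mul, mul_assoc, mul_assoc, ← mul_assoc x, ← hx, mul_assoc]

theorem rig2a (h2 : (2 : F) ≠ 0) (h : CI y) (hl : Nm y l l) :
    InA l (y : EE 3 t F) ∨ InC l (y : EE 3 t F) := by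
  obtain ⟨s, d, hd, e⟩ := hl.exists_eq
  replace e : (y : EE 3 t F) = em l (s : Mk 3 F) * (d : EE 3 t F) := congrArg Units.val e
  have h1 : em l ((s : Mk 3 F) * (s : Mk 3 F)) * ((d : EE 3 t F) * (d : EE 3 t F)) = (1 : F) • 1 := by
    rw [one_smul, ← CI.sq h, e, hm _ _ _ _ hd]
  obtain ⟨r, hr⟩ := (sc_of_em_mul (hd.mul hd) one_ne_zero h1).1
  have h3 := congrArg det hr
  rw [det_mul, det_smul, det_one, mul_one, Fintype.card_fin] at h3
  have h4 : (s : Mk 3 F).det ≠ 0 := s.det_ne_zero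
  have r0 : r ≠ 0 := by rintro rfl; simp [h4] at h3
  obtain ⟨μ, h5, μ0⟩ : ∃ μ : F, μ * μ = r ∧ μ ≠ 0 :=
    ⟨(s : Mk 3 F).det / r, by field_simp; linear_combination h3, div_ne_zero h4 r0⟩
  obtain ⟨β, c, hc, hβ, hcc, e⟩ : ∃ β c, InC l c ∧ β * β = 1 ∧ c * c = 1 ∧
      (y : EE 3 t F) = em l β * c := by
    refine ⟨μ⁻¹ • (s : Mk 3 F), μ • (d : EE 3 t F), hd.smul _, ?_, ?_, ?_⟩
    · rw [smul_mul_smul_comm, hr, smul_smul, ← h5, show μ⁻¹ * μ⁻¹ * (μ * μ) = 1 by field_simp,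
        one_smul]
    · rw [hr, map_smul, map_one, smul_mul_assoc, one_mul, one_smul] at h1
      rw [smul_mul_smul_comm, h5, h1]
    · rw [map_smul, smul_mul_smul_comm, inv_mul_cancel₀ μ0, one_smul, e]
  have hβ' : -β * -β = 1 := by simpa using hβ
  have hcc' : -c * -c = 1 := by simpa using hcc
  have k1 : pr (y : EE 3 t F) = em l (pr β) * pr c + em l (pr (-β)) * pr (-c) := by
    simp only [pr, e, map_smul, map_add, map_neg, map_one, smul_mul_smul_comm, mul_add, add_mul,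
      mul_one, one_mul, neg_mul, mul_neg, neg_neg]
    match_scalars <;> field_simp <;> norm_num
  have k2 := congrArg rank k1
  rw [H89.Wr.rank_add_idem (by rw [hm _ _ _ _ (inC_pr hc), pr_mul h2 hβ, pr_mul h2 hcc])
    (by rw [hm _ _ _ _ (inC_pr hc.neg), pr_mul h2 hβ', pr_mul h2 hcc'])
    (by rw [hm _ _ _ _ (inC_pr hc), pr_neg hcc, mul_zero])
    (by rw [hm _ _ _ _ (inC_pr hc.neg), neg_pr hcc, mul_zero])] at k2
  have k3 := rank_mul3 (inC_pr hc) (pr β)
  have k4 := rank_mul3 (inC_pr hc.neg) (pr (-β))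
  have k5 := rank_pr h2 hβ
  have k6 := rank_pr h2 hcc
  obtain ⟨m, hm3, k7, -⟩ := CI.rank h2 h
  simp only [Fintype.card_fun, Fintype.card_fin, ← pow_pred_mul l 3] at k5 k6
  by_cases e1 : (pr β).rank = 0
  · exact Or.inr (by rw [e, eq_of_rank_pr h2 e1, map_neg, map_one, neg_one_mul]; exact hc.neg)
  by_cases e2 : (pr (-β)).rank = 0
  · exact Or.inr (by rw [e, neg_inj.1 (eq_of_rank_pr h2 e2), map_one, one_mul]; exact hc)
  have k8 : (pr c).rank = 0 ∨ (pr (-c)).rank = 0 := by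
    obtain ⟨e3, e4⟩ | ⟨e3, e4⟩ : (pr β).rank = 1 ∧ (pr (-β)).rank = 2 ∨
      (pr β).rank = 2 ∧ (pr (-β)).rank = 1 := by omega
    all_goals
      rw [e3] at k3
      rw [e4] at k4
      interval_cases m <;> omega
  refine Or.inl (k8.elim (fun e3 => ⟨-β, ?_⟩) fun e3 => ⟨β, ?_⟩)
  · rw [e, eq_of_rank_pr h2 e3, map_neg, mul_neg_one]
  · rw [e, neg_inj.1 (eq_of_rank_pr h2 e3), mul_one]

theorem rig2b (h2 : (2 : F) ≠ 0) (h : CI y) (hy : Nm y i j) (hij : i ≠ j) (h1 : l ≠ i) (h3 : l ≠ j) :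
    InC l (y : EE 3 t F) := by
  have yi : y⁻¹ = y := inv_eq_of_mul_eq_one_right h.1
  have sq := CI.sq h
  let E : Fin 3 → Mk 3 F := fun s => ro (Pi.single s 1) (Pi.single s 1)
  have E0 : ∀ s, E s ≠ 0 := fun s => ro_ne_zero (by simp) (by simp)
  have E1 : ∀ s r, E s * E r = if s = r then E s else 0 := fun s r => by
    rw [ro_mul_ro]; split_ifs with e <;> simp [e, E, Pi.single_apply]
  have E2 : ∀ s, (em i (E s) : EE 3 t F).rank = 3 ^ (t - 1) := fun s =>
    H89.Wr.rank_em_ro i (by simp) (by simp)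
  have E3 : ∀ s, (E s).rank = 1 := fun s => by
    rw [← rk_eq, rg_ro (by simp), finrank_span_singleton (by simp)]
  choose E' hE' using fun s => hy (E s)
  have E4 : ∀ s r, (em j (E' s) * em j (E' r) : EE 3 t F) = if s = r then em j (E' s) else 0 :=
    fun s r => by rw [← hE', ← hE', ← map_mul, ← map_mul, E1]; split_ifs <;> simp
  let U : Fin 3 → Fin 3 → EE 3 t F := fun s r => em i (E s) * em j (E' r)
  have U1 : ∀ s r s' r', U s r * U s' r' = if s = s' ∧ r = r' then U s r else 0 := fun s r s' r' => by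
    rw [mul_assoc, ← mul_assoc (em j _), ← em_comm hij, mul_assoc, ← mul_assoc, ← map_mul, E1, E4]
    split_ifs <;> simp_all [U]
  have U2 : ∀ s r, (y : EE 3 t F) * U s r = U r s * y := fun s r => by
    have a1 := (cj_eq_iff _ _ _).1 (hE' s)
    have a2 : (y : EE 3 t F) * em j (E' r) = em i (E r) * y := by
      rw [← hE', cj_apply, yi, ← mul_assoc, ← mul_assoc, sq, one_mul]
    rw [← mul_assoc, a1, mul_assoc, a2, ← mul_assoc, ← em_comm hij]
  have U3 : ∀ s r, (U s r).rank * 3 = 3 ^ (t - 1) := fun s r => by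
    rw [rank_mul3 (InC.em hij _), E3, ← hE', H89.Wr.rank_cj, E2, one_mul]
  obtain ⟨π, hπ⟩ : ∃ π, π = U 0 1 + U 0 2 + U 1 2 := ⟨_, rfl⟩
  have p1 : π.rank = 3 ^ (t - 1) := by
    rw [hπ, H89.Wr.rank_add_idem (by simp [mul_add, add_mul, U1]) (by simp [U1])
      (by simp [add_mul, U1]) (by simp [mul_add, U1]), H89.Wr.rank_add_idem (by simp [U1])
      (by simp [U1]) (by simp [U1]) (by simp [U1])]
    have := U3 0 1
    have := U3 0 2
    have := U3 1 2
    omega
  have p2 : ∀ η : F, 3 ^ (t - 1) ≤ (pr (η • (y : EE 3 t F)) * π).rank := fun η => by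
    rw [← p1, show π = ((2 : F) • π) * (pr (η • (y : EE 3 t F)) * π) by
      simp [pr, hπ, mul_add, add_mul, U2, ← mul_assoc, U1, smul_smul, h2]]
    conv_rhs => rw [← show π = ((2 : F) • π) * (pr (η • (y : EE 3 t F)) * π) by
      simp [pr, hπ, mul_add, add_mul, U2, ← mul_assoc, U1, smul_smul, h2]]
    exact rank_mul_le_right _ _
  obtain ⟨η, e1, e2⟩ : ∃ η : F, η * η = 1 ∧ (pr (η • (y : EE 3 t F))).rank ≤ 3 ^ (t - 1) := by
    obtain ⟨m, hm, k1, k2⟩ := CI.rank h2 h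
    have a1 := (p2 1).trans (rank_mul_le_left _ _)
    have a2 := (p2 (-1)).trans (rank_mul_le_left _ _)
    rw [one_smul] at a1
    rw [neg_one_smul] at a2
    have : 0 < 3 ^ (t - 1) := by positivity
    by_cases e : m = 1
    · exact ⟨1, by simp, by rw [one_smul, k1, e, one_mul]⟩
    · exact ⟨-1, by simp, by rw [neg_one_smul]; interval_cases m <;> omega⟩
  have p3 := H89.Wr.mul_eq_zero_of_rank (D := U 0 0) (e2.trans (p2 η)) (by
    simp [pr, hπ, mul_add, add_mul, U2, ← mul_assoc, U1])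
  replace p3 : U 0 0 * y = -η • U 0 0 := by
    rw [pr, mul_smul_comm, smul_eq_zero, or_iff_right (inv_ne_zero h2), mul_add, mul_one,
      mul_smul_comm] at p3
    rw [← one_smul F (U 0 0 * y), ← e1, mul_smul, eq_neg_of_add_eq_zero_right p3]
    simp
  intro a
  have c1 : InC i (em l a : EE 3 t F) := InC.em h1.symm a
  have c2 : InC j (em l a : EE 3 t F) := InC.em h3.symm a
  have c3 : U 0 0 * em l a = em l a * U 0 0 := by
    rw [mul_assoc, c2, ← mul_assoc, c1, mul_assoc]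
  have c4 : em i (E 0) * (em j (E' 0) * (cj y (em l a) - em l a)) = 0 := by
    rw [← mul_assoc, mul_sub, cj_apply, yi, ← mul_assoc, ← mul_assoc, p3, smul_mul_assoc, c3,
      smul_mul_assoc, mul_assoc, p3, mul_smul_comm, smul_smul, neg_mul_neg, e1, one_smul, sub_self]
  rcases T2 ((InC.em hij _).mul (((yi ▸ hy.inv).inC c2).sub c1)) c4 with k | k
  · exact (E0 0 k).elim
  rcases T2 ((hy.inC c1).sub c2) k with k | k
  · have := hE' 0
    rw [k, map_zero, map_eq_zero_iff _ (cj y).injective] at this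
    exact (E0 0 (em_eq_zero.1 this)).elim
  · exact ((cj_eq_iff _ _ _).1 (sub_eq_zero.1 k)).symm

theorem jobO3Rig2 : JobO3Rig2.{u} := fun _ _ _ _ h2 h =>
  ⟨fun _ hl => rig2a h2 h hl, fun _ _ _ hy hij h1 h3 => rig2b h2 h hy hij h1 h3⟩

theorem jobO3FL : JobO3FL.{u} := by
  intro R F _ _ t B g l H hT
  haveI := H.simple
  let Y : G0 B →* GG 3 t F := ((MulAut.conj g).toMonoidHom.comp (emG l)).comp (G0 B).subtype
  have hY : ∀ s, (Y s : EE 3 t F) = cj g (em l (s : GL (Fin 3) F)) := fun s => rfl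
  choose σ hσ using fun s : G0 B => exists_perm (g := Y s) (hT s s.2)
  let φ : G0 B →* Equiv.Perm (Fin t) := MonoidHom.mk' σ fun a b => Equiv.ext fun i =>
    Nm.unique (by decide) (hσ (a * b) i) (map_mul Y a b ▸ (hσ a _).mul (hσ b i))
  replace hσ : ∀ s i, Nm (Y s) i (φ s i) := hσ
  obtain ⟨z, hz, z1, z2⟩ := H.exinv
  replace z2 : (⟨z, hz⟩ : G0 B) * ⟨z, hz⟩ = 1 := Subtype.ext z2
  replace z1 : (⟨z, hz⟩ : G0 B) ≠ 1 := fun e => z1 (congrArg Subtype.val e)
  generalize (⟨z, hz⟩ : G0 B) = z at z1 z2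
  obtain ⟨r1, r2⟩ := R F t (Y z) H.two ⟨by rw [← map_mul, z2, map_one], g, l, _, hY z⟩
  have k1 : φ z = 1 := by
    by_contra hc
    obtain ⟨i, hi⟩ : ∃ i, φ z i ≠ i := by
      by_contra! h
      exact hc (Equiv.ext h)
    have e : φ z = Equiv.swap i (φ z i) := Equiv.ext fun m => by
      by_cases e1 : m = i
      · simp [e1]
      by_cases e2 : m = φ z i
      · rw [e2, Equiv.swap_apply_right, ← Equiv.Perm.mul_apply, ← map_mul, z2, map_one]; rfl
      rw [Equiv.swap_apply_of_ne_of_ne e1 e2]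
      exact Nm.unique (by decide) (hσ z m) (r2 i _ m (hσ z i) hi.symm e1 e2).nm
    rcases (MonoidHom.normal_ker (Equiv.Perm.sign.comp φ)).eq_bot_or_eq_top with k | k
    · refine H.nonab ⟨⟨fun a b => (MonoidHom.ker_eq_bot_iff _).1 k ?_⟩⟩
      rw [map_mul, map_mul, mul_comm]
    · have : Equiv.Perm.sign (φ z) = 1 := 
        (k ▸ Subgroup.mem_top z : z ∈ (Equiv.Perm.sign.comp φ).ker)
      rw [e, Equiv.Perm.sign_swap hi.symm] at this
      exact absurd this (by decide)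
  have k2 : φ.ker = ⊤ := (MonoidHom.normal_ker φ).eq_bot_or_eq_top.resolve_left fun e =>
    z1 (Subgroup.mem_bot.1 (e ▸ k1 : z ∈ (⊥ : Subgroup _)))
  have k3 : ∀ s m, Nm (Y s) m m := fun s m => by
    have := hσ s m
    rwa [show φ s = 1 from (k2 ▸ Subgroup.mem_top s : s ∈ φ.ker)] at this
  obtain ⟨k, hk⟩ : ∃ k, InA k (Y z : EE 3 t F) := by
    by_contra! h
    obtain ⟨c, hc⟩ := sc_em.1 (sc_cj.1 (hY z ▸ sc_of_inC fun m => (r1 m (k3 z m)).resolve_left (h m)))
    have a1 := mem_SL.1 (commutator_le_SL _ z.2)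
    have a2 : ((z : GL (Fin 3) F) : Mk 3 F) * (z : GL (Fin 3) F) = 1 := congrArg (·.1.1) z2
    rw [hc, det_smul, det_one, mul_one, Fintype.card_fin] at a1
    rw [hc, smul_mul_smul_comm, mul_one] at a2
    have a3 : c * c = 1 := by simpa using congrFun (congrFun a2 0) 0
    have a4 : c = 1 := by linear_combination a1 - c * a3
    exact z1 (Subtype.ext (Units.ext (by rw [hc, a4, one_smul]; rfl)))
  let N : Subgroup (G0 B) :=
    { carrier := {s | ∀ j, j ≠ k → InC j (Y s : EE 3 t F)}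
      one_mem' := fun j _ => by rw [map_one]; exact InC.one
      mul_mem' := fun ha hb j hj => by rw [map_mul]; exact (ha j hj).mul (hb j hj)
      inv_mem' := fun ha j hj => by rw [map_inv]; exact (ha j hj).inv }
  have hN : N.Normal := ⟨fun n hn s j hj => by
    rw [map_mul, map_mul, map_inv, ← cj_coe]
    exact (k3 s j).inC (hn j hj)⟩
  have k4 : N = ⊤ := hN.eq_bot_or_eq_top.resolve_left fun e =>
    z1 (Subgroup.mem_bot.1 (e ▸ fun j hj => hk.inC hj : z ∈ (⊥ : Subgroup _)))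
  refine ⟨k, nm_of_BB fun X hX => H.cent X fun w hw v hv => ?_⟩
  obtain ⟨s, hs, e⟩ := H.eich w hw v hv
  exact hX _ (e ▸ mem_BB.2 (T4 (k4 ▸ Subgroup.mem_top _ : (⟨s, hs⟩ : G0 B) ∈ N)))

end H95.Wr
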