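/- C7-O3 tower: rigidity of unipotent elements (slots RIG3, PE). -/
import Cfsg.Agent.H95.WrRigA

set_option autoImplicit false

namespace H95.Wr
open Cfsg Cfsg.Geo Matrix H19 H60.Wr Module
open scoped MatrixGroups

universe u

variable {F : Type u} [Field F] {t : ℕ} {y : GG 3 t F} {l : Fin t} {B : Frm (Fin 3) F}
  {w v : Fin 3 → F}

/-- A unipotent isometry normalising a factor acts on it as an Eichler element. -/
theorem unip_split [Finite F] (H : O3L B) (hy : y ∈ (B.pow t).Iso)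
    (hn : IsNilpotent ((y : EE 3 t F) - 1)) (hl : Nm y l l) :
    ∃ w ∈ IsoV B, ∃ v, B.f v w = 0 ∧ ∃ d : GG 3 t F, InC l (d : EE 3 t F) ∧
      (y : EE 3 t F) = em l (eu B w v) * (d : EE 3 t F) := by
  obtain ⟨s, d, hd, e⟩ := hl.exists_eq
  obtain ⟨p, hp⟩ := CharP.exists F
  haveI := Fintype.ofFinite F
  haveI : Fact p.Prime := ⟨(CharP.char_is_prime F p)⟩
  obtain ⟨n, hn⟩ := hn
  have h1 : ((y : EE 3 t F) - 1) ^ p ^ n = 0 :=
    pow_eq_zero_of_le (Nat.lt_pow_self (Fact.out : p.Prime).one_lt).le hn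
  rw [sub_pow_char_pow_of_commute _ _ (Commute.one_right _), one_pow, sub_eq_zero] at h1
  have e' : (y : EE 3 t F) = em l (s : Mk 3 F) * (d : EE 3 t F) := congrArg Units.val e
  have hc : ∀ n : ℕ, InC l ((d : EE 3 t F) ^ n) := fun n a => (Commute.pow_right (hd a) n).eq
  rw [e', Commute.mul_pow (hd _), ← map_pow, ← one_smul F (1 : EE 3 t F)] at h1
  obtain ⟨r, hr⟩ := (sc_of_em_mul (hc _) one_ne_zero h1).1
  obtain ⟨μ, hμ⟩ := (iterateFrobeniusEquiv F p n).surjective r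
  rw [iterateFrobeniusEquiv_def] at hμ
  have μ0 : μ ≠ 0 := by
    rintro rfl
    rw [hr, ← hμ, zero_pow (pow_ne_zero _ (Fact.out : p.Prime).ne_zero)] at h1
    simp at h1
  let b : GL (Fin 3) F := s * (Units.map (algebraMap F (Mk 3 F)).toMonoidHom (Units.mk0 μ μ0))⁻¹
  have hb : (b : Mk 3 F) = μ⁻¹ • (s : Mk 3 F) := by
    simp [b, Algebra.algebraMap_eq_smul_one, ← map_inv]
  have b1 : (b : Mk 3 F) ^ p ^ n = 1 := by
    rw [hb, smul_pow, hr, smul_smul, ← hμ, ← mul_pow, inv_mul_cancel₀ μ0, one_pow, one_smul]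
  have d1 : (((emG l b)⁻¹ * y : GG 3 t F) : EE 3 t F) = μ • (d : EE 3 t F) := by
    rw [Units.val_mul, Units.inv_mul_eq_iff_eq_mul, e']
    change _ = em l (b : Mk 3 F) * _
    rw [hb, map_smul, smul_mul_smul_comm, inv_mul_cancel₀ μ0, one_smul]
  have d2 : InC l (((emG l b)⁻¹ * y : GG 3 t F) : EE 3 t F) := d1 ▸ hd.smul μ
  have d3 : (y : EE 3 t F) = em l (b : Mk 3 F) * (((emG l b)⁻¹ * y : GG 3 t F) : EE 3 t F) :=
    congrArg Units.val (mul_inv_cancel_left (emG l b) y).symm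
  generalize (emG l b)⁻¹ * y = c at d2 d3
  have a1 := In.adj_mul (In.coe.2 hy)
  rw [d3, Frm.adj_mul, adj_em, ← d2.adj B, hm _ _ _ _ (d2.adj B), ← one_smul F (1 : EE 3 t F)] at a1
  obtain ⟨κ, hκ⟩ := (sc_of_em_mul ((d2.adj B).mul d2) one_ne_zero a1).1
  have a2 : B.adj b = κ • ((b⁻¹ : GL (Fin 3) F) : Mk 3 F) := by
    rw [← mul_one (B.adj b), ← b.mul_inv, ← mul_assoc, hκ, smul_mul_assoc, one_mul]
  have a3 := congrArg (· ^ p ^ n) a2
  simp only [← Frm.adj_pow, b1, Frm.adj_one, smul_pow, ← Units.val_pow_eq_pow_val, inv_pow,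
    show b ^ p ^ n = 1 from Units.ext b1, inv_one, Units.val_one] at a3
  have a4 : κ = 1 := (iterateFrobeniusEquiv F p n).injective (by
    rw [iterateFrobeniusEquiv_def, map_one]
    simpa using (congrFun (congrFun a3 0) 0).symm)
  obtain ⟨w, hw, v, hv, e⟩ := H.unip b (B.mem_Iso_iff_adj.2 (by rw [a2, a4, one_smul]))
    ⟨p ^ n, by rw [sub_pow_char_pow_of_commute _ _ (Commute.one_right _), one_pow, b1, sub_self]⟩
  exact ⟨w, hw, v, hv, c, d2, e ▸ d3⟩

theorem fsym (H : O3L B) (x z : Fin 3 → F) : B.f x z = B.f z x := by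
  rw [B.symm, H.eps, H.sig, one_mul]

theorem eu_one (H : O3L B) (hw : w ∈ IsoV B) (hv : v ∈ F ∙ w) : eu B w v = 1 := by
  obtain ⟨c, rfl⟩ := Submodule.mem_span_singleton.1 hv
  simp [eu, rf_smul_right, ro_smul_left, H.sig, B.smul_left, B.smul_right, hw.2]

theorem eu_mulVec (B : Frm (Fin 3) F) (w v x : Fin 3 → F) : eu B w v *ᵥ x =
    x + (B.f x v • w - B.f x w • v) - (B.f v v / 2 * B.f x w) • w := by
  simp only [eu, sub_mulVec, add_mulVec, smul_mulVec, one_mulVec, rf_mulVec, smul_smul]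

theorem jobO3PE : JobO3PE.{u} := by
  intro F _ _ t B g l e H hg hn hl he hC
  obtain ⟨w, hw, v, hv, d, hd, h⟩ := unip_split H hg hn hl
  by_cases hm : v ∈ F ∙ w
  · rwa [h, eu_one H hw hm, map_one, one_mul]
  exfalso
  have k1 : em l (rf B e e * eu B w v - eu B w v * rf B e e) * (d : EE 3 t F) = 0 := by
    rw [map_sub, sub_mul, map_mul, map_mul, mul_assoc, ← h, hC, h, mul_assoc, mul_assoc, hd, sub_self]
  have k2 := congrArg (· *ᵥ e) (sub_eq_zero.1 ((T2 hd k1).resolve_right d.ne_zero))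
  simp only [← mulVec_mulVec, rf_mulVec, mulVec_smul] at k2
  generalize B.f (eu B w v *ᵥ e) e = c at k2
  rw [eu_mulVec] at k2
  have k3 := congrArg (B.f · w) k2
  simp only [B.smul_left, B.add_left, B.sub_left, hw.2, hv] at k3
  have k4 : B.f e w = 0 := by
    by_contra h0
    obtain rfl : c = B.f e e := mul_right_cancel₀ h0 (by linear_combination k3)
    have k5 := smul_right_injective _ he k2
    refine hm (Submodule.mem_span_singleton.2 ⟨(B.f e w)⁻¹ * (B.f e v - B.f v v / 2 * B.f e w), ?_⟩)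
    rw [mul_smul, inv_smul_eq_iff₀ h0]
    linear_combination (norm := module) -k5
  have k5 := congrArg (B.f · e) k2
  simp only [B.smul_left, B.add_left, B.sub_left, fsym H w e, k4] at k5
  obtain rfl : c = B.f e e := mul_right_cancel₀ he (by linear_combination k5)
  have k6 : B.f e v = 0 := by
    have := smul_right_injective _ he k2
    simpa [k4, hw.1] using this
  obtain ⟨w', hw', h1⟩ := H.hyp w hw
  obtain ⟨u, u1, u2, u3, u4⟩ := H.frame w hw w' hw' h1
  have k7 := congrArg (· *ᵥ e) u4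
  have k8 := congrArg (· *ᵥ v) u4
  simp only [add_mulVec, smul_mulVec, rf_mulVec, one_mulVec, k4, hv, zero_smul, add_zero] at k7 k8
  have k9 := congrArg (B.f e) k8
  simp only [B.add_right, B.smul_right, H.sig, k4, k6, mul_zero, zero_add, mul_eq_zero,
    inv_eq_zero, u3, false_or] at k9
  rcases k9 with k | k
  · exact hm (Submodule.mem_span_singleton.2 ⟨_, by simpa [k] using k8⟩)
  · have := congrArg (B.f e) k7
    simp only [B.add_right, B.smul_right, k4, k, mul_zero, zero_add] at this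
    exact he this.symm

theorem cube {R : Type*} [Ring R] {X d : R} (h : Commute d X) : ((1 + X) * d - 1) ^ 3 =
    (d - 1) ^ 3 + X * (3 * d * (d - 1) ^ 2) + X ^ 2 * (3 * d ^ 2 * (d - 1)) + X ^ 3 * d ^ 3 := by
  simp only [show (3 : R) = 1 + 1 + 1 by norm_num, pow_succ, pow_zero, mul_add, add_mul, mul_sub,
    sub_mul, mul_one, one_mul, mul_assoc, h.eq, h.left_comm]
  abel

theorem jobO3Rig3 : JobO3Rig3.{u} := by
  intro F _ _ t B y H h5 ht hT hy h3
  have hN : ∀ i, Nm y i i := fun i => by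
    obtain ⟨σ, hσ⟩ := exists_perm hT
    have a1 : ∀ n : ℕ, Nm (y ^ n) i ((σ ^ n) i) := fun n => by
      induction n with
      | zero => exact fun a => ⟨a, by simp⟩
      | succ n ih => rw [pow_succ', pow_succ']; exact (hσ _).mul ih
    haveI : Fact (Nat.Prime 5) := ⟨by norm_num⟩
    haveI : CharP F 5 := (CharP.charP_iff_prime_eq_zero Fact.out).2 (by exact_mod_cast h5)
    have a2 : y ^ 5 = 1 := Units.ext (by
      have : ((y : EE 3 t F) - 1) ^ 5 = 0 := pow_eq_zero_of_le (by norm_num) h3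
      rwa [sub_pow_char_of_commute _ (Commute.one_right _), one_pow, sub_eq_zero] at this)
    have a3 : (σ ^ 5) i = i := Nm.unique (by decide) (a2 ▸ a1 5) fun a => ⟨a, by simp⟩
    by_contra h0
    have e1 : i ≠ σ i := fun e => h0 (by simpa only [← e] using hσ i)
    simp only [pow_succ', pow_zero, mul_one, Equiv.Perm.mul_apply] at a3
    have e2 : i ≠ σ (σ i) := fun e => e1 (by rw [← e, ← e] at a3; exact a3.symm)
    have e3 : i ≠ σ (σ (σ i)) := fun e => e2 (by rw [← e] at a3; exact a3.symm)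
    let ε : Mk 3 F := ro (Pi.single 0 1) (Pi.single 0 1)
    have b1 : (1 - ε) * ε = 0 := by simp [ε, sub_mul, ro_mul_ro]
    have b2 : ε ≠ 0 := ro_ne_zero (by simp) (by simp)
    have b3 : 1 - ε ≠ 0 := fun e => by
      simpa [ε, vecMulVec_apply, Pi.single_apply] using congrFun (congrFun e 1) 1
    have c : ∀ n : ℕ, ∃ a : Mk 3 F, a ≠ 0 ∧
        em ((σ ^ n) i) a * ((y : EE 3 t F) ^ n * em i ε) = 0 := fun n => by
      obtain ⟨a, ha⟩ := a1 n (1 - ε)
      refine ⟨a, fun e => ?_, ?_⟩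
      · rw [e, map_zero, map_eq_zero_iff _ (cj _).injective] at ha
        exact b3 (em_eq_zero.1 ha)
      · rw [← ha, ← Units.val_pow_eq_pow_val, ← mul_assoc, cj_mul_self, mul_assoc, ← map_mul, b1,
          map_zero, mul_zero]
    obtain ⟨p, p0, p1⟩ := c 1
    obtain ⟨q, q0, q1⟩ := c 2
    obtain ⟨r, r0, r1⟩ := c 3
    simp only [pow_succ' σ, pow_zero, mul_one, Equiv.Perm.mul_apply] at p1 q1 r1
    have f1 : σ i ≠ σ (σ i) := σ.injective.ne e1
    have f2 : σ i ≠ σ (σ (σ i)) := σ.injective.ne e2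
    have f3 : σ (σ i) ≠ σ (σ (σ i)) := σ.injective.ne f1
    have c4 : em (σ i) p * (em (σ (σ i)) q * (em (σ (σ (σ i))) r * em i ε)) = (0 : EE 3 t F) := by
      have k : (1 : EE 3 t F) = (y : EE 3 t F) ^ 3 - 3 * (y : EE 3 t F) ^ 2 + 3 * (y : EE 3 t F) ^ 1 := by
        rw [← sub_eq_zero, ← neg_eq_zero, ← h3]; noncomm_ring
      rw [← one_mul (em i ε), k, show (3 : EE 3 t F) = 1 + 1 + 1 by norm_num]
      simp only [add_mul, sub_mul, one_mul, mul_add, mul_sub, r1, mul_zero]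
      rw [(Commute.left_comm (em_comm f3 q r) _), q1, ← mul_assoc (em _ q) (em _ r) (_ ^ 1 * _),
        Commute.left_comm ((InC.em f1 q).mul (InC.em f2 r) p), p1]
      simp
    rcases T2 ((InC.em f1 q).mul ((InC.em f2 r).mul (InC.em e1.symm ε))) c4 with k | k
    · exact p0 k
    rcases T2 ((InC.em f3 r).mul (InC.em e2.symm ε)) k with k | k
    · exact q0 k
    rcases T2 (InC.em e3.symm ε) k with k | k
    · exact r0 k
    · exact b2 (em_eq_zero.1 k)
  by_contra! h0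
  refine h0 ⟨0, ht⟩ ((sc_of_inC fun j => ?_).inA _)
  obtain ⟨w, hw, v, hv, d, hd, h⟩ := unip_split H hy ⟨3, h3⟩ (hN j)
  by_cases hm : v ∈ F ∙ w
  · rwa [h, eu_one H hw hm, map_one, one_mul]
  refine (h0 j ⟨eu B w v, ?_⟩).elim
  obtain ⟨β, hβ⟩ : ∃ β, eu B w v = 1 + β := ⟨_, (add_sub_cancel _ _).symm⟩
  have b1 : β = rf B w v - rf B v w - (B.f v v / 2) • rf B w w := by
    rw [← add_right_inj 1, ← hβ, eu, add_sub_assoc]
  have b2 : β ^ 2 = -B.f v v • rf B w w := by
    simp [b1, pow_two, mul_sub, sub_mul, rf_mul_rf, hw.2, hv, fsym H w v]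
  have b3 : β ^ 2 * β = 0 := by
    rw [b2]
    simp [b1, mul_sub, rf_mul_rf, hw.2, hv]
  have b4 : β ^ 2 ≠ 0 := b2 ▸ smul_ne_zero (neg_ne_zero.2 fun e => hm (H.ns w hw v hv e))
    (rf_ne_zero hw.1 hw.1)
  have t3 : (3 : F) ≠ 0 := fun e => H.two (by linear_combination h5 - e)
  have x3 : (em j β : EE 3 t F) ^ 3 = 0 := by rw [← map_pow, pow_succ, b3, map_zero]
  have c0 : ∀ n : ℕ, InC j ((d : EE 3 t F) ^ n) := fun n a => (Commute.pow_right (hd a) n).eq
  have c1 : ∀ n : ℕ, InC j (((d : EE 3 t F) - 1) ^ n) := fun n a =>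
    (Commute.pow_right (hd.sub InC.one a) n).eq
  have c3 : InC j (3 : EE 3 t F) := fun a => (Commute.ofNat_right _ _).eq
  rw [h, hβ, map_add, map_one, cube (hd β).symm, x3, zero_mul, add_zero] at h3
  have k : ∀ X, InC j X → (em j β : EE 3 t F) ^ 2 * X = 0 → X = 0 := fun X hX e =>
    (T2 hX (by rwa [map_pow])).resolve_left b4
  have k1 := k _ (c1 3) (by
    have := congrArg (fun Z => (em j β : EE 3 t F) ^ 2 * Z) h3
    beta_reduce at this
    rwa [mul_add, mul_add, ← mul_assoc _ (em j β), ← pow_succ, x3, ← mul_assoc _ (_ ^ 2), ← pow_add,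
      pow_succ _ 3, x3, zero_mul, zero_mul, zero_mul, add_zero, add_zero, mul_zero] at this)
  rw [k1, zero_add] at h3
  have k2 := k _ ((c3.mul hd).mul (c1 2)) (by
    have := congrArg ((em j β : EE 3 t F) * ·) h3
    beta_reduce at this
    rwa [mul_add, ← mul_assoc, ← pow_two, ← mul_assoc _ (_ ^ 2), ← pow_succ', x3, zero_mul, add_zero,
      mul_zero] at this)
  rw [k2, mul_zero, zero_add] at h3
  have k3 := k _ ((c3.mul (c0 2)).mul (hd.sub InC.one)) h3
  rw [mul_assoc, show (3 : EE 3 t F) = (3 : F) • 1 by simp [ofNat_smul_eq_nsmul], smul_mul_assoc,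
    one_mul, smul_eq_zero, or_iff_right t3, ← Units.val_pow_eq_pow_val, Units.mul_right_eq_zero,
    sub_eq_zero] at k3
  rw [h, k3, mul_one]

end H95.Wr
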